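import Cfsg.Agent.H43.DetGalois
import Cfsg.Agent.H43.InvCount
import Cfsg.Agent.H43.SubConj
import Cfsg.Agent.H43.InvariantAbove

/-!
# Values of canonical extensions on `C × ⟨s⟩` for coprime action of a cyclic group
-/

namespace Cfsg.Agent.H43

open scoped ComplexConjugate

variable {Γ : Type*} [Group Γ] [Fintype Γ]

/-- The setting: `Γ = G S`, coprime orders, `S` cyclic, `C = C_G(S)`. -/
structure CycData (G S C : Subgroup Γ) : Prop where
  hnorm : ∀ s ∈ S, ∀ g ∈ G, s * g * s⁻¹ ∈ G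
  hcop : (Nat.card G).Coprime (Nat.card S)
  htop : G ⊔ S = ⊤
  hcyc : IsCyclic S
  hC : C = G ⊓ Subgroup.centralizer (S : Set Γ)
  hCG : C ≤ G

variable {G S C : Subgroup Γ}

namespace CycData

theorem normal (h : CycData G S C) : G.Normal := by
  rw [← Subgroup.normalizer_eq_top_iff, eq_top_iff, ← h.htop]
  exact sup_le Subgroup.le_normalizer (le_normalizer_of_conj_mem h.hnorm)

theorem isComplement' (h : CycData G S C) : S.IsComplement' G := by
  haveI := h.normal
  exact Subgroup.isComplement'_of_disjoint_and_mul_eq_univ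
    (Subgroup.disjoint_of_coprime_natCard h.hcop.symm)
    (by rw [← Subgroup.mul_normal, sup_comm, h.htop, Subgroup.coe_top])

theorem index_eq (h : CycData G S C) : G.index = Nat.card S := h.isComplement'.index_eq_card

theorem card_eq (h : CycData G S C) : Nat.card Γ = Nat.card G * Nat.card S := by
  rw [← h.index_eq, G.card_mul_index]

theorem exists_gen (h : CycData G S C) : ∃ s, Subgroup.zpowers s = S := by
  haveI := h.hcyc
  obtain ⟨a, ha⟩ := IsCyclic.exists_generator (α := S)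
  refine ⟨a, le_antisymm (Subgroup.zpowers_le.mpr a.2) fun x hx => ?_⟩
  obtain ⟨k, hk⟩ := Subgroup.mem_zpowers_iff.mp (ha ⟨x, hx⟩)
  exact Subgroup.mem_zpowers_iff.mpr ⟨k, congrArg Subtype.val hk⟩

theorem mem_centralizer (h : CycData G S C) {c x : Γ} (hc : c ∈ C) (hx : x ∈ S) : Commute c x := by
  have h1 : c ∈ G ⊓ Subgroup.centralizer (S : Set Γ) := h.hC ▸ hc
  exact (Subgroup.mem_centralizer_iff.mp h1.2 x hx).symm

theorem exists_exp (h : CycData G S C) : ∃ e : ℕ, e ≡ 0 [MOD Nat.card G] ∧ e ≡ 1 [MOD Nat.card S] :=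
  ⟨_, (Nat.chineseRemainder h.hcop 0 1).2⟩

theorem pow_cs (h : CycData G S C) {e : ℕ} (he0 : e ≡ 0 [MOD Nat.card G])
    (he1 : e ≡ 1 [MOD Nat.card S]) {c x : Γ} (hc : c ∈ C) (hx : x ∈ S) : (c * x) ^ e = x := by
  have h1 : c ^ e = 1 := by
    rw [← orderOf_dvd_iff_pow_eq_one]
    exact (Subgroup.orderOf_dvd_natCard G (h.hCG hc)).trans (Nat.modEq_zero_iff_dvd.mp he0)
  have h2 : x ^ e = x := by
    conv_rhs => rw [← pow_one x]
    exact pow_eq_pow_iff_modEq.mpr (he1.of_dvd (Subgroup.orderOf_dvd_natCard S hx))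
  rw [(h.mem_centralizer hc hx).mul_pow, h1, h2, one_mul]

theorem centralizes (h : CycData G S C) {s y : Γ} (hs : Subgroup.zpowers s = S) (hy : y ∈ G)
    (hys : y * s * y⁻¹ = s) : y ∈ C := by
  rw [h.hC]
  refine ⟨hy, Subgroup.mem_centralizer_iff.mpr fun x hx => ?_⟩
  rw [SetLike.mem_coe, ← hs] at hx
  obtain ⟨k, rfl⟩ := Subgroup.mem_zpowers_iff.mp hx
  exact ((show Commute s y from (mul_inv_eq_iff_eq_mul.mp hys).symm).zpow_left k).eq

variable [Fintype G] [Fintype C]

/-- Summing a class function over the coset of a generator. -/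
theorem coset_sum (h : CycData G S C) {s : Γ} (hs : Subgroup.zpowers s = S) {F : Γ → ℂ}
    (hF : ∀ a x, F (x * a * x⁻¹) = F a) :
    (Nat.card C : ℂ) * ∑ g : G, F ((g : Γ) * s) =
      (Nat.card G : ℂ) * ∑ c : C, F ((c : Γ) * s) := by
  classical
  haveI := h.normal
  have hsS : s ∈ S := hs ▸ Subgroup.mem_zpowers s
  obtain ⟨e, he0, he1⟩ := h.exists_exp
  let Φ : G × C → G := fun p => ⟨(p.1 : Γ) * ((p.2 : Γ) * s) * (p.1 : Γ)⁻¹ * s⁻¹, by
    rw [show (p.1 : Γ) * ((p.2 : Γ) * s) * (p.1 : Γ)⁻¹ * s⁻¹ =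
      (p.1 : Γ) * (p.2 : Γ) * (s * (p.1 : Γ)⁻¹ * s⁻¹) by group]
    exact G.mul_mem (G.mul_mem p.1.2 (h.hCG p.2.2)) (h.hnorm s hsS _ (G.inv_mem p.1.2))⟩
  have hΦ : ∀ p, (Φ p : Γ) * s = (p.1 : Γ) * ((p.2 : Γ) * s) * (p.1 : Γ)⁻¹ := fun p =>
    inv_mul_cancel_right _ _
  -- every fibre of `Φ` has at most `|C|` elements
  have hfib : ∀ g₀ : G, (Finset.univ.filter fun p => Φ p = g₀).card ≤ Fintype.card C := by
    intro g₀
    by_cases hne : ∃ p₀, Φ p₀ = g₀
    · obtain ⟨⟨g₁, c₁⟩, hp₀⟩ := hne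
      have key : ∀ p : G × C, Φ p = g₀ → (g₁ : Γ)⁻¹ * (p.1 : Γ) ∈ C ∧
          ((g₁ : Γ)⁻¹ * (p.1 : Γ)) * (p.2 : Γ) * ((g₁ : Γ)⁻¹ * (p.1 : Γ))⁻¹ = c₁ := by
        rintro ⟨g, c⟩ hp
        have h1 : (g : Γ) * ((c : Γ) * s) * (g : Γ)⁻¹ = (g₁ : Γ) * ((c₁ : Γ) * s) * (g₁ : Γ)⁻¹ := by
          rw [← hΦ (g, c), ← hΦ (g₁, c₁), hp, hp₀]
        simp only
        set y := (g₁ : Γ)⁻¹ * (g : Γ) with hy
        have h2 : y * ((c : Γ) * s) * y⁻¹ = (c₁ : Γ) * s := by
          calc y * ((c : Γ) * s) * y⁻¹ = (g₁ : Γ)⁻¹ * ((g : Γ) * ((c : Γ) * s) * (g : Γ)⁻¹) * g₁ := by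
                rw [hy]; group
            _ = _ := by rw [h1]; group
        have h3 : y * s * y⁻¹ = s := by
          have := congrArg (· ^ e) h2
          rwa [conj_pow, h.pow_cs he0 he1 c.2 hsS, h.pow_cs he0 he1 c₁.2 hsS] at this
        refine ⟨h.centralizes hs (G.mul_mem (G.inv_mem g₁.2) g.2) h3, ?_⟩
        have h4 : y * (c : Γ) * y⁻¹ * (y * s * y⁻¹) = (c₁ : Γ) * s := by rw [← h2]; group
        rw [h3] at h4
        exact mul_right_cancel h4
      let f : {p // p ∈ Finset.univ.filter fun p => Φ p = g₀} → C := fun p =>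
        ⟨_, (key p.1 (Finset.mem_filter.mp p.2).2).1⟩
      rw [← Fintype.card_coe]
      refine Fintype.card_le_of_injective f ?_
      rintro ⟨⟨g, c⟩, hp⟩ ⟨⟨g', c'⟩, hp'⟩ e'
      have e1 : (g₁ : Γ)⁻¹ * (g : Γ) = (g₁ : Γ)⁻¹ * (g' : Γ) := congrArg Subtype.val e'
      obtain rfl : g = g' := Subtype.ext (mul_left_cancel e1)
      have e2 := (key (g, c) (Finset.mem_filter.mp hp).2).2.trans
        (key (g, c') (Finset.mem_filter.mp hp').2).2.symm
      simp only at e2
      obtain rfl : c = c' := Subtype.ext (mul_left_cancel (mul_right_cancel e2))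
      rfl
    · push Not at hne
      rw [Finset.filter_eq_empty_iff.mpr fun p _ => hne p, Finset.card_empty]
      exact Nat.zero_le _
  have htot : ∑ g₀ : G, (Finset.univ.filter fun p => Φ p = g₀).card =
      ∑ _g₀ : G, Fintype.card C := by
    rw [← Finset.card_eq_sum_card_fiberwise (fun p _ => Finset.mem_univ _), Finset.card_univ,
      Fintype.card_prod, Finset.sum_const, Finset.card_univ, smul_eq_mul]
  have hfib' : ∀ g₀ : G, (Finset.univ.filter fun p => Φ p = g₀).card = Fintype.card C := fun g₀ =>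
    (Finset.sum_eq_sum_iff_of_le fun g _ => hfib g).mp htot g₀ (Finset.mem_univ _)
  calc (Nat.card C : ℂ) * ∑ g : G, F ((g : Γ) * s)
      = ∑ g₀ : G, ∑ _p ∈ Finset.univ.filter (fun p => Φ p = g₀), F ((g₀ : Γ) * s) := by
        rw [Finset.mul_sum]
        refine Finset.sum_congr rfl fun g₀ _ => ?_
        rw [Finset.sum_const, hfib', nsmul_eq_mul, Nat.card_eq_fintype_card]
    _ = ∑ g₀ : G, ∑ p ∈ Finset.univ.filter (fun p => Φ p = g₀), F ((p.2 : Γ) * s) := by
        refine Finset.sum_congr rfl fun g₀ _ => Finset.sum_congr rfl fun p hp => ?_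
        rw [← (Finset.mem_filter.mp hp).2, hΦ, hF]
    _ = ∑ p : G × C, F ((p.2 : Γ) * s) := Finset.sum_fiberwise _ _ _
    _ = _ := by
        rw [Fintype.sum_prod_type]
        simp only
        rw [Finset.sum_const, Finset.card_univ, nsmul_eq_mul, Nat.card_eq_fintype_card]

/-- Canonical extension. -/
def IsExt (G S : Subgroup Γ) (χ : Cfsg.IrrCharacter G) (χh : Cfsg.IrrCharacter Γ) : Prop :=
  (∀ g : G, χh.1 g = χ.1 g) ∧ (Cfsg.detOrder χh.1).Coprime (Nat.card S)

theorem exists_isExt (h : CycData G S C) (χ : Cfsg.IrrCharacter G) (hχ : ConjInv G S χ.1) :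
    ∃ χh, IsExt G S χ χh := by
  haveI := h.normal
  have hinv : ∀ x : Γ, irrConj G x χ = χ := irrConj_eq_self_of_sup_eq_top G χ S h.htop
    fun s hs => Subtype.ext (funext fun n => hχ s hs n _ (MulAut.conjNormal_apply s n))
  have hd : Nat.Coprime (Cfsg.detOrder χ.1 * Cfsg.charDegree χ.1) (Nat.card S) :=
    Nat.Coprime.mul_left (h.hcop.coprime_dvd_left (detOrder_dvd_card (H26.irr_isCharacter χ)))
      (h.hcop.coprime_dvd_left (irr_charDegree_dvd χ))
  obtain ⟨χh, h1, h2⟩ := exists_coprime_ext χ hinv (by rw [h.index_eq]; exact hd.symm)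
  exact ⟨χh, h1, by rw [h2]; exact hd.coprime_dvd_left (dvd_mul_right _ _)⟩

theorem ext_degree {χ : Cfsg.IrrCharacter G} {χh : Cfsg.IrrCharacter Γ} (hχ : IsExt G S χ χh) :
    Cfsg.charDegree χh.1 = Cfsg.charDegree χ.1 := by
  simp only [Cfsg.charDegree]
  rw [← hχ.1 1, Subgroup.coe_one]

/-- Orthogonality of canonical extensions on the coset of a generator. -/
theorem coset_orth (h : CycData G S C) [DecidableEq (Cfsg.IrrCharacter G)] {s : Γ}
    (hs : s ∈ S) {χ χ' : Cfsg.IrrCharacter G} {χh χh' : Cfsg.IrrCharacter Γ}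
    (hχ : IsExt G S χ χh) (hχ' : IsExt G S χ' χh') :
    ∑ g : G, χh.1 ((g : Γ) * s) * conj (χh'.1 ((g : Γ) * s)) =
      if χ = χ' then (Nat.card G : ℂ) else 0 := by
  classical
  haveI := h.normal
  haveI hcS := h.hcyc
  haveI : IsMulCommutative S := ⟨⟨fun a b => (IsCyclic.commGroup (α := S)).mul_comm a b⟩⟩
  set π : Γ →* S := h.isComplement'.QuotientMulEquiv.toMonoidHom.comp (QuotientGroup.mk' G) with hπ
  have hπker : ∀ x, π x = 1 ↔ x ∈ G := fun x => by
    rw [hπ, MonoidHom.comp_apply, MulEquiv.coe_toMonoidHom, MulEquiv.map_eq_one_iff]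
    exact QuotientGroup.eq_one_iff x
  set F : Γ → ℂ := fun x => χh.1 x * conj (χh'.1 x) with hFdef
  have hsum : ∑ μ : S →* ℂˣ, (μ (π s) : ℂ) * ∑ x : Γ, F x * conj (μ (π x) : ℂ) =
      (Nat.card S : ℂ) * ∑ g : G, F ((g : Γ) * s) := by
    simp_rw [Finset.mul_sum]
    rw [Finset.sum_comm]
    have hx : ∀ x : Γ, ∑ μ : S →* ℂˣ, (μ (π s) : ℂ) * (F x * conj (μ (π x) : ℂ)) =
        if x * s⁻¹ ∈ G then (Nat.card S : ℂ) * F x else 0 := fun x => by
      have h1 : ∀ μ : S →* ℂˣ, (μ (π s) : ℂ) * (F x * conj (μ (π x) : ℂ)) =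
          F x * conj (μ (π (x * s⁻¹)) : ℂ) := fun μ => by
        rw [map_mul π, map_mul μ, Units.val_mul, map_mul (starRingEnd ℂ)]
        rw [show conj (μ (π s⁻¹) : ℂ) = (μ (π s) : ℂ) by
          have h2 : (μ (π s⁻¹) : ℂ) * (μ (π s) : ℂ) = 1 := by
            rw [← Units.val_mul, ← map_mul, ← map_mul, inv_mul_cancel, map_one, map_one,
              Units.val_one]
          have h3 := hom_mul_conj μ (π s⁻¹)
          exact mul_left_cancel₀ (Units.ne_zero _) (h3.trans h2.symm)]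
        ring
      simp_rw [h1]
      rw [← Finset.mul_sum, ← map_sum, H27.sum_linear_apply]
      by_cases hxs : x * s⁻¹ ∈ G
      · rw [if_pos hxs, if_pos ((hπker _).mpr hxs), Complex.conj_natCast, mul_comm]
      · rw [if_neg hxs, if_neg fun e => hxs ((hπker _).mp e), map_zero, mul_zero]
    simp_rw [hx]
    rw [← Finset.sum_filter]
    refine Finset.sum_bij' (fun x hx => ⟨x * s⁻¹, (Finset.mem_filter.mp hx).2⟩)
      (fun g _ => (g : Γ) * s) ?_ ?_ ?_ ?_ ?_
    · intros; exact Finset.mem_univ _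
    · intro g _; simp
    · intro x _; simp
    · intro g _; exact Subtype.ext (by simp)
    · intro x _; simp
  have hterm : ∀ μ : S →* ℂˣ, ∑ x : Γ, F x * conj (μ (π x) : ℂ) =
      if χ = χ' ∧ μ = 1 then (Nat.card Γ : ℂ) else 0 := fun μ => by
    have h1 := sum_mul_conj χh (irrTwist χh' (μ.comp π))
    have h2 : ∑ x : Γ, F x * conj (μ (π x) : ℂ) =
        ∑ x : Γ, χh.1 x * conj ((irrTwist χh' (μ.comp π)).1 x) :=
      Finset.sum_congr rfl fun x _ => by
        show χh.1 x * conj (χh'.1 x) * conj (μ (π x) : ℂ) =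
          χh.1 x * conj (χh'.1 x * (μ (π x) : ℂ))
        rw [map_mul]; ring
    rw [h2, h1]
    have hiff : χh = irrTwist χh' (μ.comp π) ↔ χ = χ' ∧ μ = 1 := by
      constructor
      · intro e
        have hres : χ = χ' := Subtype.ext (funext fun g => by
          rw [← hχ.1, e, irrTwist_apply, MonoidHom.comp_apply, (hπker _).mpr g.2, map_one,
            Units.val_one, mul_one, hχ'.1])
        subst hres
        refine ⟨rfl, ?_⟩
        have huniq := coprime_ext_unique χ χh χh'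
          (by rw [h.index_eq]; exact (h.hcop.coprime_dvd_left (irr_charDegree_dvd χ)).symm)
          hχ.1 hχ'.1 (by rw [h.index_eq]; exact hχ.2.symm) (by rw [h.index_eq]; exact hχ'.2.symm)
        rw [huniq] at e
        have hpow : (μ.comp π) ^ Nat.card S = 1 := MonoidHom.ext fun g => by
          rw [MonoidHom.pow_apply, MonoidHom.comp_apply, ← map_pow, pow_card_eq_one', map_one,
            MonoidHom.one_apply]
        have h3 := irrTwist_injective χh (f := 1) (f' := μ.comp π) (MonoidHom.ext fun g => by rw [MonoidHom.pow_apply, MonoidHom.one_apply, one_pow]) hpow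
          (by rw [ext_degree hχ]; exact h.hcop.coprime_dvd_left (irr_charDegree_dvd χ))
          ((irrTwist_one χh).trans e)
        have hsurj : Function.Surjective π :=
          h.isComplement'.QuotientMulEquiv.surjective.comp (QuotientGroup.mk'_surjective G)
        exact (MonoidHom.cancel_right hsurj).mp (by rw [← h3, MonoidHom.one_comp])
      · rintro ⟨rfl, rfl⟩
        have huniq := coprime_ext_unique χ χh' χh
          (by rw [h.index_eq]; exact (h.hcop.coprime_dvd_left (irr_charDegree_dvd χ)).symm)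
          hχ'.1 hχ.1 (by rw [h.index_eq]; exact hχ'.2.symm) (by rw [h.index_eq]; exact hχ.2.symm)
        rw [MonoidHom.one_comp, irrTwist_one, huniq]
    exact if_congr hiff rfl rfl
  simp_rw [hterm, mul_ite, mul_zero] at hsum
  have hS0 : (Nat.card S : ℂ) ≠ 0 := Nat.cast_ne_zero.mpr Nat.card_pos.ne'
  refine mul_left_cancel₀ hS0 (hsum.symm.trans ?_)
  by_cases hc : χ = χ'
  · simp only [hc, true_and, if_true]
    rw [Finset.sum_ite_eq' Finset.univ (1 : S →* ℂˣ), if_pos (Finset.mem_univ _),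
      MonoidHom.one_apply, Units.val_one, one_mul, h.card_eq]
    push_cast
    ring
  · simp only [hc, false_and, if_false, Finset.sum_const_zero, mul_zero]

/-- The coefficient of `β` in `c ↦ χ̂(c s)`. -/
noncomputable def coef (C : Subgroup Γ) [Fintype C] (χh : Cfsg.IrrCharacter Γ)
    (β : Cfsg.IrrCharacter C) (s : Γ) : ℂ :=
  Cfsg.classInner (fun c : C => χh.1 ((c : Γ) * s)) β.1

/-- The value on `C s` does not depend on the generator. -/
theorem gen_indep (h : CycData G S C) {χ : Cfsg.IrrCharacter G} {χh : Cfsg.IrrCharacter Γ}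
    (hχ : IsExt G S χ χh) {s t : Γ} (hs : Subgroup.zpowers s = S) (ht : Subgroup.zpowers t = S)
    (c : C) : χh.1 ((c : Γ) * t) = χh.1 ((c : Γ) * s) := by
  haveI := h.normal
  have htS : t ∈ S := ht ▸ Subgroup.mem_zpowers t
  have hsS : s ∈ S := hs ▸ Subgroup.mem_zpowers s
  obtain ⟨j, hj⟩ : ∃ j : ℕ, s ^ j = t :=
    Submonoid.mem_powers_iff t s |>.mp ((mem_powers_iff_mem_zpowers).mpr (hs ▸ htS))
  have hord : orderOf s = Nat.card S := by rw [← hs, Nat.card_zpowers]
  have hjcop : j.Coprime (Nat.card S) := by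
    have h1 : orderOf (s ^ j) = orderOf s := by rw [hj, ← Nat.card_zpowers, ht, hord]
    rw [orderOf_pow] at h1
    have h2 := Nat.gcd_dvd_left (orderOf s) j
    have h3 : (orderOf s).gcd j = 1 :=
      Nat.eq_one_of_mul_eq_one_right (n := 1) (by
        have := Nat.div_mul_cancel h2
        rw [h1] at this
        nlinarith [orderOf_pos s])
    rw [hord] at h3
    exact Nat.Coprime.symm h3
  obtain ⟨k, hk0, hk1⟩ : ∃ k, k ≡ 1 [MOD Nat.card G] ∧ k ≡ j [MOD Nat.card S] :=
    ⟨_, (Nat.chineseRemainder h.hcop 1 j).2⟩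
  have hk : k.Coprime (Nat.card Γ) := by
    rw [h.card_eq]
    refine Nat.Coprime.mul_right ?_ ?_
    · rw [Nat.Coprime, hk0.gcd_eq, Nat.gcd_one_left]
    · rw [Nat.Coprime, hk1.gcd_eq]; exact hjcop
  obtain ⟨σ, hσ⟩ := H45.exists_ringAut_pow (Nat.card_pos (α := Γ)).ne' hk
  have hgal : (fun g => σ (χh.1 g)) = (H45.galIrr hk χh).1 :=
    funext fun g => H45.ringAut_char (H26.irr_isCharacter χh) σ hσ g
  have hfix : ∀ g : Γ, g ∈ G → g ^ k = g := fun g hg => by
    conv_rhs => rw [← pow_one g]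
    exact pow_eq_pow_iff_modEq.mpr (hk0.of_dvd (Subgroup.orderOf_dvd_natCard G hg))
  have huniq : H45.galIrr hk χh = χh :=
    coprime_ext_unique χ χh (H45.galIrr hk χh)
      (by rw [h.index_eq]; exact (h.hcop.coprime_dvd_left (irr_charDegree_dvd χ)).symm)
      hχ.1 (fun g => by show χh.1 ((g : Γ) ^ k) = χ.1 g; rw [hfix g g.2, hχ.1])
      (by rw [h.index_eq]; exact hχ.2.symm)
      (by rw [h.index_eq, ← hgal, detOrder_ringAut (H26.irr_isCharacter χh)]; exact hχ.2.symm)
  conv_rhs => rw [← huniq]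
  show χh.1 ((c : Γ) * t) = χh.1 (((c : Γ) * s) ^ k)
  rw [(h.mem_centralizer c.2 hsS).mul_pow, hfix c (h.hCG c.2), ← hj]
  rw [show s ^ j = s ^ k from pow_eq_pow_iff_modEq.mpr ((hk1.of_dvd (dvd_of_eq hord)).symm)]

/-- The coefficients are rational integers. -/
theorem coef_isInt (h : CycData G S C) {χ : Cfsg.IrrCharacter G} {χh : Cfsg.IrrCharacter Γ}
    (hχ : IsExt G S χ χh) {s : Γ} (hs : Subgroup.zpowers s = S) (β : Cfsg.IrrCharacter C) :
    ∃ n : ℤ, coef C χh β s = n := by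
  classical
  have hsS : s ∈ S := hs ▸ Subgroup.mem_zpowers s
  have hC0 : (Nat.card C : ℂ) ≠ 0 := Nat.cast_ne_zero.mpr Nat.card_pos.ne'
  -- the coefficient is the multiplicity function of `β`, an algebraic integer
  have hint : IsIntegral ℤ (coef C χh β s) := by
    haveI : Fintype (C ⊔ S : Subgroup Γ) := Fintype.ofFinite _
    set j := Subgroup.inclusion (le_sup_left : C ≤ C ⊔ S)
    have hD : Cfsg.IsCharacter (C ⊔ S : Subgroup Γ) (fun d => χh.1 d) :=
      H26.isCharacter_comp (H26.irr_isCharacter χh) (C ⊔ S).subtype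
    have hcent : ∀ d : (C ⊔ S : Subgroup Γ), Commute (d : Γ) s := by
      have hle : C ⊔ S ≤ Subgroup.centralizer ({s} : Set Γ) := by
        refine sup_le (fun c hc => ?_) fun x hx => ?_
        · exact Subgroup.mem_centralizer_singleton_iff.mpr (h.mem_centralizer hc hsS).eq
        · rw [← hs] at hx
          obtain ⟨k, rfl⟩ := Subgroup.mem_zpowers_iff.mp hx
          exact Subgroup.mem_centralizer_singleton_iff.mpr ((Commute.refl s).zpow_left k).eq
      exact fun d => Subgroup.mem_centralizer_singleton_iff.mp (hle d.2)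
    rw [coef, show (fun c : C => χh.1 ((c : Γ) * s)) = ∑ η : Cfsg.IrrCharacter (C ⊔ S : Subgroup Γ),
      (mult (fun d : (C ⊔ S : Subgroup Γ) => χh.1 d) η : ℂ) •
        (fun c : C => η.1 (j c * ⟨s, Subgroup.mem_sup_right hsS⟩)) from funext fun c => by
      rw [Finset.sum_apply]
      have := congrFun (eq_sum_mult hD) (j c * ⟨s, Subgroup.mem_sup_right hsS⟩)
      rw [Finset.sum_apply] at this
      exact this, H26.classInner_sum_left]
    refine IsIntegral.sum _ fun η _ => ?_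
    rw [H26.classInner_smul_left]
    refine (isIntegral_natCast _).mul ?_
    obtain ⟨n, ρ, hρ, e⟩ := η.2
    have hsc := H25.eq_smul_id_of_comm ρ (ρ ⟨s, Subgroup.mem_sup_right hsS⟩) fun y => by
      rw [← Module.End.mul_eq_comp, ← Module.End.mul_eq_comp, ← map_mul, ← map_mul]
      exact congrArg ρ (Subtype.ext (hcent y).eq.symm)
    obtain ⟨w, hw, hw'⟩ : ∃ w : ℂ, IsIntegral ℤ w ∧
        ρ ⟨s, Subgroup.mem_sup_right hsS⟩ = w • LinearMap.id := by
      refine ⟨_, ?_, hsc⟩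
      set w := LinearMap.trace ℂ (Fin n → ℂ) (ρ ⟨s, Subgroup.mem_sup_right hsS⟩) /
        (Module.finrank ℂ (Fin n → ℂ) : ℂ) with hw
      refine IsIntegral.of_pow (Nat.card_pos (α := (C ⊔ S : Subgroup Γ))) ?_
      have hp : ρ ⟨s, Subgroup.mem_sup_right hsS⟩ ^ Nat.card (C ⊔ S : Subgroup Γ) = 1 := by
        rw [← map_pow, pow_card_eq_one', map_one]
      rw [hsc, smul_pow, ← Module.End.one_eq_id, one_pow] at hp
      haveI := H25.nontrivial_of_isIrreducible ρ
      have h1 : w ^ Nat.card (C ⊔ S : Subgroup Γ) = 1 := by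
        have := congrArg (LinearMap.trace ℂ _) hp
        rw [map_smul, smul_eq_mul, LinearMap.trace_one] at this
        exact mul_right_cancel₀
          (Nat.cast_ne_zero.mpr Module.finrank_pos.ne') (this.trans (one_mul _).symm)
      rw [h1]; exact isIntegral_one
    rw [show (fun c : C => η.1 (j c * ⟨s, Subgroup.mem_sup_right hsS⟩)) =
      w • fun c : C => η.1 (j c) from funext fun c => by
        rw [← e, Pi.smul_apply, smul_eq_mul]
        show LinearMap.trace ℂ _ (ρ _) = w * LinearMap.trace ℂ _ (ρ _)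
        rw [map_mul, hw', mul_smul_comm, map_smul, smul_eq_mul]
        rfl,
      H26.classInner_smul_left, classInner_eq_mult (φ := fun c : C => η.1 (j c))
        (H26.isCharacter_comp (H26.irr_isCharacter η) j)]
    exact hw.mul (isIntegral_natCast _)
  refine H45.exists_int_of_forall_ringAut hint fun σ => ?_
  obtain ⟨k, hk, hσ⟩ := H45.exists_pow_of_ringAut σ (Nat.card_pos (α := Γ)).ne'
  have hkC : k.Coprime (Nat.card C) := hk.coprime_dvd_right (Subgroup.card_subgroup_dvd_card C)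
  have hσC : ∀ z : ℂ, z ^ Nat.card C = 1 → σ z = z ^ k := fun z hz => hσ z (by
    obtain ⟨d, hd⟩ := Subgroup.card_subgroup_dvd_card C
    rw [hd, pow_mul, hz, one_pow])
  have hsk : Subgroup.zpowers (s ^ k) = S := by
    refine Subgroup.eq_of_le_of_card_ge (Subgroup.zpowers_le.mpr (S.pow_mem hsS k)) ?_
    have hco : (orderOf s).Coprime k := (hk.coprime_dvd_right (orderOf_dvd_natCard s)).symm
    rw [Nat.card_zpowers, orderOf_pow, hco.gcd_eq_one, Nat.div_one, ← Nat.card_zpowers, hs]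
  rw [coef, Cfsg.classInner, map_mul, map_inv₀, map_natCast, map_sum]
  congr 1
  refine Fintype.sum_bijective (fun c : C => c ^ k) (H45.powCoprime_bijective hkC) _ _ fun c => ?_
  rw [map_mul, H45.ringAut_char (H26.irr_isCharacter χh) σ hσ, ← H26.irr_inv,
    H45.ringAut_char (H26.irr_isCharacter β) σ hσC, ← H26.irr_inv, inv_pow,
    (h.mem_centralizer c.2 hsS).mul_pow, ← Subgroup.coe_pow, gen_indep h hχ hs hsk (c ^ k)]

theorem value_eq (h : CycData G S C) (χh : Cfsg.IrrCharacter Γ) {s : Γ} (hsS : s ∈ S) (c : C) :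
    χh.1 ((c : Γ) * s) = ∑ β : Cfsg.IrrCharacter C, coef C χh β s * β.1 c := by
  have hcl : Cfsg.IsClassFunction C (fun c : C => χh.1 ((c : Γ) * s)) := by
    intro g x
    show χh.1 (((x * g * x⁻¹ : C) : Γ) * s) = χh.1 ((g : Γ) * s)
    rw [← H26.irr_conj χh ((g : Γ) * s) (x : Γ)]
    congr 1
    rw [Subgroup.coe_mul, Subgroup.coe_mul, Subgroup.coe_inv, mul_assoc _ _ s,
      ((h.mem_centralizer x.2 hsS).inv_left).eq]
    group
  have := congrFun (H26.class_function_expansion (fun c : C => χh.1 ((c : Γ) * s)) hcl) c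
  rw [Finset.sum_apply] at this
  exact this

/-- The rows of coefficients are orthonormal. -/
theorem sum_coef (h : CycData G S C) [DecidableEq (Cfsg.IrrCharacter G)]
    {χ χ' : Cfsg.IrrCharacter G} {χh χh' : Cfsg.IrrCharacter Γ}
    (hχ : IsExt G S χ χh) (hχ' : IsExt G S χ' χh') {s : Γ} (hs : Subgroup.zpowers s = S) :
    ∑ β : Cfsg.IrrCharacter C, coef C χh β s * conj (coef C χh' β s) =
      if χ = χ' then 1 else 0 := by
  classical
  have hsS : s ∈ S := hs ▸ Subgroup.mem_zpowers s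
  have h1 := h.coset_sum hs (F := fun x => χh.1 x * conj (χh'.1 x))
    (fun a x => by simp only [H26.irr_conj])
  rw [h.coset_orth hsS hχ hχ'] at h1
  have h2 : Cfsg.classInner (fun c : C => χh.1 ((c : Γ) * s))
      (fun c : C => χh'.1 ((c : Γ) * s)) = if χ = χ' then 1 else 0 := by
    have hG0 : (Nat.card G : ℂ) ≠ 0 := Nat.cast_ne_zero.mpr Nat.card_pos.ne'
    have hC0 : (Nat.card C : ℂ) ≠ 0 := Nat.cast_ne_zero.mpr Nat.card_pos.ne'
    rw [Cfsg.classInner, inv_mul_eq_iff_eq_mul₀ hC0]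
    refine mul_left_cancel₀ hG0 (h1.symm.trans ?_)
    split_ifs <;> ring
  rw [← h2]
  conv_rhs =>
    rw [show (fun c : C => χh.1 ((c : Γ) * s)) =
      ∑ β : Cfsg.IrrCharacter C, coef C χh β s • β.1 from funext fun c => by
        rw [Finset.sum_apply]; exact h.value_eq χh hsS c]
  rw [H26.classInner_sum_left]
  refine Finset.sum_congr rfl fun β _ => ?_
  rw [H26.classInner_smul_left, H26.classInner_comm (fun c : C => χh'.1 ((c : Γ) * s)) β.1]
  rfl

theorem exists_sign (h : CycData G S C) {χ : Cfsg.IrrCharacter G} {χh : Cfsg.IrrCharacter Γ}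
    (hχ : IsExt G S χ χh) :
    ∃ (β : Cfsg.IrrCharacter C) (ε : ℤ), (ε = 1 ∨ ε = -1) ∧
      ∀ (c : C) (s : Γ), Subgroup.zpowers s = S → χh.1 ((c : Γ) * s) = (ε : ℂ) * β.1 c := by
  classical
  obtain ⟨s₀, hs₀⟩ := h.exists_gen
  choose n hn using fun β => h.coef_isInt hχ hs₀ β
  have hsum := h.sum_coef hχ hχ hs₀
  rw [if_pos rfl] at hsum
  simp_rw [hn, map_intCast] at hsum
  have hsumZ : ∑ β : Cfsg.IrrCharacter C, n β * n β = 1 := by exact_mod_cast hsum
  obtain ⟨β, hβ⟩ : ∃ β, n β ≠ 0 := by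
    by_contra hne
    push Not at hne
    simp [hne] at hsumZ
  have hle := Finset.single_le_sum (fun γ _ => mul_self_nonneg (n γ)) (Finset.mem_univ β)
  have hrest : ∀ γ, γ ≠ β → n γ = 0 := fun γ hγ => by
    by_contra hne
    have h2 : n β * n β + n γ * n γ ≤ 1 := by
      rw [← hsumZ, ← Finset.sum_pair (f := fun δ => n δ * n δ) (Ne.symm hγ)]
      exact Finset.sum_le_univ_sum_of_nonneg fun δ => mul_self_nonneg _
    have h3 : 0 < n γ * n γ := mul_self_pos.mpr hne
    have h4 : 0 < n β * n β := mul_self_pos.mpr hβ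
    omega
  have hβ1 : n β = 1 ∨ n β = -1 := by
    rw [hsumZ] at hle
    rcases mul_self_eq_mul_self_iff.mp (show n β * n β = 1 * 1 by
      have := mul_self_pos.mpr hβ; omega) with h1 | h1
    · exact Or.inl h1
    · exact Or.inr h1
  refine ⟨β, n β, hβ1, fun c s hs => ?_⟩
  rw [h.gen_indep hχ hs₀ hs c, h.value_eq χh (hs₀ ▸ Subgroup.mem_zpowers s₀) c,
    Finset.sum_eq_single β (fun γ _ hγ => by rw [hn γ, hrest γ hγ, Int.cast_zero, zero_mul])
      (fun hc => absurd (Finset.mem_univ _) hc), hn β]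

/-- The coefficient at a multiple of a single irreducible character. -/
theorem coef_of_value {χh : Cfsg.IrrCharacter Γ} {s : Γ} {β : Cfsg.IrrCharacter C} {ε : ℤ}
    [DecidableEq (Cfsg.IrrCharacter C)]
    (hv : ∀ c : C, χh.1 ((c : Γ) * s) = (ε : ℂ) * β.1 c) (γ : Cfsg.IrrCharacter C) :
    coef C χh γ s = if β = γ then (ε : ℂ) else 0 := by
  rw [coef, show (fun c : C => χh.1 ((c : Γ) * s)) = (ε : ℂ) • β.1 from funext hv,
    H26.classInner_smul_left, H26.classInner_irr, mul_ite, mul_one, mul_zero]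

/-- Different invariant characters have different correspondents. -/
theorem corr_injective (h : CycData G S C) {χ χ' : Cfsg.IrrCharacter G}
    {χh χh' : Cfsg.IrrCharacter Γ} (hχ : IsExt G S χ χh) (hχ' : IsExt G S χ' χh')
    {β : Cfsg.IrrCharacter C} {ε ε' : ℤ} (hε : ε = 1 ∨ ε = -1) (hε' : ε' = 1 ∨ ε' = -1)
    (hv : ∀ (c : C) (s : Γ), Subgroup.zpowers s = S → χh.1 ((c : Γ) * s) = (ε : ℂ) * β.1 c)
    (hv' : ∀ (c : C) (s : Γ), Subgroup.zpowers s = S → χh'.1 ((c : Γ) * s) = (ε' : ℂ) * β.1 c) :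
    χ = χ' := by
  classical
  obtain ⟨s, hs⟩ := h.exists_gen
  have h1 := h.sum_coef hχ hχ' hs
  simp only [coef_of_value (fun c => hv c s hs), coef_of_value (fun c => hv' c s hs)] at h1
  rw [Finset.sum_eq_single β
    (fun γ _ hγ => by rw [if_neg (Ne.symm hγ), zero_mul])
    (fun hc => absurd (Finset.mem_univ _) hc), if_pos rfl, if_pos rfl, map_intCast] at h1
  by_contra hne
  rw [if_neg hne, mul_eq_zero, Int.cast_eq_zero, Int.cast_eq_zero] at h1
  omega

/-- Every irreducible character of `C` occurs. -/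
theorem corr_surjective (h : CycData G S C) (β : Cfsg.IrrCharacter C) :
    ∃ (χ : Cfsg.IrrCharacter G) (χh : Cfsg.IrrCharacter Γ) (ε : ℤ), ConjInv G S χ.1 ∧
      IsExt G S χ χh ∧ (ε = 1 ∨ ε = -1) ∧
      ∀ (c : C) (s : Γ), Subgroup.zpowers s = S → χh.1 ((c : Γ) * s) = (ε : ℂ) * β.1 c := by
  classical
  haveI := h.hcyc
  haveI : IsMulCommutative S := ⟨⟨fun a b => (IsCyclic.commGroup (α := S)).mul_comm a b⟩⟩
  set φ : S →* MulAut G := conjHom G S h.hnorm
  let e : fixedSub φ ⊤ ≃* C :=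
    { toFun := fun c => ⟨((c : G) : Γ), by
        rw [h.hC]
        refine ⟨(c : G).2, Subgroup.mem_centralizer_iff.mpr fun x hx => ?_⟩
        exact mul_inv_eq_iff_eq_mul.mp (congrArg Subtype.val (c.2 ⟨x, hx⟩ trivial))⟩
      invFun := fun c => ⟨⟨(c : Γ), h.hCG c.2⟩, fun t _ => Subtype.ext (by
        show (t : Γ) * (c : Γ) * (t : Γ)⁻¹ = c
        rw [(h.mem_centralizer c.2 t.2).eq.symm, mul_inv_cancel_right])⟩
      left_inv := fun _ => rfl
      right_inv := fun _ => rfl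
      map_mul' := fun _ _ => rfl }
  have hcard : Nat.card {χ : Cfsg.IrrCharacter G // ConjInv G S χ.1} =
      Nat.card (Cfsg.IrrCharacter C) := by
    rw [Nat.card_congr (irrCongrEquiv e), ← card_invFun_eq_card_fixed _ (G := G) (S := S) rfl
      (Group.isSolvable_of_comm fun a b => mul_comm' a b) h.hcop φ]
    exact Nat.card_congr (Equiv.subtypeEquivRight fun χ =>
      (invFun_conjHom_iff G S h.hnorm χ.1).symm)
  choose E hE using fun χ : {χ : Cfsg.IrrCharacter G // ConjInv G S χ.1} =>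
    h.exists_isExt χ.1 χ.2
  choose B ε hε hB using fun χ => h.exists_sign (hE χ)
  have hbij : Function.Bijective B := by
    refine (Nat.bijective_iff_injective_and_card B).mpr ⟨fun a b hab => ?_, hcard⟩
    exact Subtype.ext (h.corr_injective (hE a) (hE b) (β := B a) (hε a) (hε b) (hB a)
      (hab ▸ hB b))
  obtain ⟨χ, rfl⟩ := hbij.2 β
  exact ⟨χ.1, E χ, ε χ, χ.2, hE χ, hε χ, hB χ⟩

/-- The correspondent is a constituent of the restriction. -/
theorem mult_ne_zero_of_value (h : CycData G S C) {χ : Cfsg.IrrCharacter G}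
    {χh : Cfsg.IrrCharacter Γ} (hχ : IsExt G S χ χh) {β : Cfsg.IrrCharacter C} {ε : ℤ}
    (hε : ε ≠ 0) {s : Γ} (hs : s ∈ S) (hv : ∀ c : C, χh.1 ((c : Γ) * s) = (ε : ℂ) * β.1 c) :
    mult (fun c : C => χ.1 ⟨c, h.hCG c.2⟩) β ≠ 0 := by
  classical
  intro h0
  haveI : Fintype (C ⊔ S : Subgroup Γ) := Fintype.ofFinite _
  set j := Subgroup.inclusion (le_sup_left : C ≤ C ⊔ S)
  haveI := h.hcyc
  have hcent : ∀ d : (C ⊔ S : Subgroup Γ), Commute (d : Γ) s := by
    have hle : C ⊔ S ≤ Subgroup.centralizer ({s} : Set Γ) := by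
      refine sup_le (fun c hc => ?_) fun x hx => ?_
      · exact Subgroup.mem_centralizer_singleton_iff.mpr (h.mem_centralizer hc hs).eq
      · exact Subgroup.mem_centralizer_singleton_iff.mpr (congrArg Subtype.val
          ((IsCyclic.commGroup (α := S)).mul_comm ⟨x, hx⟩ ⟨s, hs⟩))
    exact fun d => Subgroup.mem_centralizer_singleton_iff.mp (hle d.2)
  have hD : Cfsg.IsCharacter (C ⊔ S : Subgroup Γ) (fun d => χh.1 d) :=
    H26.isCharacter_comp (H26.irr_isCharacter χh) (C ⊔ S).subtype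
  have h1 := mult_comp j hD β
  rw [show (fun c : C => χh.1 ((j c : (C ⊔ S : Subgroup Γ)) : Γ)) =
    fun c : C => χ.1 ⟨c, h.hCG c.2⟩ from funext fun c => hχ.1 ⟨c, h.hCG c.2⟩, h0] at h1
  have h2 := coef_of_value hv β
  rw [if_pos rfl] at h2
  refine hε (Int.cast_injective (α := ℂ) (h2.symm.trans ?_))
  rw [Int.cast_zero, coef, show (fun c : C => χh.1 ((c : Γ) * s)) =
    ∑ η : Cfsg.IrrCharacter (C ⊔ S : Subgroup Γ),
      (mult (fun d : (C ⊔ S : Subgroup Γ) => χh.1 d) η : ℂ) •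
        (fun c : C => η.1 (j c * ⟨s, Subgroup.mem_sup_right hs⟩)) from funext fun c => by
    rw [Finset.sum_apply]
    have := congrFun (eq_sum_mult hD) (j c * ⟨s, Subgroup.mem_sup_right hs⟩)
    rw [Finset.sum_apply] at this
    exact this, H26.classInner_sum_left]
  refine Finset.sum_eq_zero fun η _ => ?_
  rw [H26.classInner_smul_left]
  rcases Nat.mul_eq_zero.mp ((Finset.sum_eq_zero_iff.mp h1.symm) η (Finset.mem_univ η)) with
    hz | hz
  · rw [hz, Nat.cast_zero, zero_mul]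
  · obtain ⟨n, ρ, hρ, e⟩ := η.2
    have hsc := H25.eq_smul_id_of_comm ρ (ρ ⟨s, Subgroup.mem_sup_right hs⟩) fun y => by
      rw [← Module.End.mul_eq_comp, ← Module.End.mul_eq_comp, ← map_mul, ← map_mul]
      exact congrArg ρ (Subtype.ext (hcent y).eq.symm)
    set w := LinearMap.trace ℂ (Fin n → ℂ) (ρ ⟨s, Subgroup.mem_sup_right hs⟩) /
      (Module.finrank ℂ (Fin n → ℂ) : ℂ)
    rw [show (fun c : C => η.1 (j c * ⟨s, Subgroup.mem_sup_right hs⟩)) =
      w • fun c : C => η.1 (j c) from funext fun c => by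
        rw [← e, Pi.smul_apply, smul_eq_mul]
        show LinearMap.trace ℂ _ (ρ _) = w * LinearMap.trace ℂ _ (ρ _)
        rw [map_mul, hsc, mul_smul_comm, map_smul, smul_eq_mul]
        rfl,
      H26.classInner_smul_left, classInner_eq_mult (φ := fun c : C => η.1 (j c))
        (H26.isCharacter_comp (H26.irr_isCharacter η) j), hz, Nat.cast_zero, mul_zero, mul_zero]

end CycData

end Cfsg.Agent.H43
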