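import Cfsg.Agent.H27.Dual

/-!
# Rigidity of `{0, ±1}`-valued functions with integral Fourier coefficients
-/

namespace Cfsg.Agent.H43

open scoped ComplexConjugate

variable {S : Type*} [Group S] [Fintype S] [IsMulCommutative S]

/-- Integral functions taking values congruent modulo their number of arguments, small, with sum
zero: two values, and the number of each is forced. -/
theorem two_values {ι : Type*} [Fintype ι] [Nonempty ι] (F : ι → ℤ)
    (hcong : ∀ i j, (Fintype.card ι : ℤ) ∣ F i - F j) (hbd : ∀ i, |F i| < Fintype.card ι)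
    (hsum : ∑ i, F i = 0) :
    ∃ r : ℤ, 0 ≤ r ∧ r < Fintype.card ι ∧ (∀ i, F i = r ∨ F i = r - Fintype.card ι) ∧
      ∑ i, F i ^ 2 = (Fintype.card ι : ℤ) * (r * ((Fintype.card ι : ℤ) - r)) := by
  classical
  obtain ⟨m, hm⟩ : ∃ m : ℤ, m = ((Fintype.card ι : ℕ) : ℤ) := ⟨_, rfl⟩
  rw [← hm] at hcong hbd ⊢
  have hm0 : 0 < m := by
    rw [hm]; exact_mod_cast Fintype.card_pos
  obtain ⟨i₀⟩ := ‹Nonempty ι›
  set r := F i₀ % m with hr
  have hr0 : 0 ≤ r := Int.emod_nonneg _ hm0.ne'
  have hr1 : r < m := Int.emod_lt_of_pos _ hm0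
  have hval : ∀ i, F i = r ∨ F i = r - m := fun i => by
    have h1 : m ∣ F i - r := by
      have h2 : m ∣ F i₀ - r := ⟨F i₀ / m, by rw [hr]; linarith [Int.ediv_mul_add_emod (F i₀) m]⟩
      have h3 := Int.dvd_add (hcong i i₀) h2
      rwa [sub_add_sub_cancel] at h3
    obtain ⟨k, hk⟩ := h1
    have h4 := abs_lt.mp (hbd i)
    rcases lt_trichotomy k 0 with hk0 | hk0 | hk0
    · right
      have : k = -1 := by
        by_contra hne
        have h5 : k ≤ -2 := by omega
        nlinarith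
      rw [this] at hk; linarith
    · left; rw [hk0] at hk; linarith
    · exfalso
      have h5 : 1 ≤ k := hk0
      nlinarith
  refine ⟨r, hr0, hr1, hval, ?_⟩
  -- the number of arguments with the smaller value is `r`
  set A := Finset.univ.filter fun i => F i = r - m with hA
  have hne : ∀ i, i ∉ A → F i = r := fun i hi =>
    (hval i).resolve_right fun h => hi (Finset.mem_filter.mpr ⟨Finset.mem_univ _, h⟩)
  have hmem : ∀ i, i ∈ A → F i = r - m := fun i hi => (Finset.mem_filter.mp hi).2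
  have hsplit : ∀ g : ℤ → ℤ, ∑ i, g (F i) = A.card * g (r - m) + (m - A.card) * g r := fun g => by
    rw [← Finset.sum_add_sum_compl A (fun i => g (F i)),
      Finset.sum_congr rfl fun i hi => show g (F i) = g (r - m) by rw [hmem i hi],
      Finset.sum_congr (s₁ := Aᶜ) rfl fun i hi =>
        show g (F i) = g r by rw [hne i (Finset.mem_compl.mp hi)],
      Finset.sum_const, Finset.sum_const, Finset.card_compl, nsmul_eq_mul, nsmul_eq_mul,
      Nat.cast_sub (Finset.card_le_univ A), hm]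
  have hc : (A.card : ℤ) = r := by
    have h1 := hsplit id
    simp only [id_eq] at h1
    rw [hsum] at h1
    have h2 : m * (r - (A.card : ℤ)) = 0 := by linarith
    rcases mul_eq_zero.mp h2 with h | h
    · exact absurd h hm0.ne'
    · linarith
  rw [hsplit (fun z => z ^ 2), hc]
  ring

/-- If `b` is `{0, ±1}`-valued, `b 1 = 0`, and all Fourier coefficients of `b + a·δ₁` are
integers, then `b = 0`, or `b` is plus or minus a linear character away from `1`, and then `a` is
congruent to that sign modulo the order. -/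
theorem pattern (b : S → ℤ) (hb1 : b 1 = 0) (hbv : ∀ x, b x = 0 ∨ b x = 1 ∨ b x = -1) (a : ℤ)
    (hint : ∀ μ : S →* ℂˣ, ∃ k : ℤ,
      (a : ℂ) + ∑ x, (b x : ℂ) * conj (μ x : ℂ) = ((Fintype.card S : ℤ) : ℂ) * (k : ℂ)) :
    (∀ x, b x = 0) ∨ ∃ (μ : S →* ℂˣ) (ε : ℤ), (ε = 1 ∨ ε = -1) ∧
      (∀ x, x ≠ 1 → (b x : ℂ) = (ε : ℂ) * (μ x : ℂ)) ∧ (Fintype.card S : ℤ) ∣ a - ε := by
  classical
  choose k hk using hint
  set m : ℕ := Fintype.card S with hm
  have hcardD : Fintype.card (S →* ℂˣ) = m := by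
    rw [← Nat.card_eq_fintype_card, H27.card_linear, Nat.card_eq_fintype_card]
  set F : (S →* ℂˣ) → ℤ := fun μ => (m : ℤ) * k μ - a with hFdef
  have hF : ∀ μ, ∑ x, (b x : ℂ) * conj (μ x : ℂ) = (F μ : ℂ) := fun μ => by
    rw [hFdef]; push_cast; rw [← Int.cast_natCast (R := ℂ) m, ← hk μ]; ring
  set e : ℕ := (Finset.univ.filter fun x => b x ≠ 0).card with he
  have he_lt : e < m := Finset.card_lt_univ_of_notMem (x := 1) (by simp [hb1])
  have hbd : ∀ μ, |F μ| ≤ (e : ℤ) := fun μ => by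
    have h1 : ‖(F μ : ℂ)‖ ≤ (e : ℝ) := by
      rw [← hF, ← Finset.sum_filter_of_ne (p := fun x => b x ≠ 0) (fun x _ hx hbx => hx (by
        rw [hbx, Int.cast_zero, zero_mul]))]
      refine (norm_sum_le _ _).trans ?_
      rw [he, Finset.card_eq_sum_ones, Nat.cast_sum]
      refine Finset.sum_le_sum fun x _ => ?_
      have hnorm : ‖(μ x : ℂ)‖ = 1 := Complex.norm_eq_one_of_pow_eq_one (n := m) (by
        rw [← Units.val_pow_eq_pow_val, ← map_pow, hm, pow_card_eq_one, map_one, Units.val_one])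
        Fintype.card_ne_zero
      rw [norm_mul, Complex.norm_conj, Nat.cast_one, hnorm, mul_one, Complex.norm_intCast]
      rcases hbv x with h | h | h <;> rw [h] <;> simp
    rw [Complex.norm_intCast] at h1
    exact_mod_cast h1
  have hsum : ∑ μ, F μ = 0 := by
    apply Int.cast_injective (α := ℂ)
    rw [Int.cast_sum, Int.cast_zero]
    simp_rw [← hF]
    rw [Finset.sum_comm]
    refine Finset.sum_eq_zero fun x _ => ?_
    rw [← Finset.mul_sum, ← map_sum, H27.sum_linear_apply]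
    by_cases hx : x = 1
    · rw [hx, hb1, Int.cast_zero, zero_mul]
    · rw [if_neg hx, map_zero, mul_zero]
  obtain ⟨r, hr0, hr1, hval, hsq⟩ := two_values F
    (fun μ ν => ⟨k μ - k ν, by rw [hFdef, hcardD]; ring⟩)
    (fun μ => by rw [hcardD]; exact (hbd μ).trans_lt (by exact_mod_cast he_lt)) hsum
  rw [hcardD] at hsq hr1 hval
  have hinv : ∀ x : S, (m : ℂ) * (b x : ℂ) = ∑ μ : S →* ℂˣ, (F μ : ℂ) * (μ x : ℂ) := fun x => by
    simp_rw [← hF, Finset.sum_mul]
    rw [Finset.sum_comm]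
    have h1 : ∀ y : S, ∑ μ : S →* ℂˣ, (b y : ℂ) * conj (μ y : ℂ) * (μ x : ℂ) =
        if y = x then (b y : ℂ) * m else 0 := fun y => by
      have h2 : ∀ μ : S →* ℂˣ, conj (μ y : ℂ) * (μ x : ℂ) = (μ (y⁻¹ * x) : ℂ) := fun μ => by
        have hy : conj (μ y : ℂ) = (μ y⁻¹ : ℂ) := by
          have h3 : (μ y : ℂ) * conj (μ y : ℂ) = 1 := by
            rw [Complex.mul_conj, Complex.normSq_eq_norm_sq,
              Complex.norm_eq_one_of_pow_eq_one (n := m) (by
                rw [← Units.val_pow_eq_pow_val, ← map_pow, hm, pow_card_eq_one, map_one,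
                  Units.val_one]) Fintype.card_ne_zero]
            simp
          have h4 : (μ y : ℂ) * (μ y⁻¹ : ℂ) = 1 := by
            rw [← Units.val_mul, ← map_mul, mul_inv_cancel, map_one, Units.val_one]
          exact mul_left_cancel₀ (Units.ne_zero _) (h3.trans h4.symm)
        rw [map_mul, Units.val_mul, hy]
      simp_rw [mul_assoc, h2, ← Finset.mul_sum, H27.sum_linear_apply, inv_mul_eq_one,
        Nat.card_eq_fintype_card, mul_ite, mul_zero]
      rfl
    rw [Finset.sum_congr rfl fun y _ => h1 y, Finset.sum_ite_eq' Finset.univ x,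
      if_pos (Finset.mem_univ _), mul_comm]
  have hpar : (e : ℤ) * m = ∑ μ, F μ ^ 2 := by
    apply Int.cast_injective (α := ℂ)
    push_cast
    have h1 : ∀ μ, (F μ : ℂ) ^ 2 = ∑ x, (b x : ℂ) * ((F μ : ℂ) * (μ x : ℂ)) := fun μ => by
      have h2 : (F μ : ℂ) = ∑ x, (b x : ℂ) * (μ x : ℂ) := by
        have h3 := congrArg conj (hF μ)
        rw [map_sum, map_intCast] at h3
        rw [← h3]
        exact Finset.sum_congr rfl fun x _ => by rw [map_mul, map_intCast, Complex.conj_conj]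
      rw [sq]
      conv_lhs => arg 2; rw [h2]
      rw [Finset.mul_sum]
      exact Finset.sum_congr rfl fun x _ => by ring
    simp_rw [h1]
    rw [Finset.sum_comm]
    simp_rw [← Finset.mul_sum, ← hinv]
    rw [he, Finset.card_eq_sum_ones, Nat.cast_sum, Finset.sum_mul, Finset.sum_filter]
    refine Finset.sum_congr rfl fun x _ => ?_
    rcases hbv x with h | h | h <;> rw [h] <;> simp
  rw [hsq] at hpar
  have her : (e : ℤ) = r * ((m : ℤ) - r) := by
    have hm0 : (m : ℤ) ≠ 0 := by rw [hm]; exact_mod_cast Fintype.card_ne_zero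
    exact mul_right_cancel₀ hm0 (hpar.trans (mul_comm _ _))
  have hcase : r = 0 ∨ r = 1 ∨ r = m - 1 := by
    by_contra hne
    push Not at hne
    have h1 : 2 ≤ r := by omega
    have h2 : r ≤ (m : ℤ) - 2 := by omega
    have h3 : (e : ℤ) < m := by exact_mod_cast he_lt
    nlinarith
  by_cases hall : ∀ x, b x = 0
  · exact Or.inl hall
  right
  have he0 : e ≠ 0 := by
    rw [he, Finset.card_ne_zero]
    push Not at hall
    obtain ⟨x, hx⟩ := hall
    exact ⟨x, Finset.mem_filter.mpr ⟨Finset.mem_univ _, hx⟩⟩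
  have hm2 : (2 : ℤ) ≤ m := by
    have : (1 : ℤ) ≤ e := by exact_mod_cast Nat.one_le_iff_ne_zero.mpr he0
    have h3 : (e : ℤ) < m := by exact_mod_cast he_lt
    omega
  set μs := Finset.univ.filter fun μ => F μ = r - (m : ℤ) with hμs
  have hcardA : (μs.card : ℤ) = r := by
    have h1 : ∀ μ, F μ = r - (if μ ∈ μs then (m : ℤ) else 0) := fun μ => by
      by_cases h : μ ∈ μs
      · rw [if_pos h]; exact (Finset.mem_filter.mp h).2
      · rw [if_neg h, sub_zero]
        exact (hval μ).resolve_right fun h' => h (Finset.mem_filter.mpr ⟨Finset.mem_univ _, h'⟩)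
    rw [Finset.sum_congr rfl fun μ _ => h1 μ, Finset.sum_sub_distrib, Finset.sum_const,
      Finset.card_univ, hcardD, nsmul_eq_mul, ← Finset.sum_filter, Finset.sum_const,
      nsmul_eq_mul, Finset.filter_mem_eq_inter, Finset.univ_inter] at hsum
    have hm0 : (m : ℤ) ≠ 0 := by omega
    exact mul_left_cancel₀ hm0 (by linarith)
  obtain ⟨μ₀, ε, hε, hμ0, hother⟩ : ∃ (μ₀ : S →* ℂˣ) (ε : ℤ), (ε = 1 ∨ ε = -1) ∧
      F μ₀ = ε * ((m : ℤ) - 1) ∧ ∀ μ, μ ≠ μ₀ → F μ = -ε := by
    rcases hcase with h0 | h0 | h0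
    · rw [h0, zero_mul] at her; exact absurd (by exact_mod_cast her) he0
    · obtain ⟨μ₀, hμ₀⟩ := Finset.card_eq_one.mp (by rw [h0] at hcardA; exact_mod_cast hcardA)
      refine ⟨μ₀, -1, Or.inr rfl, ?_, fun μ hμ => ?_⟩
      · have := (Finset.mem_filter.mp (hμ₀ ▸ Finset.mem_singleton_self μ₀ : μ₀ ∈ μs)).2
        rw [this, h0]; ring
      · have h1 : μ ∉ μs := by rw [hμ₀, Finset.mem_singleton]; exact hμ
        rw [(hval μ).resolve_right fun h' => h1 (Finset.mem_filter.mpr ⟨Finset.mem_univ _, h'⟩),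
          h0]; norm_num
    · have hc : μsᶜ.card = 1 := by
        rw [Finset.card_compl, hcardD]
        have : (μs.card : ℤ) = (m : ℤ) - 1 := hcardA.trans h0
        omega
      obtain ⟨μ₀, hμ₀⟩ := Finset.card_eq_one.mp hc
      refine ⟨μ₀, 1, Or.inl rfl, ?_, fun μ hμ => ?_⟩
      · have h1 : μ₀ ∉ μs := Finset.mem_compl.mp (hμ₀ ▸ Finset.mem_singleton_self μ₀)
        rw [(hval μ₀).resolve_right fun h' => h1 (Finset.mem_filter.mpr ⟨Finset.mem_univ _, h'⟩),
          h0, one_mul]
      · have h1 : μ ∈ μs := by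
          by_contra h'
          exact hμ (Finset.mem_singleton.mp (hμ₀ ▸ Finset.mem_compl.mpr h'))
        rw [(Finset.mem_filter.mp h1).2, h0]; ring
  refine ⟨μ₀, ε, hε, fun x hx => ?_, ?_⟩
  · have h1 : ∀ μ, (F μ : ℂ) * (μ x : ℂ) =
        (if μ = μ₀ then (ε : ℂ) * m * (μ x : ℂ) else 0) - (ε : ℂ) * (μ x : ℂ) := fun μ => by
      by_cases h : μ = μ₀
      · rw [if_pos h, h, hμ0]; push_cast; ring
      · rw [if_neg h, hother μ h]; push_cast; ring
    have h2 := hinv x
    rw [Finset.sum_congr rfl fun μ _ => h1 μ, Finset.sum_sub_distrib,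
      Finset.sum_ite_eq' Finset.univ μ₀, if_pos (Finset.mem_univ _), ← Finset.mul_sum,
      H27.sum_linear_apply, if_neg hx, mul_zero, sub_zero] at h2
    have hm0 : (m : ℂ) ≠ 0 := by rw [hm]; exact Nat.cast_ne_zero.mpr Fintype.card_ne_zero
    exact mul_left_cancel₀ hm0 (h2.trans (by ring))
  · exact ⟨k μ₀ - ε, by
      have := hμ0
      rw [hFdef] at this
      linear_combination (-1 : ℤ) * this⟩

end Cfsg.Agent.H43
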