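import Mathlib

/-!
# The arithmetic behind the degree `p - 1` characters
-/

set_option autoImplicit false
set_option maxHeartbeats 800000

namespace Cfsg.Agent.H43

/-- An integer solution of the norm bound is constantly one. -/
theorem orbit_pattern {ι : Type*} [Fintype ι] (d : ι → ℤ) (p t e : ℕ) (hp : p.Prime)
    (ht : Fintype.card ι = t) (htodd : Odd t) (he : 2 ≤ e) (hev : Even e) (hte : t * e + 1 = p)
    (hcong : (p : ℤ) ∣ (e : ℤ) * (∑ i, d i) + 1)
    (hbound : (p : ℤ) * (∑ i, d i ^ 2) - (e : ℤ) * (∑ i, d i) ^ 2 < p) : ∀ i, d i = 1 := by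
  classical
  have htpos : 0 < t := htodd.pos
  have hp3 : 3 ≤ p := by nlinarith
  have hpz : (p : ℤ) = t * e + 1 := by rw [← hte]; push_cast; ring
  have htz : (1 : ℤ) ≤ t := by exact_mod_cast htpos
  have hez : (2 : ℤ) ≤ e := by exact_mod_cast he
  have hne : (Finset.univ : Finset ι).Nonempty :=
    Finset.univ_nonempty_iff.mpr (Fintype.card_pos_iff.mp (by omega))
  obtain ⟨i0, -, hi0⟩ := Finset.exists_min_image Finset.univ d hne
  set m := d i0 with hm
  set c : ι → ℤ := fun i => d i - m with hc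
  have hc0 : ∀ i, 0 ≤ c i := fun i => by have := hi0 i (Finset.mem_univ i); simp only [hc]; omega
  set C := ∑ i, c i with hC
  set T := ∑ i, c i ^ 2 with hT
  have hD : ∑ i, d i = C + t * m := by
    rw [hC, Finset.sum_sub_distrib, Finset.sum_const, Finset.card_univ, ht, nsmul_eq_mul]
    ring
  have hQ : ∑ i, d i ^ 2 = T + 2 * m * C + t * m ^ 2 := by
    rw [hT, hC, Finset.mul_sum, Finset.sum_congr rfl fun i _ =>
      (show d i ^ 2 = c i ^ 2 + 2 * m * c i + m ^ 2 by simp only [hc]; ring),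
      Finset.sum_add_distrib, Finset.sum_add_distrib, Finset.sum_const, Finset.card_univ, ht,
      nsmul_eq_mul]
  have hV : (∑ i, d i ^ 2) + (e : ℤ) * ((t : ℤ) * T - C ^ 2) < p := by
    rw [hD, hQ, hpz] at hbound
    rw [hQ, hpz]
    linarith [show ((t : ℤ) * e + 1) * (T + 2 * m * C + t * m ^ 2) - e * (C + t * m) ^ 2 =
      T + 2 * m * C + t * m ^ 2 + e * (t * T - C ^ 2) by ring]
  set K := Finset.univ.filter (fun i => c i ≠ 0) with hK
  have hCK : C = ∑ i ∈ K, c i := (Finset.sum_filter_ne_zero _).symm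
  have hTK : T = ∑ i ∈ K, c i ^ 2 := by
    rw [hT, hK, Finset.sum_filter]
    refine Finset.sum_congr rfl fun i _ => ?_
    split_ifs with h0
    · rfl
    · simp [not_not.mp h0]
  have hcs : C ^ 2 ≤ (K.card : ℤ) * T := by
    rw [hCK, hTK]; exact sq_sum_le_card_mul_sum_sq
  have hone : ∀ i ∈ K, 1 ≤ c i := fun i hi => by
    have := hc0 i; have := (Finset.mem_filter.mp hi).2; omega
  have hKlt : K.card < t := by
    rw [← ht, ← Finset.card_univ]
    refine Finset.card_lt_card ((Finset.ssubset_iff_of_subset (Finset.subset_univ _)).mpr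
      ⟨i0, Finset.mem_univ _, ?_⟩)
    simp [hK, hc, hm]
  have hTK' : (K.card : ℤ) ≤ T := by
    rw [hTK, Finset.card_eq_sum_ones, Nat.cast_sum]
    exact Finset.sum_le_sum fun i hi => by have := hone i hi; simp only [Nat.cast_one]; nlinarith
  have hdsq : 0 ≤ ∑ i, d i ^ 2 := Finset.sum_nonneg fun i _ => sq_nonneg _
  rcases Nat.eq_zero_or_pos K.card with hK0 | hK0
  · -- constant
    rw [Finset.card_eq_zero] at hK0
    have hC0 : C = 0 := by rw [hCK, hK0, Finset.sum_empty]
    have hall : ∀ i, d i = m := fun i => by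
      by_contra h
      have : i ∈ K := Finset.mem_filter.mpr ⟨Finset.mem_univ _, by simp only [hc]; omega⟩
      rw [hK0] at this
      exact Finset.notMem_empty i this
    rw [hD, hC0, zero_add] at hcong
    have hm1 : (p : ℤ) ∣ m - 1 := by
      have : m - 1 = m * (p : ℤ) - ((e : ℤ) * (↑t * m) + 1) := by rw [hpz]; ring
      rw [this]
      exact Int.dvd_sub (Dvd.intro_left m rfl) hcong
    obtain ⟨s, hs⟩ := hm1
    have hs0 : s = 0 := by
      by_contra hs0
      have hT0 : T = 0 := by rw [hTK, hK0, Finset.sum_empty]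
      rw [hQ, hC0, hT0] at hV
      have h1 : (p : ℤ) - 1 ≤ m ∨ m ≤ 1 - (p : ℤ) := by
        rcases lt_or_gt_of_ne hs0 with h | h
        · right; nlinarith
        · left; nlinarith
      have hpz' : (3 : ℤ) ≤ p := by exact_mod_cast hp3
      rcases h1 with h | h <;> nlinarith
    intro i
    rw [hall i]
    rw [hs0, mul_zero] at hs
    omega
  exfalso
  have hk1 : (1 : ℤ) ≤ K.card := by exact_mod_cast hK0
  have hkt : (K.card : ℤ) + 1 ≤ t := by exact_mod_cast hKlt
  have hVb : (t : ℤ) * T - C ^ 2 ≤ t := by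
    by_contra h
    push Not at h
    rw [hpz] at hV
    nlinarith
  have hVk : ((t : ℤ) - K.card) * T ≤ t := by nlinarith
  have hsplit : K.card = 1 ∨ K.card + 1 = t := by
    by_contra h
    push Not at h
    obtain ⟨t', rfl⟩ := htodd
    have h2 : (2 : ℤ) ≤ K.card := by exact_mod_cast (by omega : 2 ≤ K.card)
    have h3 : (K.card : ℤ) + 2 ≤ ((2 * t' + 1 : ℕ) : ℤ) := by
      exact_mod_cast (by omega : K.card + 2 ≤ 2 * t' + 1)
    have h5 : (5 : ℤ) ≤ ((2 * t' + 1 : ℕ) : ℤ) := by
      exact_mod_cast (by omega : 5 ≤ 2 * t' + 1)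
    nlinarith [mul_nonneg (sub_nonneg.mpr h2) (sub_nonneg.mpr h3)]
  have ht3 : 3 ≤ t := by
    obtain ⟨t', rfl⟩ := htodd
    omega
  have htz3 : (3 : ℤ) ≤ t := by exact_mod_cast ht3
  -- all non-zero shifts are one
  have hall1 : ∀ i ∈ K, c i = 1 := by
    intro i hi
    by_contra hne1
    have h2 : 2 ≤ c i := by have := hone i hi; omega
    have h4 : (K.card : ℤ) + 3 ≤ T := by
      rw [hTK, ← Finset.add_sum_erase _ _ hi]
      have h5 : ((K.erase i).card : ℤ) ≤ ∑ j ∈ K.erase i, c j ^ 2 := by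
        rw [Finset.card_eq_sum_ones, Nat.cast_sum]
        exact Finset.sum_le_sum fun j hj => by
          have := hone j (Finset.mem_of_mem_erase hj); simp only [Nat.cast_one]; nlinarith
      rw [Finset.card_erase_of_mem hi, Nat.cast_sub hK0] at h5
      simp only [Nat.cast_one] at h5
      nlinarith
    rcases hsplit with h | h
    · rw [h] at hVk h4; push_cast at hVk h4; nlinarith
    · have h' : (K.card : ℤ) = t - 1 := by omega
      rw [h'] at hVk h4
      nlinarith
  have hCk : C = K.card := by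
    rw [hCK, Finset.card_eq_sum_ones, Nat.cast_sum]
    exact Finset.sum_congr rfl fun i hi => by rw [hall1 i hi]; norm_num
  have hTk : T = K.card := by
    rw [hTK, Finset.card_eq_sum_ones, Nat.cast_sum]
    exact Finset.sum_congr rfl fun i hi => by rw [hall1 i hi]; norm_num
  rw [hD, hCk] at hcong
  rw [hQ, hCk, hTk] at hV
  rcases hsplit with h | h
  · rw [h] at hcong hV
    simp only [Nat.cast_one] at hcong hV
    have hmod : (p : ℤ) ∣ m - ((e : ℤ) + 1) := by
      have : m - ((e : ℤ) + 1) = m * (p : ℤ) - ((e : ℤ) * (1 + ↑t * m) + 1) := by rw [hpz]; ring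
      rw [this]
      exact Int.dvd_sub (Dvd.intro_left m rfl) hcong
    obtain ⟨s, hs⟩ := hmod
    have hb : (e : ℤ) + 1 ≤ m ∨ m ≤ (e : ℤ) + 1 - p := by
      rcases le_or_gt 0 s with h0 | h0
      · left; nlinarith
      · right; nlinarith
    rw [hpz] at hV hb
    have h1 : (t : ℤ) * m ^ 2 + 2 * m < e := by linarith
    have h3 : 3 * m ^ 2 ≤ (t : ℤ) * m ^ 2 := mul_le_mul_of_nonneg_right htz3 (sq_nonneg m)
    rcases hb with hb | hb
    · have h4 : ((e : ℤ) + 1) * ((e : ℤ) + 1) ≤ m * m :=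
        mul_le_mul hb hb (by omega) (by omega)
      nlinarith
    · have h5 : 2 * (e : ℤ) ≤ ((t : ℤ) - 1) * e := mul_le_mul_of_nonneg_right (by omega) (by omega)
      have h6 : m ≤ -(2 * (e : ℤ)) := by linarith
      have h4 : (2 * (e : ℤ)) * (2 * (e : ℤ)) ≤ (-m) * (-m) :=
        mul_le_mul (by omega) (by omega) (by omega) (by omega)
      nlinarith
  · have h' : (K.card : ℤ) = t - 1 := by omega
    rw [h'] at hcong hV
    set M := m + 1 with hM
    have hmod : (p : ℤ) ∣ M - (1 - (e : ℤ)) := by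
      have : M - (1 - (e : ℤ)) = M * (p : ℤ) - ((e : ℤ) * ((↑t - 1) + ↑t * m) + 1) := by
        rw [hpz, hM]; ring
      rw [this]
      exact Int.dvd_sub (Dvd.intro_left M rfl) hcong
    obtain ⟨s, hs⟩ := hmod
    have hb : M ≤ 1 - (e : ℤ) ∨ 1 - (e : ℤ) + p ≤ M := by
      rcases le_or_gt s 0 with h0 | h0
      · left
        have := mul_nonpos_of_nonneg_of_nonpos (Int.natCast_nonneg p) h0
        linarith
      · right
        have := le_mul_of_one_le_right (Int.natCast_nonneg p) (show (1 : ℤ) ≤ s by omega)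
        linarith
    rw [hpz] at hV hb
    have h1 : ((t : ℤ) - 1) * M ^ 2 + m ^ 2 < (e : ℤ) + 1 := by
      rw [hM]
      linarith
    have h3 : 0 ≤ ((t : ℤ) - 1) * M ^ 2 := mul_nonneg (by omega) (sq_nonneg M)
    rcases hb with hb | hb
    · have h4 : (e : ℤ) * e ≤ (-m) * (-m) :=
        mul_le_mul (by omega) (by omega) (by omega) (by omega)
      have h7 : 2 * (e : ℤ) ≤ e * e := mul_le_mul_of_nonneg_right hez (by omega)
      linarith [show (-m) * (-m) = m ^ 2 by ring]
    · have h5 : 2 * (e : ℤ) ≤ ((t : ℤ) - 1) * e := mul_le_mul_of_nonneg_right (by omega) (by omega)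
      have h6 : 2 * (e : ℤ) ≤ m := by linarith
      have h4 : (2 * (e : ℤ)) * (2 * (e : ℤ)) ≤ m * m :=
        mul_le_mul h6 h6 (by omega) (by omega)
      have h7 : 2 * (e : ℤ) ≤ e * e := mul_le_mul_of_nonneg_right hez (by omega)
      linarith [show m * m = m ^ 2 by ring, show (2 * (e : ℤ)) * (2 * e) = 4 * (e * e) by ring]

end Cfsg.Agent.H43
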