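import Mathlib
import Cfsg.Agent.H43.SelfCentralizing

/-!
# Derived subgroups in the presence of a self-centralizing element of prime order
-/

set_option autoImplicit false
set_option maxHeartbeats 800000

namespace Cfsg.Agent.H43

variable {G : Type*} [Group G] [Finite G] {p : ℕ} [hp : Fact p.Prime] {x : G}

omit hp in
theorem zpowers_eq_of_mem (hp' : p.Prime) (hx : orderOf x = p) {y : G}
    (hy : y ∈ Subgroup.zpowers x) (h1 : y ≠ 1) : Subgroup.zpowers y = Subgroup.zpowers x := by
  refine Subgroup.eq_of_le_of_card_ge (Subgroup.zpowers_le.mpr hy) ?_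
  rcases (Nat.dvd_prime hp').mp ((orderOf_dvd_of_mem_zpowers hy).trans hx.dvd) with h | h
  · exact absurd (orderOf_eq_one_iff.mp h) h1
  · rw [Nat.card_zpowers, Nat.card_zpowers, hx, h]

omit hp in
theorem mem_normalizer_zpowers_of_conj_mem (hp' : p.Prime) (hx : orderOf x = p) {g y : G}
    (hy : y ∈ Subgroup.zpowers x) (h1 : y ≠ 1) (hg : g * y * g⁻¹ ∈ Subgroup.zpowers x) :
    g ∈ Subgroup.normalizer ((Subgroup.zpowers x : Subgroup G) : Set G) := by
  have hne : g * y * g⁻¹ ≠ 1 := by rw [Ne, conj_eq_one_iff]; exact h1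
  have h : (Subgroup.zpowers x).map (MulAut.conj g).toMonoidHom = Subgroup.zpowers x := by
    conv_lhs => rw [← zpowers_eq_of_mem hp' hx hy h1]
    rw [MonoidHom.map_zpowers]
    exact zpowers_eq_of_mem hp' hx hg hne
  rw [Subgroup.mem_normalizer_iff]
  intro z
  constructor
  · intro hz; rw [← h]; exact ⟨z, hz, rfl⟩
  · intro hz
    rw [← h] at hz
    obtain ⟨w, hw, hwz⟩ := hz
    have e : w = z := (MulAut.conj g).injective hwz
    exact e ▸ hw

/-- There are `t` classes of elements of order `p`, where `t * |N(X) : X| = p - 1`. -/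
theorem card_classes_mul_relIndex (hx : orderOf x = p)
    (hC : Subgroup.centralizer ({x} : Set G) = Subgroup.zpowers x) :
    Nat.card {C : ConjClasses G // ∃ g ∈ C.carrier, orderOf g = p} *
      (Subgroup.zpowers x).relIndex
        (Subgroup.normalizer ((Subgroup.zpowers x : Subgroup G) : Set G)) = p - 1 := by
  classical
  set N := Subgroup.normalizer ((Subgroup.zpowers x : Subgroup G) : Set G)
  let X := {y : G // y ∈ Subgroup.zpowers x ∧ y ≠ 1}
  have hX : Nat.card X = p - 1 := by
    have := Fintype.ofFinite G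
    have h2 : Nat.card (Subgroup.zpowers x) = p := by rw [Nat.card_zpowers, hx]
    rw [Nat.card_eq_fintype_card, Fintype.card_subtype] at h2 ⊢
    rw [← h2, ← Finset.card_erase_of_mem
      (show (1 : G) ∈ Finset.univ.filter (fun y => y ∈ Subgroup.zpowers x) by simp)]
    congr 1
    ext y; simp [and_comm]
  have hord : ∀ y : X, orderOf y.1 = p := fun y => by
    rw [← Nat.card_zpowers, zpowers_eq_of_mem hp.out hx y.2.1 y.2.2, Nat.card_zpowers, hx]
  let f : X → {C : ConjClasses G // ∃ g ∈ C.carrier, orderOf g = p} :=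
    fun y => ⟨ConjClasses.mk y.1, y.1, ConjClasses.mem_carrier_mk, hord y⟩
  have hsurj : Function.Surjective f := by
    rintro ⟨C, g, hg, hgo⟩
    obtain ⟨P, hP⟩ := exists_sylow_eq_zpowers hx hC
    obtain ⟨Q, hQ⟩ := (IsPGroup.of_card (n := 1) (by rw [Nat.card_zpowers, hgo, pow_one]) :
      IsPGroup p (Subgroup.zpowers g)).exists_le_sylow
    obtain ⟨k, hk⟩ := MulAction.exists_smul_eq G Q P
    have hmem : k * g * k⁻¹ ∈ Subgroup.zpowers x := by
      rw [← hP, ← hk, Sylow.coe_subgroup_smul]
      exact Subgroup.smul_mem_pointwise_smul g (MulAut.conj k) _ (hQ (Subgroup.mem_zpowers g))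
    have hne : k * g * k⁻¹ ≠ 1 := by
      rw [Ne, conj_eq_one_iff]
      rintro rfl
      rw [orderOf_one] at hgo
      exact hp.out.one_lt.ne hgo
    refine ⟨⟨_, hmem, hne⟩, Subtype.ext ?_⟩
    show ConjClasses.mk (k * g * k⁻¹) = C
    rw [← ConjClasses.mem_carrier_iff_mk_eq.mp hg, ConjClasses.mk_eq_mk_iff_isConj, isConj_iff]
    exact ⟨k⁻¹, by group⟩
  have hfib : ∀ C, Nat.card {y : X // f y = C} = (Subgroup.zpowers x).relIndex N := by
    intro C
    obtain ⟨y, rfl⟩ := hsurj C
    let : MulAction N G := MulAction.compHom G ((MulAut.conj : G →* MulAut G).comp N.subtype)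
    have hstab : MulAction.stabilizer N y.1 = (Subgroup.zpowers x).subgroupOf N := by
      ext n
      rw [MulAction.mem_stabilizer_iff, Subgroup.mem_subgroupOf]
      show MulAut.conj (n : G) y.1 = y.1 ↔ (n : G) ∈ Subgroup.zpowers x
      rw [MulAut.conj_apply, mul_inv_eq_iff_eq_mul]
      constructor
      · intro h
        rw [← hC, Subgroup.mem_centralizer_singleton_iff]
        obtain ⟨k, hk⟩ := Subgroup.mem_zpowers_iff.mp
          (show x ∈ Subgroup.zpowers y.1 by
            rw [zpowers_eq_of_mem hp.out hx y.2.1 y.2.2]; exact Subgroup.mem_zpowers x)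
        rw [← hk]
        exact ((show Commute (n : G) y.1 from h).zpow_right k).eq
      · intro h
        obtain ⟨i, hi⟩ := Subgroup.mem_zpowers_iff.mp h
        obtain ⟨j, hj⟩ := Subgroup.mem_zpowers_iff.mp y.2.1
        rw [← hi, ← hj]
        exact Commute.zpow_zpow_self x i j
    rw [Subgroup.relIndex, ← hstab, MulAction.index_stabilizer, ← Nat.card_coe_set_eq]
    refine Nat.card_eq_of_bijective (fun z => ⟨z.1.1, ?_⟩) ⟨?_, ?_⟩
    · have h : ConjClasses.mk z.1.1 = ConjClasses.mk y.1 := congrArg Subtype.val z.2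
      obtain ⟨g, hg⟩ := isConj_iff.mp (ConjClasses.mk_eq_mk_iff_isConj.mp h.symm)
      exact ⟨⟨g, mem_normalizer_zpowers_of_conj_mem hp.out hx y.2.1 y.2.2 (hg ▸ z.1.2.1)⟩, hg⟩
    · intro a b h
      exact Subtype.ext (Subtype.ext (Subtype.mk.inj h))
    · rintro ⟨z, n, hn⟩
      have hz : (n : G) * y.1 * (n : G)⁻¹ = z := hn
      refine ⟨⟨⟨z, hz ▸ (Subgroup.mem_normalizer_iff.mp n.2 y.1).mp y.2.1, ?_⟩, ?_⟩, rfl⟩
      · rw [← hz, Ne, conj_eq_one_iff]; exact y.2.2
      · refine Subtype.ext ?_
        show ConjClasses.mk z = ConjClasses.mk y.1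
        exact (ConjClasses.mk_eq_mk_iff_isConj.mpr (isConj_iff.mpr ⟨(n : G), hz⟩)).symm
  have := Fintype.ofFinite X
  have := Fintype.ofFinite {C : ConjClasses G // ∃ g ∈ C.carrier, orderOf g = p}
  rw [← hX, ← Nat.card_congr (Equiv.sigmaFiberEquiv f), Nat.card_sigma]
  rw [Finset.sum_congr rfl fun C _ => hfib C]
  simp [Nat.card_eq_fintype_card]

/-- A normal subgroup avoiding `x` lies in the commutator subgroup. -/
theorem le_commutator_of_notMem (hx : orderOf x = p)
    (hC : Subgroup.centralizer ({x} : Set G) = Subgroup.zpowers x)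
    (S : Subgroup G) [hS : S.Normal] (hxS : x ∉ S) : S ≤ commutator G := by
  let φ : S → S := fun s => ⟨(s : G) * x * (s : G)⁻¹ * x⁻¹, by
    have := S.mul_mem s.2 (hS.conj_mem _ (S.inv_mem s.2) x)
    simpa [mul_assoc] using this⟩
  have hinj : Function.Injective φ := by
    intro a b hab
    have h : (a : G) * x * (a : G)⁻¹ * x⁻¹ = (b : G) * x * (b : G)⁻¹ * x⁻¹ :=
      congrArg Subtype.val hab
    have h2 : (b : G)⁻¹ * a ∈ Subgroup.zpowers x := by
      rw [← hC, Subgroup.mem_centralizer_singleton_iff]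
      have h' := mul_right_cancel h
      calc (b : G)⁻¹ * a * x = (b : G)⁻¹ * (a * x * (a : G)⁻¹) * a := by group
        _ = (b : G)⁻¹ * (b * x * (b : G)⁻¹) * a := by rw [h']
        _ = x * ((b : G)⁻¹ * a) := by group
    have h3 := eq_one_of_mem_of_mem_zpowers hx S hxS (S.mul_mem (S.inv_mem b.2) a.2) h2
    exact Subtype.ext (inv_mul_eq_one.mp h3).symm
  intro g hg
  obtain ⟨s, hs⟩ := (Finite.injective_iff_surjective.mp hinj) ⟨g, hg⟩
  have h : (s : G) * x * (s : G)⁻¹ * x⁻¹ = g := congrArg Subtype.val hs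
  rw [← h, commutator_def]
  exact Subgroup.commutator_mem_commutator (Subgroup.mem_top (s : G)) (Subgroup.mem_top x)

/-- If `N(X) ≠ X` then `x` is a commutator. -/
theorem mem_commutator_of_relIndex_ne_one (hx : orderOf x = p)
    (hC : Subgroup.centralizer ({x} : Set G) = Subgroup.zpowers x)
    (he : (Subgroup.zpowers x).relIndex
        (Subgroup.normalizer ((Subgroup.zpowers x : Subgroup G) : Set G)) ≠ 1) :
    x ∈ commutator G := by
  by_contra hxG
  apply he
  rw [Subgroup.relIndex_eq_one]
  intro n hn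
  rw [← hC, Subgroup.mem_centralizer_singleton_iff]
  have h1 : n * x * n⁻¹ * x⁻¹ ∈ commutator G := by
    rw [commutator_def]
    exact Subgroup.commutator_mem_commutator (Subgroup.mem_top n) (Subgroup.mem_top x)
  have h2 : n * x * n⁻¹ * x⁻¹ ∈ Subgroup.zpowers x :=
    mul_mem ((Subgroup.mem_normalizer_iff.mp hn x).mp (Subgroup.mem_zpowers x))
      (inv_mem (Subgroup.mem_zpowers x))
  have h3 := eq_one_of_mem_of_mem_zpowers hx (commutator G) hxG h1 h2
  rw [mul_inv_eq_one, mul_inv_eq_iff_eq_mul] at h3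
  exact h3

/-- `|G : G'|` is at most `|N(X) : X|` when `x` is a commutator. -/
theorem index_commutator_dvd (hx : orderOf x = p)
    (hC : Subgroup.centralizer ({x} : Set G) = Subgroup.zpowers x) (hxG : x ∈ commutator G) :
    (commutator G).index ∣ (Subgroup.zpowers x).relIndex
        (Subgroup.normalizer ((Subgroup.zpowers x : Subgroup G) : Set G)) := by
  obtain ⟨P, hP⟩ := exists_sylow_eq_zpowers hx hC
  have hle : Subgroup.zpowers x ≤ commutator G := Subgroup.zpowers_le.mpr hxG
  have hsup := Sylow.normalizer_sup_eq_top' P (hP ▸ hle)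
  rw [← hP, ← Subgroup.relIndex_top_right, ← hsup, Subgroup.relIndex_sup_right]
  exact Subgroup.relIndex_dvd_of_le_left _ (hP ▸ hle)

omit [Finite G] hp in
theorem card_sup_of_inf_eq_bot (H S : Subgroup G) [S.Normal] (h : H ⊓ S = ⊥) :
    Nat.card (H ⊔ S : Subgroup G) = Nat.card H * Nat.card S := by
  have e : (S : Subgroup G).subgroupOf H = ⊥ := by
    rw [Subgroup.subgroupOf_eq_bot, disjoint_iff, inf_comm, h]
  rw [← Subgroup.card_mul_index ((S : Subgroup G).subgroupOf (H ⊔ S)),
    Nat.card_congr (Subgroup.subgroupOfEquivOfLe le_sup_right).toEquiv,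
    ← Subgroup.relIndex, Subgroup.relIndex_sup_right, Subgroup.relIndex, e,
    Subgroup.index_bot, mul_comm]

/-- A normal subgroup avoiding `x` supplements `N(X)` iff its order is the number of conjugates
of `X`. -/
theorem sup_normalizer_eq_top_iff (hx : orderOf x = p)
    (hC : Subgroup.centralizer ({x} : Set G) = Subgroup.zpowers x)
    (S : Subgroup G) [S.Normal] (hxS : x ∉ S) :
    Subgroup.normalizer ((Subgroup.zpowers x : Subgroup G) : Set G) ⊔ S = ⊤ ↔
      Nat.card S = (Subgroup.normalizer ((Subgroup.zpowers x : Subgroup G) : Set G)).index := by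
  set N := Subgroup.normalizer ((Subgroup.zpowers x : Subgroup G) : Set G)
  have hinf : N ⊓ S = ⊥ := by
    rw [eq_bot_iff]
    rintro s ⟨hn, hs⟩
    exact Subgroup.mem_bot.mpr (eq_one_of_mem_normalizer hx hC S hxS hs hn)
  have hc := card_sup_of_inf_eq_bot N S hinf
  constructor
  · intro h
    rw [h, Subgroup.card_top, ← Subgroup.card_mul_index N] at hc
    exact (Nat.eq_of_mul_eq_mul_left Nat.card_pos hc).symm
  · intro h
    apply Subgroup.eq_top_of_card_eq
    rw [hc, h, Subgroup.card_mul_index]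

theorem not_dvd_index_normalizer (hx : orderOf x = p)
    (hC : Subgroup.centralizer ({x} : Set G) = Subgroup.zpowers x) :
    ¬ p ∣ (Subgroup.normalizer ((Subgroup.zpowers x : Subgroup G) : Set G)).index := by
  obtain ⟨P, hP⟩ := exists_sylow_eq_zpowers hx hC
  intro h
  apply P.not_dvd_index
  rw [hP]
  exact h.trans (Subgroup.index_dvd_of_le Subgroup.le_normalizer)

/-- The case `N(X) = X`: the commutator subgroup is a normal complement of `X`. -/
theorem commutator_of_relIndex_eq_one (hx : orderOf x = p)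
    (hC : Subgroup.centralizer ({x} : Set G) = Subgroup.zpowers x)
    (he : (Subgroup.zpowers x).relIndex
        (Subgroup.normalizer ((Subgroup.zpowers x : Subgroup G) : Set G)) = 1) :
    x ∉ commutator G ∧ (commutator G).index = p ∧ Nat.card (commutator G) =
      (Subgroup.normalizer ((Subgroup.zpowers x : Subgroup G) : Set G)).index ∧
      ¬ p ∣ Nat.card (commutator G) := by
  obtain ⟨P, hP⟩ := exists_sylow_eq_zpowers hx hC
  have hN := Subgroup.relIndex_eq_one.mp he
  have hNX : Subgroup.normalizer ((Subgroup.zpowers x : Subgroup G) : Set G) =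
      Subgroup.zpowers x := le_antisymm hN Subgroup.le_normalizer
  have hcomm : ∀ a ∈ (P : Subgroup G), ∀ b ∈ (P : Subgroup G), Commute a b := by
    rw [hP]
    intro a ha b hb
    obtain ⟨i, rfl⟩ := Subgroup.mem_zpowers_iff.mp ha
    obtain ⟨j, rfl⟩ := Subgroup.mem_zpowers_iff.mp hb
    exact Commute.zpow_zpow_self x i j
  have hPc : Subgroup.normalizer ((P : Subgroup G) : Set G) ≤
      Subgroup.centralizer ((P : Subgroup G) : Set G) := by
    intro g hg
    have hgP : g ∈ (P : Subgroup G) := by rw [hP]; exact hN (hP ▸ hg)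
    rw [Subgroup.mem_centralizer_iff]
    exact fun h hh => (hcomm h hh g hgP).eq
  have hK := MonoidHom.ker_transferSylow_isComplement' P hPc
  set f := MonoidHom.transferSylow P hPc with hf
  have hle : commutator G ≤ f.ker := by
    rw [commutator_def, Subgroup.commutator_le]
    intro a _ b _
    rw [MonoidHom.mem_ker, map_commutatorElement, commutatorElement_eq_one_iff_commute]
    exact Subtype.ext (hcomm _ (f a).2 _ (f b).2).eq
  have hxK : x ∉ f.ker := by
    intro h
    apply MonoidHom.not_dvd_card_ker_transferSylow P hPc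
    exact hx ▸ f.ker.orderOf_dvd_natCard h
  have heq : commutator G = f.ker :=
    le_antisymm hle (le_commutator_of_notMem hx hC f.ker hxK)
  rw [heq]
  refine ⟨hxK, ?_, ?_, MonoidHom.not_dvd_card_ker_transferSylow P hPc⟩
  · rw [hK.symm.index_eq_card, hP, Nat.card_zpowers, hx]
  · rw [← hK.index_eq_card, hP, hNX]

/-- If `G'' ≠ G'` and `x ∈ G'`, then `G''` avoids `x` and `G' = G''X`. -/
theorem derived_two_of_ne (hx : orderOf x = p)
    (hC : Subgroup.centralizer ({x} : Set G) = Subgroup.zpowers x) (hxG : x ∈ commutator G)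
    (hne : derivedSeries G 2 ≠ derivedSeries G 1) :
    x ∉ derivedSeries G 2 ∧ commutator G = Subgroup.zpowers x ⊔ derivedSeries G 2 := by
  have : (derivedSeries G 2).Normal := derivedSeries_normal G 2
  have hx2 : x ∉ derivedSeries G 2 := fun h => hne
    (le_antisymm (derivedSeries_antitone G (by norm_num))
      (by rw [derivedSeries_one]; exact commutator_le_of_mem hx hC _ h))
  refine ⟨hx2, le_antisymm (fun g hg => ?_) (sup_le (Subgroup.zpowers_le.mpr hxG) ?_)⟩
  · have h : g * x * g⁻¹ * x⁻¹ ∈ derivedSeries G 2 := by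
      rw [derivedSeries_succ, derivedSeries_one]
      exact Subgroup.commutator_mem_commutator hg hxG
    obtain ⟨s, hs, y, hy, rfl⟩ := exists_mem_mul_of_commute_mod hx hC _ hx2 h
    exact mul_mem (Subgroup.mem_sup_right hs) (Subgroup.mem_sup_left hy)
  · rw [← derivedSeries_one]; exact derivedSeries_antitone G (by norm_num)

end Cfsg.Agent.H43
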