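import Mathlib
import Cfsg.Agent.H43.SelfCentralizingDerived
import Cfsg.Agent.H43.OddOrbitPattern
import Cfsg.Agent.H43.CharTools
import Cfsg.Agent.H43.DetChar

/-!
# Characters of degree `p - 1` and self-centralizing elements of order `p`
-/

set_option autoImplicit false
set_option maxHeartbeats 800000

namespace Cfsg.Agent.H43

open scoped ComplexConjugate
open Module

/-- The determinant of a diagonalisable operator. -/
theorem det_eq_prod_of_eigenbasis {V : Type*} [AddCommGroup V] [Module ℂ V] {ι : Type*}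
    [Fintype ι] (f : Module.End ℂ V) (b : Basis ι ℂ V) (μ : ι → ℂ)
    (h : ∀ i, f (b i) = μ i • b i) : LinearMap.det f = ∏ i, μ i := by
  classical
  rw [← LinearMap.det_toMatrix b, show LinearMap.toMatrix b b f = Matrix.diagonal μ from ?_,
    Matrix.det_diagonal]
  ext i j
  rw [LinearMap.toMatrix_apply, h j]
  by_cases hij : i = j
  · subst hij; simp
  · simp [Ne.symm hij, Matrix.diagonal_apply_ne _ hij]

/-- If the eigenvalue sums of all non-trivial powers vanish, the eigenvalues are equidistributed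
and their product is `-1` for an even order and an odd multiplicity. -/
theorem prod_eq_neg_one {n : ℕ} (ν : Fin n → ℂ) {e t : ℕ} (he : Even e) (he0 : 0 < e) (ht : Odd t)
    (hn : n = t * e) (hν : ∀ i, ν i ^ e = 1)
    (hsum : ∀ j, 0 < j → j < e → ∑ i, ν i ^ j = 0) : ∏ i, ν i = -1 := by
  classical
  obtain ⟨ζ, hζ⟩ : ∃ ζ : ℂ, IsPrimitiveRoot ζ e := ⟨_, Complex.isPrimitiveRoot_exp e he0.ne'⟩
  set R := Polynomial.nthRootsFinset e (1 : ℂ) with hR
  have hmem : ∀ i ∈ (Finset.univ : Finset (Fin n)), ν i ∈ R := fun i _ =>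
    (Polynomial.mem_nthRootsFinset he0 _).mpr (hν i)
  have hcount : ∀ r ∈ R, (Finset.univ.filter fun i => ν i = r).card = t := by
    intro r hr
    rw [hR, Polynomial.mem_nthRootsFinset he0] at hr
    have hr0 : r ≠ 0 := fun h => by rw [h, zero_pow he0.ne'] at hr; exact zero_ne_one hr
    have h1 : ∑ j ∈ Finset.range e, ∑ i, (ν i / r) ^ j = (n : ℂ) := by
      rw [Finset.sum_eq_single 0]
      · simp
      · intro j hj hj0
        have := hsum j (Nat.pos_of_ne_zero hj0) (Finset.mem_range.mp hj)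
        simp only [div_pow, ← Finset.sum_div, this, zero_div]
      · intro h; exact absurd (Finset.mem_range.mpr he0) h
    rw [Finset.sum_comm] at h1
    have h2 : ∀ i, ∑ j ∈ Finset.range e, (ν i / r) ^ j = if ν i = r then (e : ℂ) else 0 := by
      intro i
      split_ifs with h
      · rw [h, div_self hr0]; simp
      · rw [geom_sum_eq (fun hc => h ((div_eq_one_iff_eq hr0).mp hc)), div_pow, hν i, hr,
          div_self one_ne_zero, sub_self, zero_div]
    simp only [h2, ← Finset.sum_filter, Finset.sum_const, nsmul_eq_mul] at h1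
    rw [show (n : ℂ) = (t : ℂ) * (e : ℂ) by rw [hn, Nat.cast_mul]] at h1
    exact_mod_cast mul_right_cancel₀ (Nat.cast_ne_zero.mpr he0.ne') h1
  have hprod : ∏ r ∈ R, r = -1 := by
    have h := congrArg (Polynomial.eval 0) (Polynomial.X_pow_sub_one_eq_prod he0 hζ)
    simp only [Polynomial.eval_sub, Polynomial.eval_pow, Polynomial.eval_X, Polynomial.eval_one,
      zero_pow he0.ne', Polynomial.eval_prod, Polynomial.eval_C, zero_sub] at h
    rw [Finset.prod_neg, hζ.card_nthRootsFinset, he.neg_one_pow, one_mul] at h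
    exact h.symm
  rw [← Finset.prod_fiberwise_of_maps_to hmem,
    Finset.prod_congr rfl fun r hr => show ∏ i with ν i = r, ν i = r ^ t by
      rw [Finset.prod_congr rfl fun i hi => (Finset.mem_filter.mp hi).2, Finset.prod_const,
        hcount r hr],
    Finset.prod_pow, hprod, ht.neg_one_pow]

variable {G : Type*} [Group G] [Finite G] {p : ℕ} [hp : Fact p.Prime] {x : G}

/-- The action of `N(X)` on `X` as a homomorphism to `(ℤ/p)ˣ`. -/
theorem exists_exponent_hom (hx : orderOf x = p)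
    (hC : Subgroup.centralizer ({x} : Set G) = Subgroup.zpowers x) :
    ∃ f : Subgroup.normalizer ((Subgroup.zpowers x : Subgroup G) : Set G) →* (ZMod p)ˣ,
      (∀ n : Subgroup.normalizer ((Subgroup.zpowers x : Subgroup G) : Set G),
        (n : G) * x * (n : G)⁻¹ = x ^ ((f n : (ZMod p)ˣ) : ZMod p).val) ∧
      Nat.card f.range = (Subgroup.zpowers x).relIndex
        (Subgroup.normalizer ((Subgroup.zpowers x : Subgroup G) : Set G)) := by
  set N := Subgroup.normalizer ((Subgroup.zpowers x : Subgroup G) : Set G)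
  have hinj : ∀ r s : ZMod p, x ^ r.val = x ^ s.val → r = s := by
    intro r s h
    rw [pow_eq_pow_iff_modEq, hx] at h
    have := (ZMod.natCast_eq_natCast_iff _ _ _).mpr h
    rwa [ZMod.natCast_zmod_val, ZMod.natCast_zmod_val] at this
  have hex : ∀ n : N, ∃ r : ZMod p, (n : G) * x * (n : G)⁻¹ = x ^ r.val := by
    intro n
    obtain ⟨i, hi⟩ := Subgroup.mem_zpowers_iff.mp
      ((Subgroup.mem_normalizer_iff.mp n.2 x).mp (Subgroup.mem_zpowers x))
    refine ⟨(i : ZMod p), ?_⟩
    rw [← hi, ← zpow_natCast, zpow_eq_zpow_iff_modEq, hx, ← ZMod.intCast_eq_intCast_iff]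
    rw [Int.cast_natCast, ZMod.natCast_zmod_val]
  choose r hr using hex
  let f0 : N →* ZMod p :=
    { toFun := r
      map_one' := hinj _ _ (by rw [← hr, ZMod.val_one, pow_one]; simp)
      map_mul' := fun a b => hinj _ _ (by
        rw [← hr, Subgroup.coe_mul, mul_inv_rev,
          show (a : G) * b * x * ((b : G)⁻¹ * (a : G)⁻¹) = a * (b * x * (b : G)⁻¹) * (a : G)⁻¹ by
            group, hr b, ← conj_pow, hr a, ← pow_mul, pow_eq_pow_iff_modEq, hx, ZMod.val_mul]
        exact (Nat.mod_modEq _ _).symm) }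
  refine ⟨f0.toHomUnits, fun n => by rw [MonoidHom.coe_toHomUnits]; exact hr n, ?_⟩
  rw [Subgroup.relIndex, ← Subgroup.index_ker]
  congr 1
  ext n
  rw [MonoidHom.mem_ker, Subgroup.mem_subgroupOf, Units.ext_iff, MonoidHom.coe_toHomUnits,
    Units.val_one, ← hC, Subgroup.mem_centralizer_singleton_iff]
  constructor
  · intro h
    have h2 := hr n
    rw [show r n = 1 from h, ZMod.val_one, pow_one, mul_inv_eq_iff_eq_mul] at h2
    exact h2
  · intro h
    refine hinj _ _ ?_
    rw [show f0 n = r n from rfl, ← hr n, ZMod.val_one, pow_one, mul_inv_eq_iff_eq_mul]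
    exact h

/-- The squared norms at elements of order `p` are bounded. -/
theorem sum_norm_sq_lt [Fintype G] (hx : orderOf x = p)
    (hC : Subgroup.centralizer ({x} : Set G) = Subgroup.zpowers x) (χ : Cfsg.IrrCharacter G) :
    ∑ j ∈ Finset.univ.erase (0 : ZMod p), ‖χ.1 (x ^ j.val)‖ ^ 2 <
      (Nat.card (Subgroup.normalizer ((Subgroup.zpowers x : Subgroup G) : Set G)) : ℝ) := by
  classical
  set N := Subgroup.normalizer ((Subgroup.zpowers x : Subgroup G) : Set G)
  set J := Finset.univ.erase (0 : ZMod p)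
  set F : G → ℝ := fun g => ‖χ.1 g‖ ^ 2
  have hFc : ∀ g h : G, F (h * g * h⁻¹) = F g := fun g h => by simp only [F]; rw [H26.irr_conj]
  have hmul : ∑ g : G, ∑ j ∈ J, F (g * x ^ j.val * g⁻¹) =
      (Nat.card G : ℝ) * ∑ j ∈ J, F (x ^ j.val) := by
    simp only [hFc, Finset.sum_const, nsmul_eq_mul, Finset.card_univ, Nat.card_eq_fintype_card]
  set P : Finset G := Finset.univ.filter (fun z => orderOf z = p) with hP
  have hJ : ∀ j ∈ J, orderOf (x ^ j.val) = p := by
    intro j hj
    have hjv : j.val ≠ 0 := fun h =>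
      (Finset.mem_erase.mp hj).1 (by rwa [ZMod.val_eq_zero] at h)
    refine orderOf_eq_prime ?_ (pow_ne_one_of_lt_orderOf hjv (hx ▸ ZMod.val_lt j))
    have hxp := pow_orderOf_eq_one x
    rw [hx] at hxp
    rw [← pow_mul, mul_comm, pow_mul, hxp, one_pow]
  have hmaps : ∀ q ∈ (Finset.univ ×ˢ J : Finset (G × ZMod p)), q.1 * x ^ q.2.val * q.1⁻¹ ∈ P := by
    intro q hq
    refine Finset.mem_filter.mpr ⟨Finset.mem_univ _, ?_⟩
    rw [show q.1 * x ^ q.2.val * q.1⁻¹ = MulAut.conj q.1 (x ^ q.2.val) from rfl,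
      MulEquiv.orderOf_eq, hJ _ (Finset.mem_product.mp hq).2]
  rw [← Finset.sum_product (s := (Finset.univ : Finset G)) (t := J)
    (f := fun q : G × ZMod p => F (q.1 * x ^ q.2.val * q.1⁻¹)),
    ← Finset.sum_fiberwise_of_maps_to hmaps] at hmul
  have hfib : ∀ z ∈ P, ((Finset.univ ×ˢ J : Finset (G × ZMod p)).filter
      fun q => q.1 * x ^ q.2.val * q.1⁻¹ = z).card = Nat.card N := by
    intro z hz
    have hzp : orderOf z = p := (Finset.mem_filter.mp hz).2
    obtain ⟨Q, hQ⟩ := exists_sylow_eq_zpowers hx hC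
    obtain ⟨S, hS⟩ := (IsPGroup.of_card (n := 1) (by rw [Nat.card_zpowers, hzp, pow_one]) :
      IsPGroup p (Subgroup.zpowers z)).exists_le_sylow
    obtain ⟨k, hk⟩ := MulAction.exists_smul_eq G S Q
    have hkz : k * z * k⁻¹ ∈ Subgroup.zpowers x := by
      rw [← hQ, ← hk, Sylow.coe_subgroup_smul]
      exact Subgroup.smul_mem_pointwise_smul z (MulAut.conj k) _ (hS (Subgroup.mem_zpowers z))
    have hz1 : z ≠ 1 := fun h => by rw [h, orderOf_one] at hzp; exact hp.out.one_lt.ne hzp
    -- the exponent of a conjugate lying in `X`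
    have hexp : ∀ g : G, g⁻¹ * z * g ∈ Subgroup.zpowers x → ∃ j ∈ J, g * x ^ j.val * g⁻¹ = z := by
      intro g hg
      obtain ⟨i, hi⟩ := Subgroup.mem_zpowers_iff.mp hg
      have hi' : x ^ (i : ZMod p).val = g⁻¹ * z * g := by
        rw [← hi, ← zpow_natCast, zpow_eq_zpow_iff_modEq, hx, ← ZMod.intCast_eq_intCast_iff,
          Int.cast_natCast, ZMod.natCast_zmod_val]
      refine ⟨(i : ZMod p), Finset.mem_erase.mpr ⟨fun h0 => hz1 ?_, Finset.mem_univ _⟩, by
        rw [hi']; group⟩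
      rw [h0, ZMod.val_zero, pow_zero] at hi'
      calc z = g * (g⁻¹ * z * g) * g⁻¹ := by group
        _ = 1 := by rw [← hi']; group
    rw [Nat.card_eq_fintype_card, ← Finset.card_univ]
    symm
    choose jj hjJ hjz using hexp
    have hmemk : ∀ n : N, (k⁻¹ * (n : G))⁻¹ * z * (k⁻¹ * (n : G)) ∈ Subgroup.zpowers x := by
      intro n
      have h := (Subgroup.mem_normalizer_iff.mp (N.inv_mem n.2) (k * z * k⁻¹)).mp hkz
      rw [show (k⁻¹ * (n : G))⁻¹ * z * (k⁻¹ * (n : G)) =
        (n : G)⁻¹ * (k * z * k⁻¹) * ((n : G)⁻¹)⁻¹ by group]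
      exact h
    refine Finset.card_bij (fun n _ => (k⁻¹ * (n : G), jj _ (hmemk n))) ?_ ?_ ?_
    · intro n _
      exact Finset.mem_filter.mpr ⟨Finset.mem_product.mpr ⟨Finset.mem_univ _, hjJ _ _⟩, hjz _ _⟩
    · intro a _ b _ h
      exact Subtype.ext (mul_left_cancel (congrArg Prod.fst h))
    · rintro ⟨g, j⟩ hq
      obtain ⟨hq1, hq2⟩ := Finset.mem_filter.mp hq
      have hjm := (Finset.mem_product.mp hq1).2
      have hne : x ^ j.val ≠ 1 := fun h => by
        have := hJ j hjm; rw [h, orderOf_one] at this; exact hp.out.one_lt.ne this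
      have hkg : k * g ∈ N := mem_normalizer_zpowers_of_conj_mem hp.out hx
        (Subgroup.pow_mem _ (Subgroup.mem_zpowers x) _) hne (by
          rw [show k * g * x ^ j.val * (k * g)⁻¹ = k * (g * x ^ j.val * g⁻¹) * k⁻¹ by group, hq2]
          exact hkz)
      refine ⟨⟨k * g, hkg⟩, Finset.mem_univ _, ?_⟩
      have e1 : k⁻¹ * (k * g) = g := by group
      have e2 := hjz _ (hmemk ⟨k * g, hkg⟩)
      simp only [e1] at e2 ⊢
      refine Prod.ext rfl ?_
      have e3 : x ^ (jj g (by simpa [e1] using hmemk ⟨k * g, hkg⟩)).val = x ^ j.val :=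
        mul_left_cancel (mul_right_cancel (e2.trans hq2.symm))
      rw [pow_eq_pow_iff_modEq, hx, ← ZMod.natCast_eq_natCast_iff, ZMod.natCast_zmod_val,
        ZMod.natCast_zmod_val] at e3
      exact e3
  rw [Finset.sum_congr rfl (fun z hz => by
    rw [Finset.sum_congr rfl fun q hq => congrArg F (Finset.mem_filter.mp hq).2, Finset.sum_const,
      hfib z hz, nsmul_eq_mul] : ∀ z ∈ P, _ = (Nat.card N : ℝ) * F z), ← Finset.mul_sum] at hmul
  have hrow : ∑ g : G, F g = (Nat.card G : ℝ) := by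
    have h := H26.classInner_irr χ χ
    rw [if_pos rfl, Cfsg.classInner, inv_mul_eq_iff_eq_mul₀
      (Nat.cast_ne_zero.mpr Nat.card_pos.ne'), mul_one] at h
    simp only [Complex.mul_conj, Complex.normSq_eq_norm_sq] at h
    exact_mod_cast h
  have hlt : ∑ z ∈ P, F z < (Nat.card G : ℝ) := by
    rw [← hrow]
    refine Finset.sum_lt_sum_of_subset (Finset.subset_univ P) (Finset.mem_univ (1 : G)) ?_ ?_
      (fun z _ _ => sq_nonneg _)
    · simp [hP, hp.out.one_lt.ne]
    · exact pow_pos (norm_pos_iff.mpr (H26.irr_one_ne_zero χ)) 2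
  have hG0 : (0 : ℝ) < Nat.card G := by exact_mod_cast Nat.card_pos
  have hN0 : (0 : ℝ) < Nat.card N := by exact_mod_cast Nat.card_pos
  by_contra hge
  push Not at hge
  nlinarith

/-- The theorem. -/
theorem even_index_of_degree_pred [Fintype G] (hx : orderOf x = p)
    (hC : Subgroup.centralizer ({x} : Set G) = Subgroup.zpowers x) (χ : Cfsg.IrrCharacter G)
    (hχ : Cfsg.charDegree χ.1 + 1 = p) {t : ℕ}
    (hte : t * (Subgroup.zpowers x).relIndex
        (Subgroup.normalizer ((Subgroup.zpowers x : Subgroup G) : Set G)) = p - 1)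
    (ht : Odd t)
    (he2 : 2 ≤ (Subgroup.zpowers x).relIndex
        (Subgroup.normalizer ((Subgroup.zpowers x : Subgroup G) : Set G))) :
    Even (commutator G).index := by
  classical
  set N := Subgroup.normalizer ((Subgroup.zpowers x : Subgroup G) : Set G) with hN
  set e := (Subgroup.zpowers x).relIndex N with hedef
  have hpos := hp.out.two_le
  have hp2 : p ≠ 2 := by
    intro h; rw [h] at hte; nlinarith [ht.pos]
  have hte' : t * e + 1 = p := by omega
  have heven : Even e := by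
    have : Even (t * e) := by
      rw [hte]; exact hp.out.even_sub_one hp2
    exact (Nat.even_mul.mp this).resolve_left (Nat.not_even_iff_odd.mpr ht)
  obtain ⟨m, ρ, hρ, hρc⟩ := χ.2
  have hm : m = p - 1 := by
    have h1 := irr_charDegree_spec χ
    rw [← hρc, ρ.char_one, Module.finrank_fin_fun, Nat.cast_inj] at h1
    rw [hρc] at h1
    omega
  obtain ⟨b, μ, hb, hμ, -⟩ := H25.exists_eigenbasis ρ x
  obtain ⟨f, hf, hfcard⟩ := exists_exponent_hom hx hC
  rw [← hedef] at hfcard
  set ψ : AddChar (ZMod p) ℂ := ZMod.stdAddChar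
  have hpsi : ψ.IsPrimitive := ZMod.isPrimitive_stdAddChar p
  have hψval : ∀ k : ZMod p, ψ k = ψ 1 ^ k.val := fun k => by
    rw [← AddChar.map_nsmul_eq_pow, nsmul_one, ZMod.natCast_zmod_val]
  have hψ1 : IsPrimitiveRoot (ψ 1) p := by
    have h : orderOf (ψ 1) = p := orderOf_eq_prime
      (by rw [← AddChar.map_nsmul_eq_pow, nsmul_one, ZMod.natCast_self, AddChar.map_zero_eq_one])
      (fun h => one_ne_zero (ZMod.injective_stdAddChar (h.trans (AddChar.map_zero_eq_one ψ).symm)))
    have h2 := IsPrimitiveRoot.orderOf (ψ 1)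
    rwa [h] at h2
  have hκ : ∀ i, ∃ k : ZMod p, μ i = ψ k := fun i => by
    obtain ⟨l, hl, hl'⟩ := hψ1.eq_pow_of_pow_eq_one (by rw [← hx]; exact hμ i)
    exact ⟨(l : ZMod p), by rw [hψval, ZMod.val_natCast_of_lt hl, hl']⟩
  choose κ hκ using hκ
  have hxadd : ∀ u v : ZMod p, x ^ (u + v).val = x ^ u.val * x ^ v.val := fun u v => by
    rw [← pow_add, pow_eq_pow_iff_modEq, hx, ZMod.val_add]
    exact Nat.mod_modEq _ _
  have hxmul : ∀ u v : ZMod p, x ^ (u * v).val = (x ^ u.val) ^ v.val := fun u v => by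
    rw [← pow_mul, pow_eq_pow_iff_modEq, hx, ZMod.val_mul]
    exact Nat.mod_modEq _ _
  have hconj : ∀ (n : N) (v : ZMod p),
      (n : G) * x ^ v.val * (n : G)⁻¹ = x ^ (((f n : (ZMod p)ˣ) : ZMod p) * v).val := fun n v => by
    rw [hxmul, ← hf n, conj_pow]
  have hρx : ∀ (j : ZMod p) (i), ρ (x ^ j.val) (b i) = ψ (j * κ i) • b i := by
    intro j i
    have hpow : ∀ k : ℕ, ρ (x ^ k) (b i) = μ i ^ k • b i := by
      intro k
      induction k with
      | zero => simp
      | succ k ih =>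
        rw [pow_succ', map_mul, Module.End.mul_apply, ih, map_smul, hb, smul_smul, pow_succ]
    rw [hpow, hκ, ← AddChar.map_nsmul_eq_pow, nsmul_eq_mul, ZMod.natCast_zmod_val]
  have hval : ∀ j : ZMod p, χ.1 (x ^ j.val) = ∑ i, ψ (j * κ i) := fun j => by
    rw [← hρc]; exact H25.trace_eq_sum_of_eigenbasis _ b _ (hρx j)
  set mk : ZMod p → ℕ := fun k => (Finset.univ.filter fun i => κ i = k).card with hmk
  have hfour : ∀ k, ∑ j : ZMod p, χ.1 (x ^ j.val) * ψ (-(j * k)) = (p : ℂ) * (mk k : ℂ) := by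
    intro k
    simp only [hval, Finset.sum_mul, ← AddChar.map_add_eq_mul]
    rw [Finset.sum_comm, Finset.sum_congr rfl fun i _ => show ∑ j : ZMod p,
        ψ (j * κ i + -(j * k)) = if κ i = k then (p : ℂ) else 0 by
      simp only [← sub_eq_add_neg, ← mul_sub]
      rw [AddChar.sum_mulShift _ hpsi, ZMod.card]
      simp only [sub_eq_zero, Nat.cast_ite, Nat.cast_zero],
      ← Finset.sum_filter, Finset.sum_const, nsmul_eq_mul, mul_comm]
  have hinvr : ∀ (n : N) (k : ZMod p), mk (((f n : (ZMod p)ˣ) : ZMod p) * k) = mk k := by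
    intro n k
    have h : (p : ℂ) * (mk (((f n : (ZMod p)ˣ) : ZMod p) * k) : ℂ) = (p : ℂ) * (mk k : ℂ) := by
      rw [← hfour, ← hfour]
      refine Fintype.sum_equiv (Units.mulRight (f n)) _ _ fun j => ?_
      simp only [Units.mulRight_apply]
      rw [mul_assoc, mul_comm j ((f n : (ZMod p)ˣ) : ZMod p), ← hconj n j, H26.irr_conj]
    exact_mod_cast mul_left_cancel₀ (Nat.cast_ne_zero.mpr hp.out.ne_zero) h
  set J := Finset.univ.erase (0 : ZMod p) with hJ
  set a := mk 0 with ha
  let _ : Fintype ((ZMod p)ˣ ⧸ f.range) := Fintype.ofFinite _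
  set d : (ZMod p)ˣ ⧸ f.range → ℤ := fun q => (mk (q.out : ZMod p) : ℤ) - a with hd
  have hdu : ∀ u : (ZMod p)ˣ, (mk (u : ZMod p) : ℤ) = d (u : (ZMod p)ˣ ⧸ f.range) + a := by
    intro u
    obtain ⟨n, hn⟩ := QuotientGroup.eq.mp (QuotientGroup.out_eq' (u : (ZMod p)ˣ ⧸ f.range))
    simp only [hd, sub_add_cancel, Nat.cast_inj]
    rw [eq_inv_mul_iff_mul_eq] at hn
    have h2 := congrArg Units.val hn
    rw [Units.val_mul] at h2
    rw [← h2, mul_comm, hinvr]
  have hsumJ : ∀ g : ℤ → ℤ, ∑ k ∈ J, g (mk k) =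
      (e : ℤ) * ∑ q : (ZMod p)ˣ ⧸ f.range, g (d q + a) := by
    intro g
    have h1 : ∑ k ∈ J, g (mk k) = ∑ u : (ZMod p)ˣ, g (mk (u : ZMod p)) :=
      (Finset.sum_bij (fun (u : (ZMod p)ˣ) _ => (u : ZMod p))
        (fun u _ => Finset.mem_erase.mpr ⟨u.ne_zero, Finset.mem_univ _⟩)
        (fun u _ v _ h => Units.ext h)
        (fun k hk => ⟨Units.mk0 k (Finset.mem_erase.mp hk).1, Finset.mem_univ _, rfl⟩)
        (fun u _ => rfl)).symm
    rw [h1, Finset.sum_congr rfl fun u _ => congrArg g (hdu u),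
      ← Finset.sum_fiberwise_of_maps_to (g := fun u : (ZMod p)ˣ => (u : (ZMod p)ˣ ⧸ f.range))
        (t := Finset.univ) (fun _ _ => Finset.mem_univ _), Finset.mul_sum]
    refine Finset.sum_congr rfl fun q _ => ?_
    rw [Finset.sum_congr rfl fun u hu => by rw [(Finset.mem_filter.mp hu).2], Finset.sum_const,
      nsmul_eq_mul]
    congr 1
    obtain ⟨v, rfl⟩ := QuotientGroup.mk_surjective q
    rw [← hfcard, ← Fintype.card_subtype, ← Nat.card_eq_fintype_card, Nat.cast_inj]
    exact Nat.card_congr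
      { toFun := fun u => ⟨v⁻¹ * u.1, QuotientGroup.eq.mp u.2.symm⟩
        invFun := fun s => ⟨v * s, QuotientGroup.eq.mpr (by simp)⟩
        left_inv := fun u => Subtype.ext (by simp)
        right_inv := fun s => Subtype.ext (by simp) }
  have hcardQ : Fintype.card ((ZMod p)ˣ ⧸ f.range) = t := by
    rw [← Nat.card_eq_fintype_card, ← Subgroup.index_eq_card]
    have h := f.range.card_mul_index
    rw [hfcard, Nat.card_eq_fintype_card, ZMod.card_units, ← hte, mul_comm t] at h
    exact Nat.eq_of_mul_eq_mul_left (by omega) h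
  have hpz : (p : ℤ) - 1 = (t : ℤ) * e := by rw [← hte']; push_cast; ring
  set D := ∑ q, d q with hD
  set Q := ∑ q, d q ^ 2 with hQ
  have hA : (e : ℤ) * D = (p : ℤ) - 1 - p * a := by
    have h : ∑ k : ZMod p, mk k = m := by
      rw [← Finset.card_eq_sum_card_fiberwise (fun i _ => Finset.mem_univ (κ i)),
        Finset.card_univ, Fintype.card_fin, Module.finrank_fin_fun]
    have h' : ((∑ k : ZMod p, mk k : ℕ) : ℤ) = (p : ℤ) - 1 := by
      rw [h, hm, Nat.cast_sub (by omega), Nat.cast_one]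
    rw [Nat.cast_sum, ← Finset.add_sum_erase _ _ (Finset.mem_univ (0 : ZMod p)), ← hJ,
      hsumJ (fun z => z), Finset.sum_add_distrib, Finset.sum_const, Finset.card_univ, hcardQ,
      nsmul_eq_mul, ← hD, ← ha] at h'
    linear_combination h' + (a : ℤ) * hpz
  have hB : ∑ k : ZMod p, (mk k : ℤ) ^ 2 =
      (a : ℤ) ^ 2 + e * (Q + 2 * a * D + t * (a : ℤ) ^ 2) := by
    rw [← Finset.add_sum_erase _ _ (Finset.mem_univ (0 : ZMod p)), ← hJ,
      hsumJ (fun z => z ^ 2), ← ha]
    congr 2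
    simp only [add_sq]
    rw [Finset.sum_add_distrib, Finset.sum_add_distrib, Finset.sum_const, Finset.card_univ, hcardQ,
      nsmul_eq_mul, ← Finset.sum_mul, ← Finset.mul_sum, ← hQ, ← hD]
    ring
  have hnorm : ∑ j ∈ J, ‖χ.1 (x ^ j.val)‖ ^ 2 =
      (((p : ℤ) * (∑ k, (mk k : ℤ) ^ 2) - ((p : ℤ) - 1) ^ 2 : ℤ) : ℝ) := by
    have hneg : ∀ j : ZMod p, conj (χ.1 (x ^ j.val)) = χ.1 (x ^ (-j).val) := fun j => by
      rw [← H26.irr_inv]
      refine congrArg χ.1 (inv_eq_of_mul_eq_one_right ?_)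
      rw [← hxadd, add_neg_cancel, ZMod.val_zero, pow_zero]
    have hall : ∑ j : ZMod p, χ.1 (x ^ j.val) * conj (χ.1 (x ^ j.val)) =
        (p : ℂ) * ∑ k, (mk k : ℂ) ^ 2 := by
      simp only [hneg]
      rw [Finset.sum_congr rfl fun j _ => show χ.1 (x ^ j.val) * χ.1 (x ^ (-j).val) =
          ∑ i, χ.1 (x ^ j.val) * ψ (-(j * κ i)) by
        rw [hval (-j), Finset.mul_sum]; simp only [neg_mul],
        Finset.sum_comm]
      simp only [hfour]
      rw [← Finset.mul_sum, ← Finset.sum_fiberwise Finset.univ κ]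
      congr 1
      refine Finset.sum_congr rfl fun k _ => ?_
      rw [Finset.sum_congr rfl fun i hi => by rw [(Finset.mem_filter.mp hi).2], Finset.sum_const,
        nsmul_eq_mul, sq]
    rw [← Finset.add_sum_erase _ _ (Finset.mem_univ (0 : ZMod p)), ← hJ, ZMod.val_zero, pow_zero,
      irr_charDegree_spec, Complex.conj_natCast] at hall
    rw [show Cfsg.charDegree χ.1 = p - 1 by omega, Nat.cast_sub (by omega), Nat.cast_one] at hall
    simp only [Complex.mul_conj, Complex.normSq_eq_norm_sq] at hall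
    have h2 : ((∑ j ∈ J, ‖χ.1 (x ^ j.val)‖ ^ 2 : ℝ) : ℂ) =
        (((p : ℤ) * (∑ k, (mk k : ℤ) ^ 2) - ((p : ℤ) - 1) ^ 2 : ℤ) : ℂ) := by
      push_cast at hall ⊢
      linear_combination hall
    exact_mod_cast h2
  have hbound := sum_norm_sq_lt hx hC χ
  rw [← hN, ← hJ, hnorm] at hbound
  have hcardN : Nat.card N = p * e := by
    rw [← Subgroup.card_mul_index ((Subgroup.zpowers x).subgroupOf N),
      Nat.card_congr (Subgroup.subgroupOfEquivOfLe Subgroup.le_normalizer).toEquiv,
      Nat.card_zpowers, hx]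
    rfl
  rw [hcardN, ← Int.cast_natCast (R := ℝ) (p * e)] at hbound
  replace hbound := Int.cast_lt.mp hbound
  rw [hB, Nat.cast_mul] at hbound
  have hez : (0 : ℤ) < e := by omega
  have hbound' : (p : ℤ) * Q - (e : ℤ) * D ^ 2 < p := by
    refine lt_of_mul_lt_mul_left (a := (e : ℤ)) ?_ hez.le
    refine lt_of_eq_of_lt ?_ (lt_of_lt_of_eq hbound (mul_comm _ _))
    linear_combination (-((e : ℤ) * D + (p : ℤ) * a + (p : ℤ) - 1)) * hA + (p : ℤ) * (a : ℤ) ^ 2 * hpz
  have hall := orbit_pattern d p t e hp.out hcardQ ht he2 heven hte'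
    ⟨1 - a, by rw [← hD, hA]; ring⟩ hbound'
  have ha0 : a = 0 := by
    have h : D = t := by
      rw [hD, Finset.sum_congr rfl fun q _ => hall q, Finset.sum_const, Finset.card_univ, hcardQ,
        nsmul_one]
    rw [h, mul_comm, ← hpz] at hA
    have h2 : (p : ℤ) * a = 0 := by linarith
    exact_mod_cast (mul_eq_zero.mp h2).resolve_left (Nat.cast_ne_zero.mpr hp.out.ne_zero)
  have hκ0 : ∀ i, κ i ≠ 0 := fun i hi => by
    have hc : (Finset.univ.filter fun i => κ i = 0).card = 0 := ha0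
    exact Finset.notMem_empty i
      (Finset.card_eq_zero.mp hc ▸ Finset.mem_filter.mpr ⟨Finset.mem_univ i, hi⟩)
  have hzero : ∑ j : ZMod p, ρ (x ^ j.val) = 0 := by
    refine b.ext fun i => ?_
    simp only [LinearMap.sum_apply, hρx, LinearMap.zero_apply, ← Finset.sum_smul]
    rw [AddChar.sum_mulShift _ hpsi, if_neg (hκ0 i), Nat.cast_zero, zero_smul]
  have hvan : ∀ z : N, f z ≠ 1 → χ.1 (z : G) = 0 := by
    intro z hz
    have hs : ((f z⁻¹ : (ZMod p)ˣ) : ZMod p) - 1 ≠ 0 := by
      rw [sub_ne_zero, Units.val_eq_one.ne, map_inv, inv_ne_one]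
      exact hz
    set s := ((f z⁻¹ : (ZMod p)ˣ) : ZMod p) with hsdef
    have hc : ∀ j : ZMod p, χ.1 ((z : G) * x ^ j.val) = χ.1 (z : G) := by
      intro j
      set i := j * (s - 1)⁻¹ with hi
      have e1 : (z : G) * x ^ j.val = x ^ i.val * (z : G) * (x ^ i.val)⁻¹ := by
        have h1 := hconj z⁻¹ i
        rw [← hsdef, Subgroup.coe_inv, inv_inv] at h1
        have h2 : (x ^ i.val)⁻¹ = x ^ (-i).val := by
          refine inv_eq_of_mul_eq_one_right ?_
          rw [← hxadd, add_neg_cancel, ZMod.val_zero, pow_zero]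
        have h3 : j = s * i + -i := by rw [hi]; field_simp; ring
        rw [h2, h3, hxadd, ← h1]
        group
      rw [e1, H26.irr_conj]
    have h1 : ∑ j : ZMod p, χ.1 ((z : G) * x ^ j.val) = 0 := by
      rw [← hρc]
      simp only [Representation.character, map_mul]
      rw [← map_sum, ← Finset.mul_sum, hzero, mul_zero, map_zero]
    simp only [hc, Finset.sum_const, nsmul_eq_mul, Finset.card_univ, ZMod.card] at h1
    exact (mul_eq_zero.mp h1).resolve_left (Nat.cast_ne_zero.mpr hp.out.ne_zero)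
  have : IsCyclic f.range := inferInstance
  obtain ⟨⟨g, hg⟩, hgen⟩ := IsCyclic.exists_ofOrder_eq_natCard (α := f.range)
  rw [Subgroup.orderOf_mk, hfcard] at hgen
  obtain ⟨y, hy⟩ := hg
  have hye : ((y : G)) ^ e = 1 := by
    have h1 : f (y ^ e) = 1 := by rw [map_pow, hy, ← hgen, pow_orderOf_eq_one]
    have h2 : ((y : G) ^ e) ∈ Subgroup.zpowers x := by
      refine hC.le ?_
      rw [Subgroup.mem_centralizer_singleton_iff, ← mul_inv_eq_iff_eq_mul]
      have := hf (y ^ e)
      rw [h1, Units.val_one, ZMod.val_one, pow_one, Subgroup.coe_pow] at this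
      exact this
    obtain ⟨i, hi⟩ := Subgroup.mem_zpowers_iff.mp h2
    have hi' : x ^ (i : ZMod p).val = (y : G) ^ e := by
      rw [← hi, ← zpow_natCast, zpow_eq_zpow_iff_modEq, hx, ← ZMod.intCast_eq_intCast_iff,
        Int.cast_natCast, ZMod.natCast_zmod_val]
    have h3 := hconj y (i : ZMod p)
    rw [hi', show (y : G) * (y : G) ^ e * (y : G)⁻¹ = (y : G) ^ e by group, ← hi',
      pow_eq_pow_iff_modEq, hx, ← ZMod.natCast_eq_natCast_iff, ZMod.natCast_zmod_val,
      ZMod.natCast_zmod_val, hy] at h3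
    have h4 : (((g : (ZMod p)ˣ) : ZMod p) - 1) * (i : ZMod p) = 0 := by
      rw [sub_mul, one_mul, ← h3, sub_self]
    have h5 : ((g : (ZMod p)ˣ) : ZMod p) - 1 ≠ 0 := by
      rw [sub_ne_zero, Units.val_eq_one.ne]
      intro h
      rw [h, orderOf_one] at hgen
      omega
    rw [← hi', (mul_eq_zero.mp h4).resolve_left h5, ZMod.val_zero, pow_zero]
  obtain ⟨c, ν, hc, hν⟩ := H25.exists_eigenbasis_of_pow_eq_one (ρ (y : G)) (n := e)
    (Nat.cast_ne_zero.mpr (by omega)) (by rw [← map_pow, hye, map_one])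
  have hdet : LinearMap.det (ρ (y : G)) = -1 := by
    rw [det_eq_prod_of_eigenbasis _ c ν hc]
    refine prod_eq_neg_one ν heven (by omega) ht
      (by rw [Module.finrank_fin_fun, hm, hte]) hν fun j hj0 hje => ?_
    rw [← H25.trace_eq_sum_of_eigenbasis (ρ ((y : G) ^ j)) c (fun i => ν i ^ j) fun i => ?_]
    · have hne : f (y ^ j) ≠ 1 := by
        rw [map_pow, hy]
        exact pow_ne_one_of_lt_orderOf hj0.ne' (hgen.symm ▸ hje)
      have := hvan (y ^ j) hne
      rw [Subgroup.coe_pow, ← hρc] at this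
      exact this
    · induction j with
      | zero => simp
      | succ k ih =>
        rcases Nat.eq_zero_or_pos k with rfl | hk
        · simpa using hc i
        · rw [pow_succ', map_mul, Module.End.mul_apply, ih hk (by omega), map_smul, hc, smul_smul,
            pow_succ]
  have h1 : detHom ρ ((y : G) ^ (commutator G).index) = 1 :=
    Abelianization.commutator_subset_ker (detHom ρ) ((commutator G).pow_index_mem _)
  have h2 : (-1 : ℂ) ^ (commutator G).index = 1 := by
    rw [← hdet, ← detHom_coe, ← Units.val_pow_eq_pow_val, ← map_pow, h1, Units.val_one]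
  exact (neg_one_pow_eq_one_iff_even (by norm_num)).mp h2

end Cfsg.Agent.H43
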