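import Mathlib
import Cfsg.Agent.H43.CharKer
import Cfsg.Agent.H43.PPrimeDegree
import Cfsg.Agent.H43.InvariantAbove
import Cfsg.Agent.H25.CharInd
import Cfsg.Agent.H19.Cores
import Cfsg.Agent.H19.Fitting

/-!
# Kernels of characters and the Fitting subgroup (Garrison's theorem)
-/

set_option autoImplicit false
set_option maxHeartbeats 800000

namespace Cfsg.Agent.H43

open scoped ComplexConjugate
open Module

variable {G : Type*} [Group G]

/-- A constituent of a character is trivial where the character takes its degree as value. -/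
theorem constituent_value_eq_degree [Fintype G] {φ : G → ℂ} (hφ : Cfsg.IsCharacter G φ)
    {θ : Cfsg.IrrCharacter G} (hm : mult φ θ ≠ 0) {g : G} (hg : φ g = φ 1) :
    θ.1 g = θ.1 1 := by
  classical
  have hnorm : ∀ ψ : Cfsg.IrrCharacter G, ‖ψ.1 g‖ ≤ (Cfsg.charDegree ψ.1 : ℝ) := by
    intro ψ
    obtain ⟨m, ρ, hρ, e⟩ := ψ.2
    have h := H25.norm_char_le ρ g
    have h1 : ψ.1 1 = (finrank ℂ (Fin m → ℂ) : ℂ) := by rw [← e, ρ.char_one]
    rw [irr_charDegree_spec, Nat.cast_inj] at h1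
    rw [← e]
    rwa [← h1, ← e] at h
  have hsum := congrFun (eq_sum_mult hφ) g
  rw [hg, apply_one_eq_sum_mult hφ, Finset.sum_apply] at hsum
  have hre := congrArg Complex.re hsum
  simp only [Complex.re_sum, Pi.smul_apply, smul_eq_mul, Complex.mul_re, Complex.natCast_re,
    Complex.natCast_im, mul_zero, zero_mul, sub_zero] at hre
  have hle : ∀ ψ ∈ (Finset.univ : Finset (Cfsg.IrrCharacter G)),
      (mult φ ψ : ℝ) * (ψ.1 g).re ≤ (mult φ ψ : ℝ) * (Cfsg.charDegree ψ.1 : ℝ) := fun ψ _ =>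
    mul_le_mul_of_nonneg_left ((Complex.re_le_norm _).trans (hnorm ψ)) (Nat.cast_nonneg _)
  have heq := (Finset.sum_eq_sum_iff_of_le hle).mp hre.symm θ (Finset.mem_univ θ)
  have hre' : (θ.1 g).re = (Cfsg.charDegree θ.1 : ℝ) :=
    mul_left_cancel₀ (Nat.cast_ne_zero.mpr hm) heq
  have him : (θ.1 g).im = 0 := by
    have h1 := hnorm θ
    have h2 : ‖θ.1 g‖ ^ 2 ≤ (Cfsg.charDegree θ.1 : ℝ) ^ 2 :=
      pow_le_pow_left₀ (norm_nonneg _) h1 2
    rw [← Complex.normSq_eq_norm_sq, Complex.normSq_apply, hre'] at h2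
    exact mul_self_eq_zero.mp (le_antisymm (by nlinarith) (mul_self_nonneg _))
  rw [irr_charDegree_spec]
  exact Complex.ext (by simpa using hre') (by simpa using him)

/-- A character whose degree is at most that of one of its constituents is that constituent. -/
theorem eq_constituent_of_degree_le [Fintype G] {φ : G → ℂ} (hφ : Cfsg.IsCharacter G φ)
    {θ : Cfsg.IrrCharacter G} (hm : mult φ θ ≠ 0) {d : ℕ} (hd : φ 1 = (d : ℂ))
    (hle : d ≤ Cfsg.charDegree θ.1) : φ = θ.1 := by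
  classical
  have h := apply_one_eq_sum_mult hφ
  rw [hd] at h
  have h' : d = ∑ ψ : Cfsg.IrrCharacter G, mult φ ψ * Cfsg.charDegree ψ.1 := by exact_mod_cast h
  rw [← Finset.add_sum_erase _ _ (Finset.mem_univ θ)] at h'
  have hpos : 1 ≤ mult φ θ := Nat.pos_of_ne_zero hm
  have hdpos := irr_charDegree_pos θ
  have h1 : mult φ θ = 1 := by
    refine le_antisymm (Nat.le_of_mul_le_mul_right ?_ hdpos) hpos
    omega
  rw [h1, one_mul] at h'
  have hrest : ∀ ψ ∈ Finset.univ.erase θ, mult φ ψ * Cfsg.charDegree ψ.1 = 0 :=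
    Finset.sum_eq_zero_iff.mp (by omega)
  have hrest' : ∀ ψ : Cfsg.IrrCharacter G, ψ ≠ θ → mult φ ψ = 0 := fun ψ hψ => by
    rcases Nat.mul_eq_zero.mp (hrest ψ (Finset.mem_erase.mpr ⟨hψ, Finset.mem_univ _⟩)) with h | h
    · exact h
    · exact absurd h (irr_charDegree_pos ψ).ne'
  rw [eq_sum_mult hφ, Finset.sum_eq_single θ
    (fun ψ _ hψ => by rw [hrest' ψ hψ, Nat.cast_zero, zero_smul])
    (fun h => absurd (Finset.mem_univ _) h), h1, Nat.cast_one, one_smul]

/-- A character restricts irreducibly to a supplement of its kernel. -/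
theorem exists_irr_restrict_of_sup_charKer [Finite G] (χ : Cfsg.IrrCharacter G) (N : Subgroup G)
    (h : N ⊔ charKer χ = ⊤) : ∃ θ : Cfsg.IrrCharacter N, ∀ n : N, χ.1 n = θ.1 n := by
  obtain ⟨m, ρ, hρ, e⟩ := χ.2
  refine ⟨⟨fun n : N => χ.1 n, m, ρ.comp N.subtype, ?_, ?_⟩, fun _ => rfl⟩
  · have h1 := (H26.isIrreducible_iff_forall ρ).1 hρ
    refine (H26.isIrreducible_iff_forall _).2 ⟨h1.1, fun U hU => h1.2 U fun g v hv => ?_⟩
    have hg : g ∈ N ⊔ charKer χ := h ▸ Subgroup.mem_top g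
    rw [← SetLike.mem_coe, Subgroup.mul_normal] at hg
    obtain ⟨n, hn, k, hk, rfl⟩ := hg
    rw [SetLike.mem_coe, mem_charKer, ← e, ρ.char_one, H25.char_eq_degree_iff] at hk
    rw [map_mul, hk]
    exact hU ⟨n, hn⟩ v hv
  · funext n
    rw [← e]; rfl

/-- Conjugacy of two Sylow subgroups of a subgroup `W`. -/
theorem exists_conj_eq_of_sylow [Finite G] {p : ℕ} [Fact p.Prime] (W A B : Subgroup G)
    (hA : A ≤ W) (hB : B ≤ W) (hAp : IsPGroup p A) (hBp : IsPGroup p B)
    (hcard : Nat.card A = Nat.card B) (hidx : ¬ p ∣ A.relIndex W) :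
    ∃ w ∈ W, B.map (MulAut.conj w).toMonoidHom = A := by
  have hidxB : ¬ p ∣ B.relIndex W := by
    have e1 := Subgroup.relIndex_mul_relIndex ⊥ A W bot_le hA
    have e2 := Subgroup.relIndex_mul_relIndex ⊥ B W bot_le hB
    rw [Subgroup.relIndex_bot_left, Subgroup.relIndex_bot_left] at e1 e2
    rw [hcard, ← e2] at e1
    rwa [← Nat.eq_of_mul_eq_mul_left Nat.card_pos e1]
  let SA : Sylow p W := (hAp.comap_subtype (K := W)).toSylow hidx
  let SB : Sylow p W := (hBp.comap_subtype (K := W)).toSylow hidxB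
  obtain ⟨w, hw⟩ := MulAction.exists_smul_eq W SB SA
  refine ⟨w, w.2, Subgroup.eq_of_le_of_card_ge ?_ ?_⟩
  · rintro _ ⟨b, hb, rfl⟩
    have hmem : MulAut.conj w (⟨b, hB hb⟩ : W) ∈ (SA : Subgroup W) := by
      rw [← hw, Sylow.coe_subgroup_smul]
      exact Subgroup.smul_mem_pointwise_smul _ (MulAut.conj w) _
        (show (⟨b, hB hb⟩ : W) ∈ (SB : Subgroup W) from hb)
    exact hmem
  · rw [Subgroup.card_map_of_injective (MulAut.conj (w : G)).injective, hcard]

/-- The engine of Garrison's theorem: `U / K` is a `p`-group, `P` a Sylow `p`-subgroup of `U`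
which is not normal in `G`, and either `U = K` or `F(G) ≤ K < U`. -/
theorem exists_larger_degree [Fintype G] (χ : Cfsg.IrrCharacter G) (U : Subgroup G) [U.Normal]
    (hKU : charKer χ ≤ U) (p : ℕ) [hp : Fact p.Prime]
    (hU : ∀ u ∈ U, ∃ k : ℕ, u ^ p ^ k ∈ charKer χ) (P : Sylow p U)
    (hP : ¬ ((P : Subgroup U).map U.subtype).Normal)
    (hcase : U ≤ charKer χ ∨ (Cfsg.fittingSubgroup G ≤ charKer χ ∧ ¬ U ≤ charKer χ)) :
    ∃ ψ : Cfsg.IrrCharacter G, Cfsg.charDegree χ.1 < Cfsg.charDegree ψ.1 ∧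
      charKer ψ < charKer χ := by
  classical
  set K := charKer χ with hK
  set Pg := (P : Subgroup U).map U.subtype with hPg
  set N := Subgroup.normalizer ((Pg : Subgroup G) : Set G) with hNdef
  have : Fintype N := Fintype.ofFinite _
  have hPgU : Pg ≤ U := Subgroup.map_subtype_le _
  have hPgp : IsPGroup p Pg := P.isPGroup'.map _
  have hPgN : Pg ≤ N := Subgroup.le_normalizer
  have hidxU : ¬ p ∣ Pg.relIndex U := by
    rw [Subgroup.relIndex, hPg,
      show ((P : Subgroup U).map U.subtype).subgroupOf U = (P : Subgroup U) from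
        Subgroup.comap_map_eq_self_of_injective U.subtype_injective _]
    exact P.not_dvd_index
  -- `p`-elements of `U` are conjugate into `Pg`
  have hconj : ∀ y ∈ U, (∃ a : ℕ, y ^ p ^ a = 1) → ∃ w ∈ U, w * y * w⁻¹ ∈ Pg := by
    rintro y hy ⟨a, ha⟩
    have hyp : IsPGroup p (Subgroup.zpowers (⟨y, hy⟩ : U)) := by
      obtain ⟨i, -, hi⟩ := (Nat.dvd_prime_pow hp.out).mp
        (orderOf_dvd_of_pow_eq_one (show (⟨y, hy⟩ : U) ^ p ^ a = 1 from Subtype.ext (by simpa using ha)))
      exact IsPGroup.of_card (n := i) (by rw [Nat.card_zpowers, hi])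
    obtain ⟨Q, hQ⟩ := hyp.exists_le_sylow
    obtain ⟨w, hw⟩ := MulAction.exists_smul_eq U Q P
    refine ⟨w, w.2, MulAut.conj w (⟨y, hy⟩ : U), ?_, rfl⟩
    rw [← hw, Sylow.coe_subgroup_smul]
    exact Subgroup.smul_mem_pointwise_smul _ (MulAut.conj w) _ (hQ (Subgroup.mem_zpowers _))
  -- `U = Pg K`
  have hUeq : Pg ⊔ K = U := by
    refine le_antisymm (sup_le hPgU hKU) (Subgroup.relIndex_eq_one.mp ?_)
    obtain ⟨n, hn⟩ : ∃ n : ℕ, K.relIndex U = p ^ n := by
      have hq : IsPGroup p (U ⧸ K.subgroupOf U) := by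
        intro x
        obtain ⟨u, rfl⟩ := QuotientGroup.mk_surjective x
        obtain ⟨k, hk⟩ := hU u u.2
        refine ⟨k, ?_⟩
        rw [← QuotientGroup.mk_pow, QuotientGroup.eq_one_iff, Subgroup.mem_subgroupOf]
        exact hk
      obtain ⟨n, hn⟩ := hq.exists_card_eq
      exact ⟨n, by rw [Subgroup.relIndex, Subgroup.index_eq_card, hn]⟩
    refine Nat.eq_one_of_dvd_coprimes ((hp.out.coprime_iff_not_dvd.mpr hidxU).pow_left n)
      (hn ▸ Subgroup.relIndex_dvd_of_le_left U le_sup_right)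
      (Subgroup.relIndex_dvd_of_le_left U le_sup_left)
  -- Frattini
  have hNU : N ⊔ U = ⊤ := Sylow.normalizer_sup_eq_top P
  have hNK : N ⊔ K = ⊤ := by
    rw [eq_top_iff, ← hNU, ← hUeq]
    exact sup_le le_sup_left (sup_le (hPgN.trans le_sup_left) le_sup_right)
  obtain ⟨θ, hθ⟩ := exists_irr_restrict_of_sup_charKer χ N hNK
  have hdθ : Cfsg.charDegree θ.1 = Cfsg.charDegree χ.1 := by
    have := hθ 1
    rw [Subgroup.coe_one, irr_charDegree_spec, irr_charDegree_spec, Nat.cast_inj] at this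
    exact this.symm
  -- a constituent of larger degree above `θ`
  obtain ⟨ψ, hψ, hdeg⟩ : ∃ ψ : Cfsg.IrrCharacter G, mult (fun n : N => ψ.1 n) θ ≠ 0 ∧
      Cfsg.charDegree χ.1 < Cfsg.charDegree ψ.1 := by
    by_contra hall
    push Not at hall
    have hres : ∀ ψ : Cfsg.IrrCharacter G, mult (fun n : N => ψ.1 n) θ ≠ 0 →
        ∀ n : N, ψ.1 n = θ.1 n := fun ψ h => congrFun (eq_constituent_of_degree_le
      (H26.isCharacter_comp (H26.irr_isCharacter ψ) N.subtype) h
      (d := Cfsg.charDegree ψ.1) (irr_charDegree_spec ψ)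
      (hdθ ▸ hall ψ h))
    have hsum : (∑ ψ : Cfsg.IrrCharacter G, mult (fun n : N => ψ.1 n) θ) = N.index := by
      have h := sum_mult_degree_above N θ
      rw [Finset.sum_congr rfl fun ψ _ => show mult (fun n : N => ψ.1 n) θ * Cfsg.charDegree ψ.1 =
        mult (fun n : N => ψ.1 n) θ * Cfsg.charDegree θ.1 by
          rcases eq_or_ne (mult (fun n : N => ψ.1 n) θ) 0 with h0 | h0
          · rw [h0, zero_mul, zero_mul]
          · have := hres ψ h0 1
            rw [Subgroup.coe_one, irr_charDegree_spec, irr_charDegree_spec, Nat.cast_inj] at this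
            rw [this], ← Finset.sum_mul] at h
      exact Nat.eq_of_mul_eq_mul_right (irr_charDegree_pos θ) h
    have hind : ∀ x : N, Cfsg.indFun N θ.1 x = (N.index : ℂ) * χ.1 x := by
      intro x
      have hexp := congrFun (H26.class_function_expansion _ (H25.isClassFunction_indFun N θ.1)) (x : G)
      rw [hexp, Finset.sum_apply, ← hsum, Nat.cast_sum, Finset.sum_mul]
      refine Finset.sum_congr rfl fun ψ _ => ?_
      rw [Pi.smul_apply, smul_eq_mul,
        H25.classInner_indFun_left N θ.1 ψ.1 (H26.irr_isClassFunction ψ),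
        H26.classInner_comm, classInner_eq_mult
          (φ := fun n : N => ψ.1 n) (H26.isCharacter_comp (H26.irr_isCharacter ψ) N.subtype) θ,
        map_natCast]
      rcases eq_or_ne (mult (fun n : N => ψ.1 n) θ) 0 with h0 | h0
      · rw [h0, Nat.cast_zero, zero_mul, zero_mul]
      · rw [hres ψ h0 x, hθ x]
    -- non-vanishing points of `N` lie in the core
    have hcore : ∀ x ∈ N, χ.1 x ≠ 0 → x ∈ N.normalCore := by
      intro x hx hne
      have h := hind ⟨x, hx⟩
      rw [H25.indFun_apply] at h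
      have hval : ∀ y : G, Cfsg.extendByZero N θ.1 (y⁻¹ * x * y) =
          (if y⁻¹ * x * y ∈ N then (1 : ℂ) else 0) * χ.1 x := by
        intro y
        by_cases hy : y⁻¹ * x * y ∈ N
        · rw [if_pos hy, one_mul, H25.extendByZero_of_mem N θ.1 hy, ← hθ ⟨_, hy⟩]
          have := H26.irr_conj χ x y⁻¹
          rw [inv_inv] at this
          exact this
        · rw [if_neg hy, zero_mul, H25.extendByZero_of_notMem N θ.1 hy]
      simp only [hval] at h
      rw [← Finset.sum_mul, Finset.sum_boole, ← mul_assoc] at h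
      have h2 := mul_right_cancel₀ hne h
      rw [inv_mul_eq_iff_eq_mul₀ (Nat.cast_ne_zero.mpr Nat.card_pos.ne'), ← Nat.cast_mul,
        Nat.cast_inj, Subgroup.card_mul_index, Nat.card_eq_fintype_card] at h2
      have hall' := Finset.filter_eq_self.mp (Finset.eq_univ_of_card _ h2)
      intro y
      have := hall' y⁻¹ (Finset.mem_univ _)
      rwa [inv_inv] at this
    set R := N.normalCore with hR
    have hQn : (Pg ⊓ R).Normal := by
      refine ⟨fun q hq g => ?_⟩
      obtain ⟨hq1, hq2⟩ := Subgroup.mem_inf.mp hq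
      have hy2 : g * q * g⁻¹ ∈ R := (Subgroup.normalCore_normal N).conj_mem q hq2 g
      have hy1 : g * q * g⁻¹ ∈ U := (inferInstance : U.Normal).conj_mem q (hPgU hq1) g
      refine Subgroup.mem_inf.mpr ⟨?_, hy2⟩
      obtain ⟨a, ha⟩ := hPgp ⟨q, hq1⟩
      have hle : Subgroup.zpowers (g * q * g⁻¹) ≤ N :=
        Subgroup.zpowers_le.mpr (Subgroup.normalCore_le N hy2)
      have hyp : IsPGroup p (Subgroup.zpowers (g * q * g⁻¹)) := by
        have h1 : (g * q * g⁻¹) ^ p ^ a = 1 := by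
          rw [conj_pow, show q ^ p ^ a = 1 from congrArg Subtype.val ha, mul_one, mul_inv_cancel]
        obtain ⟨i, -, hi⟩ := (Nat.dvd_prime_pow hp.out).mp (orderOf_dvd_of_pow_eq_one h1)
        exact IsPGroup.of_card (n := i) (by rw [Nat.card_zpowers, hi])
      have hsup := hyp.to_sup_of_normal_right' hPgp hle
      have hsU : Subgroup.zpowers (g * q * g⁻¹) ⊔ Pg ≤ U :=
        sup_le (Subgroup.zpowers_le.mpr hy1) hPgU
      have hPle : (P : Subgroup U) ≤ (Subgroup.zpowers (g * q * g⁻¹) ⊔ Pg).subgroupOf U :=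
        fun z hz => Subgroup.mem_subgroupOf.mpr (Subgroup.mem_sup_right ⟨z, hz, rfl⟩)
      have heq := P.3 (hsup.comap_subtype (K := U)) hPle
      have hmem : (⟨g * q * g⁻¹, hy1⟩ : U) ∈ (P : Subgroup U) := by
        rw [← heq]
        exact Subgroup.mem_subgroupOf.mpr (Subgroup.mem_sup_left (Subgroup.mem_zpowers _))
      exact ⟨⟨g * q * g⁻¹, hy1⟩, hmem, rfl⟩
    have hinR : ∀ x ∈ Pg, χ.1 x ≠ 0 → x ∈ Pg ⊓ R := fun x hx h =>
      ⟨hx, hcore x (hPgN hx) h⟩
    rcases hcase with hc | ⟨hF, hUK⟩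
    · apply hP
      rw [show Pg = Pg ⊓ R from le_antisymm (fun x hx => hinR x hx (by
        rw [mem_charKer.mp (hc (hPgU hx))]; exact H26.irr_one_ne_zero χ)) inf_le_left]
      exact hQn
    · apply hUK
      have hvan : ∀ u ∈ U, u ∉ K → χ.1 u = 0 := by
        intro u hu hnu
        rw [← hUeq, ← SetLike.mem_coe, Subgroup.mul_normal] at hu
        obtain ⟨z, hz, k, hk, rfl⟩ := hu
        rw [irr_mul_charKer χ z hk]
        by_contra hne
        have hzK : z ∈ K := hF (H19.le_fitting hQn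
          (hPgp.to_le inf_le_left).isNilpotent (hinR z hz hne))
        exact hnu (K.mul_mem hzK hk)
      have : Fintype U := Fintype.ofFinite _
      refine le_charKer_of_one χ U ?_
      intro h0
      have h1 := classInner_eq_mult (isCharacter_restr U χ) (H26.oneIrr U)
      rw [show mult (fun n : U => χ.1 n) (H26.oneIrr U) = 0 from h0, Nat.cast_zero] at h1
      simp only [Cfsg.classInner, H26.oneIrr_val, map_one, mul_one, mul_eq_zero, inv_eq_zero,
        Nat.cast_eq_zero, Nat.card_pos.ne', false_or] at h1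
      rw [Finset.sum_congr rfl fun (u : U) _ => show χ.1 (u : G) =
          if (u : G) ∈ K then (Cfsg.charDegree χ.1 : ℂ) else 0 by
        by_cases hu : (u : G) ∈ K
        · rw [if_pos hu, ← irr_charDegree_spec]; exact mem_charKer.mp hu
        · rw [if_neg hu]; exact hvan u u.2 hu,
        ← Finset.sum_filter, Finset.sum_const, nsmul_eq_mul, mul_eq_zero] at h1
      rcases h1 with h1 | h1
      · rw [Nat.cast_eq_zero, Finset.card_eq_zero] at h1
        exact Finset.notMem_empty (1 : U) (h1 ▸ Finset.mem_filter.mpr ⟨Finset.mem_univ _, K.one_mem⟩)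
      · exact (irr_charDegree_pos χ).ne' (Nat.cast_eq_zero.mp h1)
  refine ⟨ψ, hdeg, ?_⟩
  have hψN : Cfsg.IsCharacter N (fun n : N => ψ.1 n) :=
    H26.isCharacter_comp (H26.irr_isCharacter ψ) N.subtype
  set M := charKer ψ with hM
  have hMN : ∀ m ∈ M, m ∈ N → m ∈ K := by
    intro m hm hmN
    have h := constituent_value_eq_degree hψN hψ (g := ⟨m, hmN⟩) (mem_charKer.mp hm)
    show χ.1 m = χ.1 1
    rw [hθ ⟨m, hmN⟩, h, ← hθ 1]
    rfl
  have hMU : ∀ u ∈ M, u ∈ U → u ∈ K := by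
    rcases hcase with hc | -
    · exact fun u _ hu => hc hu
    intro u huM huU
    obtain ⟨k, hk⟩ := hU u huU
    obtain ⟨a, m, hm, ho⟩ := Nat.exists_eq_pow_mul_and_not_dvd (orderOf_pos u).ne' p hp.out.ne_one
    have h1 : u ^ p ^ a ∈ K := by
      have hcop : (p ^ k).Coprime (orderOf (u ^ p ^ a)) := by
        refine Nat.Coprime.pow_left k (hp.out.coprime_iff_not_dvd.mpr fun hd => hm ?_)
        rw [orderOf_pow' u (pow_pos hp.out.pos a).ne', ho, Nat.gcd_mul_right_left,
          Nat.mul_div_cancel_left m (pow_pos hp.out.pos a)] at hd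
        exact hd
      obtain ⟨r, hr⟩ := exists_pow_eq_self_of_coprime hcop
      rw [← hr, ← pow_mul u, mul_comm (p ^ a), pow_mul u]
      exact K.pow_mem (K.pow_mem hk _) r
    have h2 : u ^ m ∈ K := by
      obtain ⟨w, -, hw⟩ := hconj (u ^ m) (U.pow_mem huU m)
        ⟨a, by rw [← pow_mul, mul_comm, ← ho, pow_orderOf_eq_one]⟩
      have h3 : w * u ^ m * w⁻¹ ∈ K :=
        hMN _ ((charKer_normal ψ).conj_mem _ (M.pow_mem huM m) w) (hPgN hw)
      have h4 := (charKer_normal χ).conj_mem _ h3 w⁻¹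
      rwa [show w⁻¹ * (w * u ^ m * w⁻¹) * w⁻¹⁻¹ = u ^ m by group] at h4
    obtain ⟨s, t, hst⟩ : ∃ s t : ℤ, (p ^ a : ℕ) * s + (m : ℕ) * t = 1 := by
      refine ⟨Nat.gcdA (p ^ a) m, Nat.gcdB (p ^ a) m, ?_⟩
      rw [← Nat.gcd_eq_gcd_ab, show Nat.gcd (p ^ a) m = 1 from
        (hp.out.coprime_iff_not_dvd.mpr hm).pow_left a, Nat.cast_one]
    have e : u = (u ^ p ^ a) ^ s * (u ^ m) ^ t := by
      rw [← zpow_natCast u, ← zpow_natCast u m, ← zpow_mul, ← zpow_mul, ← zpow_add, hst, zpow_one]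
    rw [e]
    exact K.mul_mem (K.zpow_mem h1 s) (K.zpow_mem h2 t)
  have hle : M ≤ K := by
    intro m hm
    set L := M ⊓ K with hL
    have : L.Normal := Subgroup.normal_inf_normal M K
    set W := Pg ⊔ L with hW
    have hB : Pg.map (MulAut.conj m).toMonoidHom ≤ W := by
      rintro _ ⟨z, hz, rfl⟩
      show m * z * m⁻¹ ∈ W
      have hc1 : m * z * m⁻¹ * z⁻¹ ∈ M := by
        have := M.mul_mem hm ((charKer_normal ψ).conj_mem _ (M.inv_mem hm) z)
        simpa [mul_assoc] using this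
      have hc2 : m * z * m⁻¹ * z⁻¹ ∈ U :=
        U.mul_mem ((inferInstance : U.Normal).conj_mem z (hPgU hz) m) (U.inv_mem (hPgU hz))
      have : m * z * m⁻¹ = m * z * m⁻¹ * z⁻¹ * z := by group
      rw [this]
      exact W.mul_mem (Subgroup.mem_sup_right ⟨hc1, hMU _ hc1 hc2⟩) (Subgroup.mem_sup_left hz)
    have hWU : W ≤ U := sup_le hPgU (inf_le_right.trans hKU)
    have hidxW : ¬ p ∣ Pg.relIndex W := fun hd => hidxU
      (hd.trans ⟨_, (Subgroup.relIndex_mul_relIndex Pg W U le_sup_left hWU).symm⟩)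
    obtain ⟨w, hw, hwA⟩ := exists_conj_eq_of_sylow W Pg (Pg.map (MulAut.conj m).toMonoidHom)
      le_sup_left hB hPgp (hPgp.map _)
      (Subgroup.card_map_of_injective (MulAut.conj m).injective).symm hidxW
    have hwm : w * m ∈ N := by
      rw [hNdef, Subgroup.mem_normalizer_iff]
      rw [Subgroup.map_map] at hwA
      intro z
      constructor
      · intro hz
        rw [← hwA]
        exact ⟨z, hz, by simp [MulAut.conj_apply, mul_assoc]⟩
      · intro hz
        rw [← hwA] at hz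
        obtain ⟨z', hz', hzz⟩ := hz
        have : z' = z := by
          simpa [MulAut.conj_apply, mul_assoc] using hzz
        exact this ▸ hz'
    rw [hW, ← SetLike.mem_coe, Subgroup.mul_normal] at hw
    obtain ⟨y, hy, l, hl, rfl⟩ := hw
    have hlm : l * m ∈ N := by
      have h3 := N.mul_mem (N.inv_mem (hPgN hy)) hwm
      rwa [show y⁻¹ * (y * l * m) = l * m by group] at h3
    have h4 := K.mul_mem (K.inv_mem hl.2) (hMN _ (M.mul_mem hl.1 hm) hlm)
    rwa [inv_mul_cancel_left] at h4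
  refine lt_of_le_of_ne hle fun heq => ?_
  obtain ⟨θ', hθ'⟩ := exists_irr_restrict_of_sup_charKer ψ N (by rw [← hM, heq]; exact hNK)
  rw [show (fun n : N => ψ.1 n) = θ'.1 from funext hθ'] at hψ
  have : θ' = θ := by
    by_contra hne
    exact hψ (mult_eq_of_classInner (by rw [H26.classInner_irr, if_neg hne, Nat.cast_zero]))
  have h5 := hθ' 1
  rw [this, Subgroup.coe_one, irr_charDegree_spec, irr_charDegree_spec, Nat.cast_inj, hdθ] at h5
  exact hdeg.ne' h5

/-- A nontrivial finite solvable group has a nontrivial `p`-core for some prime `p`. -/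
theorem exists_pCore_ne_bot (Q : Type*) [Group Q] [Finite Q] [Group.IsSolvable Q] [Nontrivial Q] :
    ∃ p : ℕ, p.Prime ∧ Cfsg.pCore p Q ≠ ⊥ := by
  by_contra hall
  push Not at hall
  have hF : Cfsg.fittingSubgroup Q = ⊥ := by
    rw [eq_bot_iff, H19.fitting_eq_iSup_pCore]
    exact iSup_le fun p => (hall p p.2).le
  have h := H19.centralizer_fitting_le (G := Q)
  rw [hF] at h
  obtain ⟨x, hx⟩ := exists_ne (1 : Q)
  refine hx (Subgroup.mem_bot.mp (h ?_))
  rw [Subgroup.mem_centralizer_iff]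
  intro y hy
  rw [Subgroup.mem_bot.mp hy, one_mul, mul_one]

/-- Garrison's theorem. -/
theorem garrison [Fintype G] (χ : Cfsg.IrrCharacter G)
    (h : ¬ charKer χ ≤ Cfsg.fittingSubgroup G ∨ (charKer χ = Cfsg.fittingSubgroup G ∧
      Group.IsSolvable (G ⧸ charKer χ) ∧ charKer χ ≠ ⊤)) :
    ∃ ψ : Cfsg.IrrCharacter G, Cfsg.charDegree χ.1 < Cfsg.charDegree ψ.1 ∧
      charKer ψ < charKer χ := by
  classical
  set K := charKer χ with hK
  rcases h with h | ⟨hKF, hsolv, hne⟩
  · obtain ⟨p, hp, hd⟩ := Nat.exists_prime_and_dvd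
      (show (Cfsg.fittingSubgroup G).relIndex K ≠ 1 from fun h1 =>
        h (Subgroup.relIndex_eq_one.mp h1))
    have : Fact p.Prime := ⟨hp⟩
    obtain ⟨P⟩ : Nonempty (Sylow p K) := inferInstance
    refine exists_larger_degree χ K le_rfl p (fun u hu => ⟨0, by simpa using hu⟩) P ?_
      (Or.inl le_rfl)
    intro hn
    have hle : (P : Subgroup K) ≤ (Cfsg.fittingSubgroup G).subgroupOf K := fun z hz =>
      Subgroup.mem_subgroupOf.mpr
        (H19.le_fitting hn (P.isPGroup'.map _).isNilpotent ⟨z, hz, rfl⟩)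
    exact P.not_dvd_index (hd.trans (Subgroup.index_dvd_of_le hle))
  · have : Nontrivial (G ⧸ K) := by
      obtain ⟨g, -, hg⟩ := SetLike.exists_of_lt (lt_top_iff_ne_top.mpr hne)
      exact ⟨g, 1, fun h => hg ((QuotientGroup.eq_one_iff g).mp h)⟩
    obtain ⟨p, hp, hpc⟩ := exists_pCore_ne_bot (G ⧸ K)
    have : Fact p.Prime := ⟨hp⟩
    have := H19.pCore_normal p (G ⧸ K)
    set U := (Cfsg.pCore p (G ⧸ K)).comap (QuotientGroup.mk' K) with hUdef
    have hKU : K ≤ U := fun k hk => by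
      rw [hUdef, Subgroup.mem_comap, QuotientGroup.mk'_apply, (QuotientGroup.eq_one_iff k).mpr hk]
      exact one_mem _
    have hU : ∀ u ∈ U, ∃ k : ℕ, u ^ p ^ k ∈ K := by
      intro u hu
      obtain ⟨k, hk⟩ := H19.pCore_isPGroup (G := G ⧸ K) p ⟨_, hu⟩
      refine ⟨k, (QuotientGroup.eq_one_iff _).mp ?_⟩
      rw [QuotientGroup.mk_pow]
      exact congrArg Subtype.val hk
    have hUK : ¬ U ≤ K := by
      intro hle
      apply hpc
      rw [eq_bot_iff]
      intro q hq
      obtain ⟨g, rfl⟩ := QuotientGroup.mk_surjective q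
      exact Subgroup.mem_bot.mpr ((QuotientGroup.eq_one_iff g).mpr (hle hq))
    obtain ⟨P⟩ : Nonempty (Sylow p U) := inferInstance
    refine exists_larger_degree χ U hKU p hU P ?_ (Or.inr ⟨hKF.ge, hUK⟩)
    intro hn
    apply hUK
    have hPK : (P : Subgroup U).map U.subtype ≤ K := by
      rw [hK, hKF]; exact H19.le_fitting hn (P.isPGroup'.map _).isNilpotent
    intro u hu
    rw [← QuotientGroup.eq_one_iff, ← orderOf_eq_one_iff]
    obtain ⟨k, hk⟩ := hU u hu
    have h1 : orderOf (QuotientGroup.mk u : G ⧸ K) ∣ p ^ k :=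
      orderOf_dvd_of_pow_eq_one (by rw [← QuotientGroup.mk_pow]; exact (QuotientGroup.eq_one_iff _).mpr hk)
    have hle : (P : Subgroup U) ≤ K.subgroupOf U := fun z hz =>
      Subgroup.mem_subgroupOf.mpr (hPK ⟨z, hz, rfl⟩)
    have h2 : orderOf (QuotientGroup.mk u : G ⧸ K) ∣ (K.subgroupOf U).index := by
      apply orderOf_dvd_of_pow_eq_one
      rw [← QuotientGroup.mk_pow, QuotientGroup.eq_one_iff]
      exact Subgroup.mem_subgroupOf.mp
        ((K.subgroupOf U).pow_index_mem (⟨u, hu⟩ : U))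
    exact Nat.eq_one_of_dvd_coprimes (Nat.Coprime.pow_left k (hp.coprime_iff_not_dvd.mpr
      fun hd => P.not_dvd_index (hd.trans (Subgroup.index_dvd_of_le hle)))) h1 h2

end Cfsg.Agent.H43
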