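import Cfsg.Agent.H20.SchurZassenhaus

/-!
# Glauberman's lemma, in the language of subgroups
-/

namespace Cfsg.Agent.H43

open scoped Pointwise

variable {Γ : Type*} [Group Γ] [Finite Γ]

/-- If `Q` is normal, `A` is a coprime supplement of `Q` (one of them solvable) and `X` is any
supplement of `Q`, then a `Q`-conjugate of `A` lies in `X`. -/
theorem exists_conj_le (Q A X : Subgroup Γ) [Q.Normal] (hQA : Q ⊔ A = ⊤)
    (hcop : (Nat.card A).Coprime (Nat.card Q))
    (hsolv : Group.IsSolvable A ∨ Group.IsSolvable Q) (hQX : Q ⊔ X = ⊤) :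
    ∃ q ∈ Q, ∀ a ∈ A, q * a * q⁻¹ ∈ X := by
  have hnorm : ∀ H : Subgroup Γ, H ≤ Subgroup.normalizer (Q : Set Γ) := fun H => by
    rw [Subgroup.normalizer_eq_top]; exact le_top
  have hidx : (Q ⊓ X).relIndex X = Nat.card A := by
    rw [Subgroup.inf_relIndex_right]
    have h1 := H20.card_sup_of_coprime (hnorm A) hcop
    rw [hQA, Subgroup.card_top, ← Q.card_mul_index] at h1
    rw [← mul_left_cancel₀ Nat.card_pos.ne' h1]
    rw [← Subgroup.relIndex_sup_right (H := X) (K := Q), sup_comm, hQX, Subgroup.relIndex_top_right]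
  haveI : ((Q ⊓ X).subgroupOf X).Normal := by
    rw [Subgroup.inf_subgroupOf_right]; infer_instance
  obtain ⟨T, hTX, -, hT⟩ := H20.exists_complement_of_coprime (N := Q ⊓ X) (S := X) inf_le_right
    (Subgroup.le_normalizer_of_normal_subgroupOf inf_le_right)
    (by rw [hidx]; exact (hcop.symm).coprime_dvd_left (Subgroup.card_dvd_of_le inf_le_left))
  obtain ⟨q, hq, e⟩ := H20.exists_conj_eq_of_coprime (hnorm A) hcop hsolv
    (K := T) (by rw [hQA]; exact le_top) (hT.trans hidx)
  refine ⟨q, hq, fun a ha => hTX ?_⟩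
  rw [← e, H20.mem_conj_smul]
  rwa [show q⁻¹ * (q * a * q⁻¹) * q = a by group]

/-- Glauberman's lemma for coprime action on a section `G / N`: a subgroup `X ≥ N` that meets
every coset of `G` in `G S` contains a `G`-conjugate of `S`. -/
theorem exists_conj_le_section (G S N X : Subgroup Γ) [G.Normal] [N.Normal] (hGS : G ⊔ S = ⊤)
    (hNG : N ≤ G) (hNX : N ≤ X) (hcop : (N.relIndex S).Coprime (N.relIndex G))
    (hsolv : Group.IsSolvable S ∨ Group.IsSolvable (G ⧸ N.subgroupOf G))
    (hGX : G ⊔ X = ⊤) :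
    ∃ g ∈ G, ∀ s ∈ S, g * s * g⁻¹ ∈ X := by
  set π := QuotientGroup.mk' N
  have hπ : Function.Surjective π := QuotientGroup.mk'_surjective N
  have hcard : ∀ H : Subgroup Γ, Nat.card (H.map π) = N.relIndex H := fun H => by
    rw [← Subgroup.relIndex_ker, QuotientGroup.ker_mk']
  haveI : (G.map π).Normal := Subgroup.Normal.map inferInstance π hπ
  have htop : ∀ H : Subgroup Γ, G ⊔ H = ⊤ → G.map π ⊔ H.map π = ⊤ := fun H h => by
    rw [← Subgroup.map_sup, h, Subgroup.map_top_of_surjective _ hπ]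
  obtain ⟨q, hq, h⟩ := exists_conj_le (G.map π) (S.map π) (X.map π) (htop S hGS)
    (by rw [hcard, hcard]; exact hcop)
    (hsolv.imp (fun hs => by
      haveI : Group.IsSolvable S := hs
      exact Group.isSolvable_of_surjective (π.subgroupMap_surjective S))
      (fun hs => by
        haveI : Group.IsSolvable (G ⧸ N.subgroupOf G) := hs
        refine Group.isSolvable_of_surjective (f := QuotientGroup.lift (N.subgroupOf G)
          (π.subgroupMap G) fun n hn => Subtype.ext ?_) ?_
        · exact (QuotientGroup.eq_one_iff (n : Γ)).mpr hn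
        · intro x
          obtain ⟨g, rfl⟩ := π.subgroupMap_surjective G x
          exact ⟨QuotientGroup.mk g, rfl⟩))
    (htop X hGX)
  obtain ⟨g, hg, rfl⟩ := hq
  refine ⟨g, hg, fun s hs => ?_⟩
  obtain ⟨x, hx, e⟩ := h (π s) (Subgroup.mem_map_of_mem π hs)
  rw [← map_inv, ← map_mul, ← map_mul] at e
  have hmem : x⁻¹ * (g * s * g⁻¹) ∈ N := QuotientGroup.eq.mp e
  have := X.mul_mem hx (hNX hmem)
  rwa [mul_inv_cancel_left] at this

end Cfsg.Agent.H43
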