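import Mathlib
import Cfsg.Agent.H43.Garrison
import Cfsg.Agent.H45.Inflation

/-!
# Nilpotent length and the number of character degrees
-/

set_option autoImplicit false
set_option maxHeartbeats 800000

namespace Cfsg.Agent.H43

/-- The set of character degrees. -/
def degSet (G : Type*) [Group G] : Set ℕ :=
  {d | ∃ χ : Cfsg.IrrCharacter G, Cfsg.charDegree χ.1 = d}

theorem degSet_nonempty (G : Type*) [Group G] [Finite G] : (degSet G).Nonempty :=
  ⟨_, H26.oneIrr G, rfl⟩

theorem degSet_finite (G : Type*) [Group G] [Finite G] : (degSet G).Finite :=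
  (Set.finite_range fun χ : Cfsg.IrrCharacter G => Cfsg.charDegree χ.1).subset
    fun _ ⟨χ, h⟩ => ⟨χ, h⟩

/-- If `G` is not nilpotent then `G / F(G)` has fewer character degrees than `G`. -/
theorem ncard_degSet_quotient_lt {G : Type*} [Group G] [Finite G] [Group.IsSolvable G]
    (hn : Cfsg.fittingSubgroup G ≠ ⊤) [(Cfsg.fittingSubgroup G).Normal] :
    (degSet (G ⧸ Cfsg.fittingSubgroup G)).ncard < (degSet G).ncard := by
  classical
  have : Fintype G := Fintype.ofFinite G
  set F := Cfsg.fittingSubgroup G with hF
  obtain ⟨d, ⟨χ₀, hd⟩, hmax⟩ := Set.exists_max_image (degSet G) id (degSet_finite G) (degSet_nonempty G)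
  have hsub : degSet (G ⧸ F) ⊆ degSet G \ {d} := by
    rintro m ⟨η, hη⟩
    set χ := H45.inflIrr (QuotientGroup.mk' F) (QuotientGroup.mk'_surjective F) η with hχ
    have hm : Cfsg.charDegree χ.1 = m := by
      rw [← hη]; rfl
    refine ⟨⟨χ, hm⟩, fun hmd => ?_⟩
    rw [Set.mem_singleton_iff] at hmd
    have hker : F ≤ charKer χ := by
      intro g hg
      show η.1 (QuotientGroup.mk g) = η.1 (QuotientGroup.mk 1)
      rw [(QuotientGroup.eq_one_iff g).mpr hg]
      rfl
    have hcase : ¬ charKer χ ≤ F ∨ (charKer χ = F ∧ Group.IsSolvable (G ⧸ charKer χ) ∧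
        charKer χ ≠ ⊤) := by
      by_cases h : charKer χ ≤ F
      · exact Or.inr ⟨le_antisymm h hker, inferInstance,
          fun htop => hn (top_le_iff.mp (htop ▸ h))⟩
      · exact Or.inl h
    obtain ⟨ψ, hψ, -⟩ := garrison χ hcase
    have := hmax _ ⟨ψ, rfl⟩
    simp only [id] at this
    omega
  calc (degSet (G ⧸ F)).ncard ≤ (degSet G \ {d}).ncard :=
        Set.ncard_le_ncard hsub (degSet_finite G).diff
    _ < (degSet G).ncard := Set.ncard_diff_singleton_lt_of_mem ⟨χ₀, hd⟩ (degSet_finite G)

/-- A finite solvable group has a nilpotent series of length the number of its degrees. -/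
theorem exists_nilpotent_series.{u} : ∀ (n : ℕ) (G : Type u) [Group G] [Finite G]
    [Group.IsSolvable G], (degSet G).ncard ≤ n →
    ∃ N : Fin (n + 1) → Subgroup G, N 0 = ⊥ ∧ N (Fin.last n) = ⊤ ∧ Monotone N ∧
      (∀ i, (N i).Normal) ∧
      ∀ i : Fin n, ∀ _ : ((N i.castSucc).subgroupOf (N i.succ)).Normal,
        Group.IsNilpotent (↥(N i.succ) ⧸ (N i.castSucc).subgroupOf (N i.succ)) := by
  intro n
  induction n with
  | zero =>
    intro G _ _ _ h
    exact absurd h (not_le.mpr ((Set.ncard_pos (degSet_finite G)).mpr (degSet_nonempty G)))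
  | succ n ih =>
    intro G _ _ _ h
    have hFn : (Cfsg.fittingSubgroup G).Normal := H19.fitting_normal G
    set F := Cfsg.fittingSubgroup G with hF
    have hFnil : Group.IsNilpotent F := H19.fitting_isNilpotent
    -- the chain above `F`
    obtain ⟨N, hN0, hNl, hNm, hNn, hNq⟩ : ∃ N : Fin (n + 1) → Subgroup G, N 0 = F ∧
        N (Fin.last n) = ⊤ ∧ Monotone N ∧ (∀ i, (N i).Normal) ∧
        ∀ i : Fin n, ∀ _ : ((N i.castSucc).subgroupOf (N i.succ)).Normal,
          Group.IsNilpotent (↥(N i.succ) ⧸ (N i.castSucc).subgroupOf (N i.succ)) := by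
      by_cases htop : F = ⊤
      · refine ⟨fun _ => ⊤, htop.symm, rfl, monotone_const, fun _ => inferInstance, fun i hi => ?_⟩
        have hF' : Group.IsNilpotent (⊤ : Subgroup G) := htop ▸ hFnil
        exact Group.nilpotent_of_surjective _ (QuotientGroup.mk'_surjective _)
      · obtain ⟨M, hM0, hMl, hMm, hMn, hMq⟩ := ih (G ⧸ F) (by
          have hlt : (degSet (G ⧸ F)).ncard < (degSet G).ncard := ncard_degSet_quotient_lt htop
          omega)
        set π := QuotientGroup.mk' F with hπ
        refine ⟨fun i => (M i).comap π, ?_, ?_, fun i j hij => Subgroup.comap_mono (hMm hij),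
          fun i => (hMn i).comap π, fun i hi => ?_⟩
        · simp only [hM0]
          rw [MonoidHom.comap_bot, hπ, QuotientGroup.ker_mk']
        · simp only [hMl]; rw [Subgroup.comap_top]
        · have hB : ((M i.castSucc).subgroupOf (M i.succ)).Normal :=
            (hMn i.castSucc).comap _
          have := hMq i hB
          let f : ↥((M i.succ).comap π) →* ↥(M i.succ) :=
            (π.comp ((M i.succ).comap π).subtype).codRestrict _ fun x => x.2
          let q := QuotientGroup.map (((M i.castSucc).comap π).subgroupOf ((M i.succ).comap π))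
            ((M i.castSucc).subgroupOf (M i.succ)) f (fun x hx => hx)
          have hq : Function.Injective q := by
            rw [injective_iff_map_eq_one]
            intro x hx
            obtain ⟨y, rfl⟩ := QuotientGroup.mk_surjective x
            rw [show q (QuotientGroup.mk y) = QuotientGroup.mk (f y) from rfl,
              QuotientGroup.eq_one_iff] at hx
            exact (QuotientGroup.eq_one_iff y).mpr hx
          exact Group.nilpotent_of_mulEquiv (MonoidHom.ofInjective hq).symm
    refine ⟨Fin.cons ⊥ N, rfl, ?_, ?_, ?_, ?_⟩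
    · rw [← Fin.succ_last, Fin.cons_succ]; exact hNl
    · intro i j hij
      induction i using Fin.cases with
      | zero => exact bot_le
      | succ i =>
        induction j using Fin.cases with
        | zero => exact absurd hij (Fin.succ_pos i).not_ge
        | succ j => simpa using hNm (Fin.succ_le_succ_iff.mp hij)
    · intro i
      induction i using Fin.cases with
      | zero => simp only [Fin.cons_zero]; infer_instance
      | succ i => simp only [Fin.cons_succ]; exact hNn i
    · intro i
      induction i using Fin.cases with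
      | zero =>
        intro hi
        have : Group.IsNilpotent ↥((Fin.cons ⊥ N : Fin (n + 1 + 1) → Subgroup G) (Fin.succ 0)) := by
          rw [Fin.cons_succ, hN0]; exact hFnil
        exact Group.nilpotent_of_surjective _ (QuotientGroup.mk'_surjective _)
      | succ i =>
        simp only [← Fin.succ_castSucc, Fin.cons_succ]
        exact hNq i

end Cfsg.Agent.H43
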