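import Cfsg.Agent.H43.RealTwoBlock
import Cfsg.Agent.H27.Induction
import Mathlib.GroupTheory.Transfer

/-!
# `|G|₂` times the indicator of the elements of odd order is a generalized character
-/

namespace Cfsg.Agent.H43

open scoped ComplexConjugate

universe u

/-- In an elementary group the elements of odd order form a normal subgroup. -/
theorem exists_oddOrder_subgroup {E : Type u} [Group E] [Finite E] {p : ℕ} (hp : p.Prime)
    (hE : Cfsg.IsElementary p E) :
    ∃ H : Subgroup E, H.Normal ∧ ∀ g : E, g ∈ H ↔ Odd (orderOf g) := by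
  obtain ⟨x, hxc, hxo, k, hk⟩ := hE
  have hn : (Subgroup.zpowers x).Normal := ⟨fun y hy c => by
    obtain ⟨i, rfl⟩ := Subgroup.mem_zpowers_iff.mp hy
    have h : Commute c (x ^ i) := (Commute.zpow_right (Subgroup.mem_center_iff.mp hxc c) i)
    rw [h.eq, mul_inv_cancel_right]
    exact Subgroup.zpow_mem _ (Subgroup.mem_zpowers x) i⟩
  rcases eq_or_ne p 2 with rfl | hp2
  · refine ⟨Subgroup.zpowers x, hn, fun g => ⟨fun hg => ?_, fun hg => ?_⟩⟩
    · refine Odd.of_dvd_nat ?_ (orderOf_dvd_of_mem_zpowers hg)
      exact Nat.coprime_two_right.mp hxo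
    · rw [← QuotientGroup.eq_one_iff, ← orderOf_eq_one_iff]
      have h1 : orderOf (g : E ⧸ Subgroup.zpowers x) ∣ 2 ^ k := by
        have := orderOf_dvd_natCard (g : E ⧸ Subgroup.zpowers x)
        rwa [← Subgroup.index_eq_card, hk] at this
      have h2 : orderOf (g : E ⧸ Subgroup.zpowers x) ∣ orderOf g :=
        orderOf_map_dvd (QuotientGroup.mk' (Subgroup.zpowers x)) g
      have h3 : Nat.Coprime (2 ^ k) (orderOf g) :=
        (Nat.coprime_two_left.mpr hg).pow_left k
      exact Nat.eq_one_of_dvd_coprimes h3 h1 h2
  · -- `g ↦ g ^ [E : Z(E)]` is a homomorphism and the index is odd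
    set i := (Subgroup.center E).index with hi
    have hiodd : Odd i := by
      have h1 : i ∣ p ^ k := by
        rw [← hk]
        exact Subgroup.index_dvd_of_le (Subgroup.zpowers_le.mpr hxc)
      exact ((hp.odd_of_ne_two hp2).pow).of_dvd_nat h1
    set m := Nat.card E with hm
    let T : Subgroup (Subgroup.center E) :=
      { carrier := {z | Odd (orderOf z)}
        one_mem' := by simp
        mul_mem' := fun {a b} ha hb => by
          have hc : Commute a b := Subtype.ext (Subgroup.mem_center_iff.mp b.2 a)
          exact Odd.of_dvd_nat (Odd.mul ha hb) hc.orderOf_mul_dvd_mul_orderOf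
        inv_mem' := fun {a} ha => by
          show Odd (orderOf a⁻¹)
          rw [orderOf_inv]; exact ha }
    refine ⟨T.comap (MonoidHom.transferCenterPow E), inferInstance, fun g => ?_⟩
    show Odd (orderOf (MonoidHom.transferCenterPow E g)) ↔ _
    rw [← Subgroup.orderOf_coe, MonoidHom.transferCenterPow_apply, ← hi]
    rw [orderOf_pow g]
    constructor
    · intro h
      by_contra hne
      have heven : Even (orderOf g) := Nat.not_odd_iff_even.mp hne
      have h2 : ¬ 2 ∣ Nat.gcd (orderOf g) i := fun h2 =>
        hiodd.not_two_dvd_nat (h2.trans (Nat.gcd_dvd_right _ _))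
      have h3 : 2 ∣ orderOf g / Nat.gcd (orderOf g) i * Nat.gcd (orderOf g) i := by
        rw [Nat.div_mul_cancel (Nat.gcd_dvd_left _ _)]
        exact heven.two_dvd
      rcases Nat.prime_two.dvd_mul.mp h3 with h4 | h4
      · exact h.not_two_dvd_nat h4
      · exact h2 h4
    · intro h
      exact h.of_dvd_nat (Nat.div_dvd_of_dvd (Nat.gcd_dvd_left _ _))

/-- The class function `|G|₂ · (indicator of odd order)`. -/
noncomputable def oddInd (G : Type*) [Group G] (g : G) : ℂ :=
  if Odd (orderOf g) then ((2 ^ (Nat.card G).factorization 2 : ℕ) : ℂ) else 0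

theorem oddInd_conj {G : Type*} [Group G] (g h : G) :
    oddInd G (h * g * h⁻¹) = oddInd G g := by
  have : orderOf (h * g * h⁻¹) = orderOf g := (MulAut.conj h).orderOf_eq g
  simp [oddInd, this]

theorem isGeneralizedCharacter_oddInd (G : Type u) [Group G] [Finite G] :
    Cfsg.IsGeneralizedCharacter G (oddInd G) := by
  classical
  haveI := Fintype.ofFinite G
  refine H27.mem_genChars_of_elementary (fun g h => oddInd_conj g h) fun E p hp hE => ?_
  obtain ⟨H, hH, hmem⟩ := exists_oddOrder_subgroup hp hE
  haveI := hH
  set n := (Nat.card G).factorization 2 with hn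
  -- the index of `H` divides `|G|₂`
  have hidx : H.index ∣ 2 ^ n := by
    have h0 : H.index ∣ Nat.card G :=
      (Subgroup.index_dvd_card H).trans (Subgroup.card_subgroup_dvd_card E)
    have hpow : ∀ q : ℕ, q.Prime → q ∣ H.index → q = 2 := by
      intro q hq hqd
      by_contra hq2
      rw [Subgroup.index_eq_card] at hqd
      haveI : Fact q.Prime := ⟨hq⟩
      obtain ⟨y, hy⟩ := exists_prime_orderOf_dvd_card' q hqd
      obtain ⟨g, rfl⟩ := QuotientGroup.mk_surjective y
      -- a suitable power of `g` has odd order and survives in the quotient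
      obtain ⟨a, b, hb, hab⟩ := Nat.exists_eq_two_pow_mul_odd (orderOf_pos g).ne'
      have hgodd : g ^ (2 ^ a) ∈ H := by
        rw [hmem, orderOf_pow_of_dvd (by positivity) (hab ▸ dvd_mul_right _ _), hab,
          Nat.mul_div_cancel_left _ (by positivity)]
        exact hb
      rw [← QuotientGroup.eq_one_iff, QuotientGroup.mk_pow] at hgodd
      have hdvd := orderOf_dvd_of_pow_eq_one hgodd
      rw [hy] at hdvd
      exact hq2 ((Nat.prime_dvd_prime_iff_eq hq Nat.prime_two).mp (hq.dvd_of_dvd_pow hdvd))
    have hne : H.index ≠ 0 := Subgroup.index_ne_zero_of_finite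
    have heq : H.index = 2 ^ H.index.factorization 2 :=
      Nat.eq_pow_of_factorization_eq_single hne (Finsupp.ext fun q => by
        rw [Finsupp.single_apply]
        split_ifs with h
        · rw [h]
        · by_contra hne'
          have hqm : q ∈ H.index.primeFactors := by
            rw [← Nat.support_factorization, Finsupp.mem_support_iff]; exact hne'
          exact h (hpow q (Nat.prime_of_mem_primeFactors hqm)
            (Nat.dvd_of_mem_primeFactors hqm)).symm)
    rw [heq]
    refine Nat.pow_dvd_pow 2 ?_
    exact (Nat.factorization_le_iff_dvd hne Nat.card_pos.ne').mpr h0 2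
  obtain ⟨c, hc⟩ := hidx
  -- a multiple of the permutation character on `E / H`
  have hreg : Cfsg.IsCharacter E
      (fun e : E => (c : ℂ) * if (e : E ⧸ H) = 1 then (Nat.card (E ⧸ H) : ℂ) else 0) := by
    haveI : Fintype (E ⧸ H) := Fintype.ofFinite _
    have h1 := H26.isCharacter_comp
      (H26.isCharacter_char (Representation.leftRegular ℂ (E ⧸ H))) (QuotientGroup.mk' H)
    have h2 := H26.isCharacter_nsmul h1 c
    convert h2 using 1
    funext e
    rw [Pi.smul_apply, smul_eq_mul, Function.comp_apply, H26.char_leftRegular]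
    rfl
  refine ⟨_, 0, hreg, H26.isCharacter_zero E, funext fun e => ?_⟩
  rw [Pi.sub_apply, Pi.zero_apply, sub_zero]
  show oddInd G (e : G) = _
  simp only [oddInd, ← hn, QuotientGroup.eq_one_iff, hmem, Subgroup.orderOf_coe]
  split_ifs with h
  · rw [← Subgroup.index_eq_card, hc, Nat.cast_mul]; ring
  · simp

end Cfsg.Agent.H43
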