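import Mathlib
import Cfsg.Agent.H43.CharTools
import Cfsg.Agent.H45.Galois
import Cfsg.Agent.H40.BlockSets
import Cfsg.Agent.H42.MaxIdeal
import Cfsg.Agent.H27.DefectZero

/-!
# Families of `p`-conjugate characters
-/

set_option autoImplicit false
set_option maxHeartbeats 800000

namespace Cfsg.Agent.H43

open scoped ComplexConjugate
open Module

/-- The sum of the primitive exponent powers of a `p`-power root of unity. -/
theorem sum_units_pow {p a : ℕ} [hp : Fact p.Prime] (ha : 0 < a) [NeZero (p ^ a)] {α : ℂ}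
    (hα : α ^ p ^ a = 1) :
    ∃ c : ℤ, ∑ u : (ZMod (p ^ a))ˣ, α ^ (u : ZMod (p ^ a)).val = ((p ^ (a - 1) : ℕ) : ℂ) * c := by
  classical
  obtain ⟨b, rfl⟩ : ∃ b, a = b + 1 := ⟨a - 1, by omega⟩
  rw [Nat.add_sub_cancel]
  have h1 : ∑ u : (ZMod (p ^ (b + 1)))ˣ, α ^ (u : ZMod (p ^ (b + 1))).val =
      ∑ i ∈ (Finset.range (p ^ (b + 1))).filter (fun i => ¬ p ∣ i), α ^ i := by
    refine Finset.sum_bij (fun u _ => (u : ZMod (p ^ (b + 1))).val) (fun u _ => ?_)
      (fun u _ v _ h => Units.ext (ZMod.val_injective _ h)) (fun i hi => ?_) (fun u _ => rfl)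
    · refine Finset.mem_filter.mpr ⟨Finset.mem_range.mpr (ZMod.val_lt _), fun h => ?_⟩
      exact (hp.out.coprime_iff_not_dvd.mp
        ((Nat.coprime_pow_right_iff b.succ_pos _ _).mp (ZMod.val_coe_unit_coprime u)).symm) h
    · rw [Finset.mem_filter, Finset.mem_range] at hi
      have hc : i.Coprime (p ^ (b + 1)) :=
        ((hp.out.coprime_iff_not_dvd.mpr hi.2).symm).pow_right _
      refine ⟨ZMod.unitOfCoprime i hc, Finset.mem_univ _, ?_⟩
      rw [ZMod.coe_unitOfCoprime, ZMod.val_natCast, Nat.mod_eq_of_lt hi.1]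
  have h2 : ∑ i ∈ (Finset.range (p ^ (b + 1))).filter (fun i => p ∣ i), α ^ i =
      ∑ j ∈ Finset.range (p ^ b), (α ^ p) ^ j := by
    symm
    refine Finset.sum_bij (fun j _ => p * j) (fun j hj => ?_) (fun j _ j' _ h => ?_)
      (fun i hi => ?_) (fun j _ => (pow_mul α p j).symm)
    · rw [Finset.mem_range] at hj
      refine Finset.mem_filter.mpr ⟨Finset.mem_range.mpr ?_, dvd_mul_right p j⟩
      rw [pow_succ']
      exact Nat.mul_lt_mul_of_pos_left hj hp.out.pos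
    · exact Nat.eq_of_mul_eq_mul_left hp.out.pos h
    · rw [Finset.mem_filter, Finset.mem_range] at hi
      obtain ⟨j, rfl⟩ := hi.2
      refine ⟨j, Finset.mem_range.mpr ?_, rfl⟩
      rw [pow_succ'] at hi
      exact Nat.lt_of_mul_lt_mul_left hi.1
  have hgeom : ∀ (β : ℂ) (N : ℕ), β ^ N = 1 →
      ∑ i ∈ Finset.range N, β ^ i = (N : ℂ) * ((if β = 1 then 1 else 0 : ℤ) : ℂ) := by
    intro β N hβ
    split_ifs with h
    · simp [h]
    · rw [geom_sum_eq h, hβ, sub_self, zero_div, Int.cast_zero, mul_zero]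
  have hsplit := Finset.sum_filter_add_sum_filter_not (Finset.range (p ^ (b + 1)))
    (fun i => p ∣ i) (fun i => α ^ i)
  rw [h2, hgeom _ _ hα, hgeom (α ^ p) (p ^ b) (by rw [← pow_mul, ← pow_succ']; exact hα)] at hsplit
  refine ⟨(p : ℤ) * (if α = 1 then 1 else 0) - (if α ^ p = 1 then 1 else 0), ?_⟩
  rw [h1, eq_sub_of_add_eq' hsplit]
  push_cast
  ring

variable {G : Type*} [Group G] [Fintype G]

/-- An exponent congruent to `u` modulo `p ^ a` and to `1` modulo the `p'`-part. -/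
noncomputable def pExp {P Q : ℕ} (h : P.Coprime Q) (u : (ZMod P)ˣ) : ℕ :=
  (Nat.chineseRemainder h (u : ZMod P).val 1 : ℕ)

theorem pExp_left {P Q : ℕ} (h : P.Coprime Q) (u : (ZMod P)ˣ) :
    pExp h u ≡ (u : ZMod P).val [MOD P] :=
  (Nat.chineseRemainder h (u : ZMod P).val 1).2.1

theorem pExp_right {P Q : ℕ} (h : P.Coprime Q) (u : (ZMod P)ˣ) : pExp h u ≡ 1 [MOD Q] :=
  (Nat.chineseRemainder h (u : ZMod P).val 1).2.2

theorem pExp_coprime {P Q : ℕ} [NeZero P] (h : P.Coprime Q) (u : (ZMod P)ˣ) :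
    (pExp h u).Coprime (P * Q) := by
  refine Nat.Coprime.mul_right ?_ ?_
  · rw [Nat.coprime_iff_gcd_eq_one, (pExp_left h u).gcd_eq, ← Nat.coprime_iff_gcd_eq_one]
    exact ZMod.val_coe_unit_coprime u
  · rw [Nat.coprime_iff_gcd_eq_one, (pExp_right h u).gcd_eq, Nat.gcd_one_left]

theorem pExp_mul {P Q : ℕ} [NeZero P] (h : P.Coprime Q) (u v : (ZMod P)ˣ) :
    pExp h (u * v) ≡ pExp h u * pExp h v [MOD P * Q] := by
  rw [← Nat.modEq_and_modEq_iff_modEq_mul h]
  constructor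
  · refine (pExp_left h _).trans (Nat.ModEq.trans ?_ ((pExp_left h u).mul (pExp_left h v)).symm)
    rw [Units.val_mul, ZMod.val_mul]
    exact Nat.mod_modEq _ _
  · exact (pExp_right h _).trans
      (by simpa using ((pExp_right h u).mul (pExp_right h v)).symm)

/-- `(p - 1) * ψ g / p ^ m` is integral, for the sum of the powers of a character value. -/
theorem sum_pExp_eq {p a Q : ℕ} [hp : Fact p.Prime] (ha : 0 < a) [NeZero (p ^ a)]
    (hQ : (p ^ a).Coprime Q) (hn : Nat.card G = p ^ a * Q) {φ : G → ℂ}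
    (hφ : Cfsg.IsCharacter G φ) (g : G) :
    ∃ γ : ℂ, IsIntegral ℤ γ ∧
      ∑ u : (ZMod (p ^ a))ˣ, φ (g ^ pExp hQ u) = ((p ^ (a - 1) : ℕ) : ℂ) * γ := by
  classical
  obtain ⟨k, ρ, rfl⟩ := hφ
  obtain ⟨b, μ, hb, hμ, hsum⟩ := H25.exists_eigenbasis ρ g
  have hpow : ∀ (j : ℕ) i, ρ (g ^ j) (b i) = μ i ^ j • b i := by
    intro j i
    induction j with
    | zero => simp
    | succ j ih => rw [pow_succ', map_mul, Module.End.mul_apply, ih, map_smul, hb, smul_smul,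
        pow_succ]
  have hμn : ∀ i, μ i ^ Nat.card G = 1 := fun i => by
    obtain ⟨c, hc⟩ := orderOf_dvd_natCard (G := G) g
    rw [hc, pow_mul, hμ, one_pow]
  obtain ⟨A, hA1, hA2⟩ := Nat.chineseRemainder hQ 1 0
  obtain ⟨B, hB1, hB2⟩ := Nat.chineseRemainder hQ 0 1
  have hkey : ∀ (u : (ZMod (p ^ a))ˣ) i,
      μ i ^ pExp hQ u = (μ i ^ A) ^ (u : ZMod (p ^ a)).val * μ i ^ B := by
    intro u i
    have hm : pExp hQ u ≡ A * (u : ZMod (p ^ a)).val + B [MOD p ^ a * Q] := by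
      rw [← Nat.modEq_and_modEq_iff_modEq_mul hQ]
      constructor
      · refine (pExp_left hQ u).trans ?_
        simpa using ((hA1.mul_right (u : ZMod (p ^ a)).val).add hB1).symm
      · refine (pExp_right hQ u).trans ?_
        simpa using ((hA2.mul_right (u : ZMod (p ^ a)).val).add hB2).symm
    rw [← pow_mul, ← pow_add, pow_eq_pow_mod (pExp hQ u) (hμn i),
      pow_eq_pow_mod (A * _ + B) (hμn i), hn]
    rw [Nat.ModEq] at hm
    rw [hm]
  have hAp : ∀ i, (μ i ^ A) ^ p ^ a = 1 := fun i => by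
    obtain ⟨c, hc⟩ := Nat.modEq_zero_iff_dvd.mp hA2
    rw [← pow_mul, hc, show Q * c * p ^ a = Nat.card G * c by rw [hn]; ring, pow_mul, hμn, one_pow]
  choose c hc using fun i => sum_units_pow ha (hAp i)
  refine ⟨∑ i, (c i : ℂ) * μ i ^ B, IsIntegral.sum _ fun i _ =>
    (H27.isIntegral_intCast _).mul (IsIntegral.of_pow (orderOf_pos g) (by
      rw [← pow_mul, mul_comm, pow_mul, hμ, one_pow]; exact isIntegral_one)), ?_⟩
  have hch : ∀ u : (ZMod (p ^ a))ˣ, ρ.character (g ^ pExp hQ u) = ∑ i, μ i ^ pExp hQ u := fun u =>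
    H25.trace_eq_sum_of_eigenbasis _ b _ (hpow _)
  simp only [hch, hkey]
  rw [Finset.sum_comm, Finset.mul_sum]
  refine Finset.sum_congr rfl fun i _ => ?_
  rw [← Finset.sum_mul, hc i, mul_assoc]

open scoped Classical in
/-- If the idempotent of a set of characters of equal degree is locally integral, the sum of
the set vanishes at `p`-singular elements. -/
theorem sum_eq_zero_of_locally_integral {p : ℕ} [hp : Fact p.Prime]
    {M : Ideal Cfsg.AlgInt} [M.IsMaximal] (hM : Cfsg.IsPModular p M)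
    (O : Finset (Cfsg.IrrCharacter G)) {d e Q : ℕ} (hd : 0 < d)
    (hdeg : ∀ ψ ∈ O, ψ.1 1 = (d : ℂ)) (hn : Nat.card G = p ^ e * Q) (hQ : ¬ p ∣ Q)
    (hint : ∀ g : G, IsIntegral ℤ ((d : ℂ) * (∑ ψ ∈ O, ψ.1 g) / ((p ^ e : ℕ) : ℂ)))
    {y : G} (hy : p ∣ orderOf y) : ∑ ψ ∈ O, ψ.1 y = 0 := by
  have hA : ∀ g : G, Cfsg.MemLocalRing M (Cfsg.blockCoeff (O : Set (Cfsg.IrrCharacter G)) g) := by
    intro g
    have hco : Cfsg.blockCoeff (O : Set (Cfsg.IrrCharacter G)) g =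
        (Nat.card G : ℂ)⁻¹ * ((d : ℂ) * ∑ ψ ∈ O, ψ.1 g⁻¹) := by
      rw [Cfsg.blockCoeff, finsum_mem_coe_finset, Finset.mul_sum (a := (d : ℂ))]
      congr 1
      exact Finset.sum_congr rfl fun ψ hψ => by rw [hdeg ψ hψ, H26.irr_inv]
    refine ⟨⟨_, hint g⁻¹⟩, (Q : Cfsg.AlgInt), H42.natCast_not_mem hM hQ, ?_⟩
    rw [hco, hn]
    have hpe : ((p ^ e : ℕ) : ℂ) ≠ 0 := Nat.cast_ne_zero.mpr (pow_pos hp.out.pos e).ne'
    push_cast
    rw [mul_inv]
    field_simp
  have h := H40.sum_mul_conj_eq_zero_of_mem hM hA (x := (1 : G)) (y := y)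
    (by simpa using hp.out.not_dvd_one) hy
  have h' : ∑ ψ ∈ O, (d : ℂ) * conj (ψ.1 y) = 0 := by
    rw [← h]
    exact Finset.sum_congr (by ext; simp) fun ψ hψ => by
      rw [hdeg ψ (by simpa using hψ)]
  clear h
  rename' h' => h
  rw [← Finset.mul_sum, ← map_sum, mul_eq_zero] at h
  rcases h with h | h
  · exact absurd h (Nat.cast_ne_zero.mpr hd.ne')
  · exact (map_eq_zero (starRingEnd ℂ)).mp h

end Cfsg.Agent.H43
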