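import Cfsg.Agent.H43.OddRegular

/-!
# At most `|G|₂²` real irreducible characters of odd degree
-/

namespace Cfsg.Agent.H43

open scoped ComplexConjugate

universe u

variable {G : Type u} [Group G] [Fintype G]

/-- For real irreducible characters of odd degree, `|G|₂` times their inner product over the
elements of odd order is a nonzero integer. -/
theorem exists_int_inner_oddInd {M : Ideal Cfsg.AlgInt} (hM : Cfsg.IsPModular 2 M)
    (χ ψ : Cfsg.IrrCharacter G) (hχr : ∀ g, conj (χ.1 g) = χ.1 g)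
    (hψr : ∀ g, conj (ψ.1 g) = ψ.1 g) (hχo : Odd (Cfsg.charDegree χ.1))
    (hψo : Odd (Cfsg.charDegree ψ.1)) :
    ∃ a : ℤ, a ≠ 0 ∧ Cfsg.classInner (fun g => oddInd G g * χ.1 g) ψ.1 = (a : ℂ) := by
  classical
  obtain ⟨A, B, hA, hB, hAB⟩ := isGeneralizedCharacter_oddInd G
  have hAχ := H26.isCharacter_mul hA (H26.irr_isCharacter χ)
  have hBχ := H26.isCharacter_mul hB (H26.irr_isCharacter χ)
  have heq : (fun g => oddInd G g * χ.1 g) = A * χ.1 - B * χ.1 := by
    funext g
    rw [Pi.sub_apply, Pi.mul_apply, Pi.mul_apply, hAB, Pi.sub_apply, sub_mul]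
  refine ⟨(mult (A * χ.1) ψ : ℤ) - mult (B * χ.1) ψ, ?_, ?_⟩
  swap
  · rw [heq, H26.classInner_sub_left, classInner_eq_mult hAχ, classInner_eq_mult hBχ]
    push_cast
    rfl
  intro h0
  -- the sum over elements of odd order is a unit modulo `M`
  set s := Finset.univ.filter (fun g : G => Odd (orderOf g)) with hs
  have hzero : ∑ g ∈ s, χ.1 g * ψ.1 g = 0 := by
    have h1 : Cfsg.classInner (fun g => oddInd G g * χ.1 g) ψ.1 = 0 := by
      rw [heq, H26.classInner_sub_left, classInner_eq_mult hAχ, classInner_eq_mult hBχ]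
      rw [sub_eq_zero] at h0 ⊢
      exact_mod_cast h0
    rw [Cfsg.classInner, mul_eq_zero] at h1
    have h2 := h1.resolve_left (inv_ne_zero (Nat.cast_ne_zero.mpr Nat.card_pos.ne'))
    simp only [oddInd, hψr, ite_mul, zero_mul, ← Finset.sum_filter, mul_assoc,
      ← Finset.mul_sum] at h2
    exact (mul_eq_zero.mp h2).resolve_left (Nat.cast_ne_zero.mpr (by positivity))
  have hM' : M.IsPrime := hM.2.1.isPrime
  have h2 : (2 : Cfsg.AlgInt) ∈ M := by simpa using hM.2.2
  have h1s : (1 : G) ∈ s := by simp [hs]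
  have hrest : ∑ g ∈ s.erase 1, irrAlgInt χ g * irrAlgInt ψ g ∈ M := by
    refine sum_involution_mem _ _ (fun g => g⁻¹) h2 ?_ (fun a _ => inv_inv a) ?_ ?_
    · intro g hg
      simp only [hs, Finset.mem_erase, Finset.mem_filter, Finset.mem_univ, true_and] at hg ⊢
      exact ⟨inv_ne_one.mpr hg.1, by rw [orderOf_inv]; exact hg.2⟩
    · intro g hg he
      simp only [hs, Finset.mem_erase, Finset.mem_filter, Finset.mem_univ, true_and] at hg
      have hd : orderOf g ∣ 2 := orderOf_dvd_of_pow_eq_one (by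
        rw [pow_two]; nth_rewrite 2 [← he]; exact mul_inv_cancel g)
      rcases (Nat.dvd_prime Nat.prime_two).mp hd with h | h
      · exact hg.1 (orderOf_eq_one_iff.mp h)
      · rw [h] at hg
        exact absurd hg.2 (by decide)
    · intro g _
      have e : irrAlgInt χ g⁻¹ * irrAlgInt ψ g⁻¹ = irrAlgInt χ g * irrAlgInt ψ g := by
        apply Subtype.ext
        show χ.1 g⁻¹ * ψ.1 g⁻¹ = χ.1 g * ψ.1 g
        rw [H26.irr_inv, H26.irr_inv, hχr, hψr]
      rw [e, sub_self]
      exact M.zero_mem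
  have hone : irrAlgInt χ 1 * irrAlgInt ψ 1 ∈ M := by
    have e : irrAlgInt χ 1 * irrAlgInt ψ 1 =
        - ∑ g ∈ s.erase 1, irrAlgInt χ g * irrAlgInt ψ g := by
      apply Subtype.ext
      push_cast
      rw [eq_neg_iff_add_eq_zero]
      exact (Finset.add_sum_erase s (fun g => χ.1 g * ψ.1 g) h1s).trans hzero
    rw [e]
    exact M.neg_mem hrest
  have hunit : ∀ η : Cfsg.IrrCharacter G, Odd (Cfsg.charDegree η.1) → irrAlgInt η 1 ∉ M := by
    intro η hη h
    obtain ⟨k, hk⟩ := hη
    have e : irrAlgInt η 1 = 2 * (k : Cfsg.AlgInt) + 1 := by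
      apply Subtype.ext
      show η.1 1 = _
      rw [irr_charDegree_spec, hk]
      push_cast
      rfl
    rw [e] at h
    exact hM'.ne_top ((Ideal.eq_top_iff_one M).mpr
      ((M.add_mem_iff_right (M.mul_mem_right _ h2)).mp h))
  exact (hM'.mem_or_mem hone).elim (hunit χ hχo) (hunit ψ hψo)

/-- There are at most `|G|₂²` real irreducible characters of odd degree. -/
theorem card_real_odd_degree_le {M : Ideal Cfsg.AlgInt} (hM : Cfsg.IsPModular 2 M) :
    Nat.card {χ : Cfsg.IrrCharacter G // (∀ g, (χ.1 g).im = 0) ∧ Odd (Cfsg.charDegree χ.1)} ≤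
      2 ^ (2 * (Nat.card G).factorization 2) := by
  classical
  set n := (Nat.card G).factorization 2 with hn
  rw [Nat.card_eq_fintype_card, Fintype.card_subtype]
  set R := Finset.univ.filter
    (fun χ : Cfsg.IrrCharacter G => (∀ g, (χ.1 g).im = 0) ∧ Odd (Cfsg.charDegree χ.1)) with hR
  rcases R.eq_empty_or_nonempty with h | ⟨χ, hχ⟩
  · simp [h]
  have hreal : ∀ η ∈ R, ∀ g, conj (η.1 g) = η.1 g := fun η hη g =>
    Complex.conj_eq_iff_im.mpr ((Finset.mem_filter.mp hη).2.1 g)
  set f : G → ℂ := fun g => oddInd G g * χ.1 g with hf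
  have hfc : Cfsg.IsClassFunction G f := fun g h => by
    show oddInd G (h * g * h⁻¹) * χ.1 (h * g * h⁻¹) = _
    rw [oddInd_conj, H26.irr_conj]
  have h1 : (R.card : ℝ) ≤ (Cfsg.classInner f f).re := by
    rw [H26.classInner_eq_sum f f hfc, Complex.re_sum]
    calc (R.card : ℝ) = ∑ _η ∈ R, (1 : ℝ) := by simp
      _ ≤ ∑ η ∈ R, (Cfsg.classInner f η.1 * conj (Cfsg.classInner f η.1)).re := by
        refine Finset.sum_le_sum fun η hη => ?_
        obtain ⟨a, ha0, ha⟩ := exists_int_inner_oddInd hM χ η (hreal χ hχ) (hreal η hη)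
          (Finset.mem_filter.mp hχ).2.2 (Finset.mem_filter.mp hη).2.2
        rw [ha, Complex.mul_conj, Complex.ofReal_re, Complex.normSq_intCast]
        have h1 : 1 ≤ a * a := by
          rcases lt_or_gt_of_ne ha0 with h | h <;> nlinarith
        exact_mod_cast h1
      _ ≤ _ := Finset.sum_le_sum_of_subset_of_nonneg (Finset.subset_univ R) (fun η _ _ => by
          rw [Complex.mul_conj, Complex.ofReal_re]; exact Complex.normSq_nonneg _)
  have h2 : (Cfsg.classInner f f).re ≤ ((2 ^ (2 * n) : ℕ) : ℝ) := by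
    have hpt : ∀ g, (f g * conj (f g)).re ≤ ((2 ^ (2 * n) : ℕ) : ℝ) * (χ.1 g * conj (χ.1 g)).re := by
      intro g
      simp only [hf, oddInd, ← hn]
      split_ifs with h
      · refine le_of_eq ?_
        rw [map_mul, Complex.conj_natCast]
        rw [show ((2 ^ n : ℕ) : ℂ) * χ.1 g * (((2 ^ n : ℕ) : ℂ) * conj (χ.1 g)) =
          ((((2 ^ (2 * n) : ℕ) : ℝ)) : ℂ) * (χ.1 g * conj (χ.1 g)) by push_cast; ring,
          Complex.re_ofReal_mul]
      · rw [zero_mul, zero_mul, Complex.zero_re]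
        refine mul_nonneg (Nat.cast_nonneg _) ?_
        rw [Complex.mul_conj, Complex.ofReal_re]
        exact Complex.normSq_nonneg _
    have horth := congrArg Complex.re (sum_mul_conj χ χ)
    rw [if_pos rfl, Complex.re_sum, Complex.natCast_re] at horth
    rw [Cfsg.classInner, ← Complex.ofReal_natCast, ← Complex.ofReal_inv, Complex.re_ofReal_mul,
      Complex.re_sum, inv_mul_le_iff₀ (Nat.cast_pos.mpr Nat.card_pos), ← horth,
      mul_comm (∑ x, _), Finset.mul_sum]
    exact Finset.sum_le_sum fun g _ => hpt g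
  exact_mod_cast h1.trans h2

end Cfsg.Agent.H43
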