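import Mathlib
import Cfsg.Agent.H43.Constituents
import Cfsg.Agent.H43.CharKer
import Cfsg.Agent.H27.Monomial
import Cfsg.Agent.H25.IndRep
import Cfsg.Agent.H25.CharInd
import Cfsg.Agent.H19.Frattini
import Cfsg.Agent.H45.Galois

/-!
# Schur's bound for characters of `p`-groups
-/

set_option autoImplicit false
set_option maxHeartbeats 800000

namespace Cfsg.Agent.H43

open scoped ComplexConjugate
open Module

/-- Powers only depend on the exponent modulo a common exponent. -/
theorem pow_unit_mul {P : Type*} [Group P] {N : ℕ} [NeZero N] {g : P} (hg : g ^ N = 1)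
    (k l : (ZMod N)ˣ) :
    g ^ ((k * l : (ZMod N)ˣ) : ZMod N).val = (g ^ (k : ZMod N).val) ^ (l : ZMod N).val := by
  rw [Units.val_mul, ZMod.val_mul, ← pow_mul, ← pow_eq_pow_mod _ hg]

theorem pow_unit_one {P : Type*} [Group P] {N : ℕ} [NeZero N] {g : P} (hg : g ^ N = 1) :
    g ^ (((1 : (ZMod N)ˣ) : ZMod N)).val = g := by
  conv_rhs => rw [← pow_one g, pow_eq_pow_mod 1 hg]
  rw [Units.val_one, ← ZMod.val_natCast, Nat.cast_one]

/-- The units fixing a function under the power maps. -/
def powFix {P : Type*} [Group P] {N : ℕ} [NeZero N] (hN : ∀ g : P, g ^ N = 1) (f : P → ℂ) :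
    Subgroup (ZMod N)ˣ where
  carrier := {k | ∀ g, f (g ^ (k : ZMod N).val) = f g}
  one_mem' := fun g => by rw [pow_unit_one (hN g)]
  mul_mem' := fun {k l} hk hl g => by rw [pow_unit_mul (hN g), hl, hk]
  inv_mem' := fun {k} hk g => by
    have h := hk (g ^ ((k⁻¹ : (ZMod N)ˣ) : ZMod N).val)
    rw [← pow_unit_mul (hN g), inv_mul_cancel, pow_unit_one (hN g)] at h
    exact h.symm

theorem mem_powFix {P : Type*} [Group P] {N : ℕ} [NeZero N] {hN : ∀ g : P, g ^ N = 1} {f : P → ℂ}
    {k : (ZMod N)ˣ} : k ∈ powFix hN f ↔ ∀ g, f (g ^ (k : ZMod N).val) = f g := Iff.rfl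

/-- A unit of `ZMod (p ^ L)` with `L` positive has a value prime to the order of a `p`-group. -/
theorem coprime_val_card {P : Type*} [Group P] [Finite P] {p L : ℕ} [hp : Fact p.Prime]
    (hP : IsPGroup p P) (hL : 0 < L) (k : (ZMod (p ^ L))ˣ) :
    (k : ZMod (p ^ L)).val.Coprime (Nat.card P) := by
  obtain ⟨n, hn⟩ := hP.exists_card_eq
  rw [hn]
  exact ((Nat.coprime_pow_right_iff hL _ _).mp (ZMod.val_coe_unit_coprime k)).pow_right n

/-- The linear case. -/
theorem schur_linear {P : Type*} [Group P] [Finite P] {p L : ℕ} [hp : Fact p.Prime]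
    [NeZero (p ^ L)] (hP : IsPGroup p P) (hN : ∀ g : P, g ^ p ^ L = 1) (ξ : Cfsg.IrrCharacter P)
    (hne : charKer ξ ≠ ⊤) (h1 : Cfsg.charDegree ξ.1 = 1) :
    ∃ a t : ℕ, (charKer ξ).index = p ^ a ∧ (powFix hN ξ.1).index = (p - 1) * p ^ t ∧
      a = t + 1 := by
  classical
  obtain ⟨f, hf⟩ := H26.exists_hom_of_isCharacter_one (H26.irr_isCharacter ξ)
    (by rw [irr_charDegree_spec, h1, Nat.cast_one])
  have hker : charKer ξ = f.ker := by
    ext g
    rw [mem_charKer, MonoidHom.mem_ker, ← hf, ← hf, map_one, Units.val_inj]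
  have : Finite f.range := Finite.of_surjective _ f.rangeRestrict_surjective
  have hcyc : IsCyclic f.range := inferInstance
  obtain ⟨⟨c, hc⟩, hcord⟩ := IsCyclic.exists_ofOrder_eq_natCard (α := f.range)
  replace hcord : orderOf c = (charKer ξ).index := by
    rw [hker, Subgroup.index_ker, ← hcord]
    exact Subgroup.orderOf_coe (⟨c, hc⟩ : f.range)
  obtain ⟨g₀, hg₀⟩ := hc
  obtain ⟨a, ha⟩ : ∃ a, (charKer ξ).index = p ^ a := by
    obtain ⟨n, hn⟩ := hP.exists_card_eq
    obtain ⟨a, -, ha⟩ := (Nat.dvd_prime_pow hp.out).mp (hn ▸ (charKer ξ).index_dvd_card)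
    exact ⟨a, ha⟩
  have ha0 : 0 < a := by
    rcases Nat.eq_zero_or_pos a with rfl | h
    · exact absurd (Subgroup.index_eq_one.mp (by rw [ha, pow_zero])) hne
    · exact h
  rw [ha] at hcord
  have haL : a ≤ L := by
    have h : c ^ p ^ L = 1 := by rw [← hg₀, ← map_pow, hN, map_one]
    exact (Nat.pow_dvd_pow_iff_le_right hp.out.one_lt).mp (hcord ▸ orderOf_dvd_of_pow_eq_one h)
  have hdvd : p ^ a ∣ p ^ L := pow_dvd_pow p haL
  have : NeZero (p ^ a) := ⟨(pow_pos hp.out.pos a).ne'⟩
  refine ⟨a, a - 1, ha, ?_, by omega⟩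
  have hstab : powFix hN ξ.1 = (ZMod.unitsMap hdvd).ker := by
    ext k
    rw [mem_powFix, MonoidHom.mem_ker, Units.ext_iff, ZMod.unitsMap_val, Units.val_one]
    have hc1 : ∀ m : ℕ, c ^ m = c ↔ ((m : ℕ) : ZMod (p ^ a)) = 1 := fun m => by
      conv_lhs => rhs; rw [← pow_one c]
      rw [pow_eq_pow_iff_modEq, hcord, ← ZMod.natCast_eq_natCast_iff, Nat.cast_one]
    rw [ZMod.cast_eq_val, ← hc1]
    constructor
    · intro h
      have := h g₀
      rw [← hf, ← hf, map_pow, Units.val_inj, hg₀] at this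
      exact this
    · intro h g
      have hg : f g ∈ Submonoid.powers c := by
        have : (⟨f g, g, rfl⟩ : f.range) ∈ Subgroup.zpowers (⟨c, g₀, hg₀⟩ : f.range) := by
          rw [Subgroup.eq_top_of_card_eq (Subgroup.zpowers (⟨c, g₀, hg₀⟩ : f.range)) ?_]
          · exact Subgroup.mem_top _
          · rw [Nat.card_zpowers, ← Subgroup.index_ker f, ← hker, ha, ← hcord]
            exact (Subgroup.orderOf_coe _).symm
        obtain ⟨i, hi⟩ := mem_powers_iff_mem_zpowers.mpr this
        exact ⟨i, congrArg Subtype.val hi⟩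
      obtain ⟨i, hi⟩ := hg
      rw [← hf, ← hf, map_pow, Units.val_inj, ← hi, ← pow_mul, mul_comm, pow_mul, h]
  rw [hstab, Subgroup.index_ker, MonoidHom.range_eq_top.mpr (ZMod.unitsMap_surjective hdvd),
    Subgroup.card_top, Nat.card_eq_fintype_card, ZMod.card_units_eq_totient,
    Nat.totient_prime_pow hp.out ha0, mul_comm]

/-- The induction step: an irreducible character induced from a normal subgroup of prime index. -/
theorem schur_step {P : Type*} [Group P] [Fintype P] {p L : ℕ} [hp : Fact p.Prime]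
    [NeZero (p ^ L)] (hL : 0 < L) (hP : IsPGroup p P) (hN : ∀ g : P, g ^ p ^ L = 1)
    (M : Subgroup P) [hM : M.Normal] [Fintype M] (hidx : M.index = p) (η₀ : M → ℂ)
    (hη₀ : Cfsg.IsCharacter M η₀) (ξ : Cfsg.IrrCharacter P) (hξ : ξ.1 = Cfsg.indFun M η₀) :
    ∃ η : Cfsg.IrrCharacter M, η.1 = η₀ ∧ charKer η ≠ ⊤ ∧
      Cfsg.charDegree ξ.1 = p * Cfsg.charDegree η.1 ∧
      ∀ a' : ℕ, (charKer η).index = p ^ a' →
        ∃ a : ℕ, (charKer ξ).index = p ^ a ∧
          (((powFix (fun m : M => Subtype.ext (hN m)) η.1).index = (powFix hN ξ.1).index ∧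
              a ≤ 1 + p * a') ∨
           ((powFix (fun m : M => Subtype.ext (hN m)) η.1).index = (powFix hN ξ.1).index * p ∧
              a ≤ 1 + a')) := by
  classical
  -- `η₀` is irreducible
  have hmult : ∀ ψ : Cfsg.IrrCharacter M, mult η₀ ψ ≠ 0 → mult (fun m : M => ξ.1 m) ψ ≠ 0 := by
    intro ψ hψ
    obtain ⟨χ', hχ'⟩ := exists_above M ψ
    have hcl : Cfsg.classInner ξ.1 χ'.1 = Cfsg.classInner η₀ (fun m : M => χ'.1 m) := by
      rw [hξ]; exact H25.classInner_indFun_left M η₀ χ'.1 (H26.irr_isClassFunction χ')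
    by_cases he : ξ = χ'
    · exact he ▸ hχ'
    · exfalso
      have hres : Cfsg.IsCharacter M (fun m : M => χ'.1 m) :=
        H26.isCharacter_comp (H26.irr_isCharacter χ') M.subtype
      rw [H26.classInner_irr, if_neg he,
        H26.classInner_eq_sum η₀ _ (H26.isClassFunction_of_isCharacter hη₀)] at hcl
      simp only [classInner_eq_mult hη₀, classInner_eq_mult hres, map_natCast] at hcl
      have h0 : ∑ θ : Cfsg.IrrCharacter M, mult η₀ θ * mult (fun m : M => χ'.1 m) θ = 0 := by
        exact_mod_cast hcl.symm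
      have := Finset.sum_eq_zero_iff.mp h0 ψ (Finset.mem_univ _)
      exact (Nat.mul_eq_zero.mp this).elim hψ hχ'
  have hres : Cfsg.IsCharacter M (fun m : M => ξ.1 m) :=
    H26.isCharacter_comp (H26.irr_isCharacter ξ) M.subtype
  have hone : ∑ θ : Cfsg.IrrCharacter M, mult η₀ θ * mult (fun m : M => ξ.1 m) θ = 1 := by
    have hcl : Cfsg.classInner ξ.1 ξ.1 = Cfsg.classInner η₀ (fun m : M => ξ.1 m) := by
      conv_lhs => arg 1; rw [hξ]
      exact H25.classInner_indFun_left M η₀ ξ.1 (H26.irr_isClassFunction ξ)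
    rw [H26.classInner_irr, if_pos rfl,
      H26.classInner_eq_sum η₀ _ (H26.isClassFunction_of_isCharacter hη₀)] at hcl
    simp only [classInner_eq_mult hη₀, classInner_eq_mult hres, map_natCast] at hcl
    exact_mod_cast hcl.symm
  obtain ⟨η, hη⟩ : ∃ η : Cfsg.IrrCharacter M, η.1 = η₀ := by
    obtain ⟨θ, -, hθ⟩ := Finset.exists_ne_zero_of_sum_ne_zero (hone ▸ one_ne_zero)
    have hsplit := Finset.add_sum_erase Finset.univ
      (fun θ : Cfsg.IrrCharacter M => mult η₀ θ * mult (fun m : M => ξ.1 m) θ) (Finset.mem_univ θ)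
    rw [hone] at hsplit
    have hpos : 0 < mult η₀ θ * mult (fun m : M => ξ.1 m) θ := Nat.pos_of_ne_zero hθ
    have hm1 : mult η₀ θ = 1 :=
      Nat.eq_one_of_mul_eq_one_right (n := mult (fun m : M => ξ.1 m) θ) (by omega)
    have hz : ∀ θ' : Cfsg.IrrCharacter M, θ' ≠ θ → mult η₀ θ' = 0 := by
      intro θ' hne
      by_contra h
      have h0 := Finset.sum_eq_zero_iff.mp (show ∑ θ' ∈ Finset.univ.erase θ,
        mult η₀ θ' * mult (fun m : M => ξ.1 m) θ' = 0 by omega) θ'
          (Finset.mem_erase.mpr ⟨hne, Finset.mem_univ _⟩)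
      exact (Nat.mul_eq_zero.mp h0).elim h (hmult θ' h)
    refine ⟨θ, ?_⟩
    rw [eq_sum_mult hη₀, Finset.sum_eq_single θ
      (fun θ' _ hne => by rw [hz θ' hne, Nat.cast_zero, zero_smul])
      (fun h => absurd (Finset.mem_univ _) h), hm1, Nat.cast_one, one_smul]
  subst hη
  -- values
  have hout : ∀ g : P, g ∉ M → ξ.1 g = 0 := by
    intro g hg
    rw [hξ]
    refine H25.indFun_eq_zero M _ fun x hx => hg ?_
    have := hM.conj_mem _ hx x
    simpa [mul_assoc] using this
  have hval : ∀ m : M, ξ.1 m = (Nat.card M : ℂ)⁻¹ * ∑ g : P, (irrConj M g η).1 m := by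
    intro m
    rw [hξ, H25.indFun_apply]
    congr 1
    refine Fintype.sum_equiv (Equiv.inv P) _ _ fun g => ?_
    have hmem : g⁻¹ * (m : P) * g ∈ M := by simpa using hM.conj_mem _ m.2 g⁻¹
    rw [H25.extendByZero_of_mem M _ hmem, irrConj_apply]
    refine congrArg η.1 (Subtype.ext ?_)
    simp
  have hfix : ∀ g ∈ M, irrConj M g η = η := by
    intro g hg
    refine Subtype.ext (funext fun n => ?_)
    rw [irrConj_apply, show MulAut.conjNormal g n = (⟨g, hg⟩ : M) * n * ⟨g, hg⟩⁻¹ from
      Subtype.ext (by simp), H26.irr_conj]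
  have hcount : ∀ ψ : Cfsg.IrrCharacter M, mult (fun m : M => ξ.1 m) ψ * Nat.card M =
      (Finset.univ.filter fun g : P => irrConj M g η = ψ).card := by
    intro ψ
    have h := classInner_eq_mult hres ψ
    rw [show (fun m : M => ξ.1 m) = (Nat.card M : ℂ)⁻¹ • ∑ g : P, (irrConj M g η).1 from
      funext fun m => by rw [hval, Pi.smul_apply, Finset.sum_apply, smul_eq_mul],
      H26.classInner_smul_left, H26.classInner_sum_left] at h
    simp only [H26.classInner_irr, Finset.sum_boole] at h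
    rw [inv_mul_eq_iff_eq_mul₀ (Nat.cast_ne_zero.mpr Nat.card_pos.ne')] at h
    rw [show (Nat.card M : ℂ)⁻¹ • ∑ g : P, (irrConj M g η).1 = (fun m : M => ξ.1 m) from
      (funext fun m => by rw [hval, Pi.smul_apply, Finset.sum_apply, smul_eq_mul]).symm] at h
    rw [mul_comm]
    exact_mod_cast h.symm
  have hstab : ∀ g : P, irrConj M g η = η → g ∈ M := by
    intro g hg
    have h1 : mult (fun m : M => ξ.1 m) η = 1 := by
      have hη1 : ∀ θ : Cfsg.IrrCharacter M, θ ≠ η → mult η.1 θ = 0 := fun θ h =>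
        mult_eq_of_classInner (by rw [H26.classInner_irr, if_neg (Ne.symm h), Nat.cast_zero])
      have hη2 : mult η.1 η = 1 :=
        mult_eq_of_classInner (by rw [H26.classInner_irr, if_pos rfl, Nat.cast_one])
      rw [Finset.sum_eq_single η (fun θ _ h => by rw [hη1 θ h, zero_mul])
        (fun h => absurd (Finset.mem_univ _) h), hη2, one_mul] at hone
      exact hone
    have h2 := hcount η
    rw [h1, one_mul] at h2
    have hsub : (Finset.univ.filter fun g : P => g ∈ M) ⊆
        Finset.univ.filter fun g : P => irrConj M g η = η := fun x hx =>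
      Finset.mem_filter.mpr ⟨Finset.mem_univ _, hfix x (Finset.mem_filter.mp hx).2⟩
    have heq := Finset.eq_of_subset_of_card_le hsub (by
      rw [← h2, Nat.card_eq_fintype_card, Fintype.card_subtype])
    have : g ∈ Finset.univ.filter fun g : P => g ∈ M :=
      heq ▸ Finset.mem_filter.mpr ⟨Finset.mem_univ _, hg⟩
    exact (Finset.mem_filter.mp this).2
  have hMne : M ≠ ⊤ := fun h => by
    rw [h, Subgroup.index_top] at hidx; exact hp.out.one_lt.ne hidx
  refine ⟨η, rfl, fun htop => hMne ((Subgroup.eq_top_iff' M).mpr fun g => hstab g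
    (Subtype.ext (funext fun m => ?_))), ?_, fun a' ha' => ?_⟩
  · rw [irrConj_apply, (mem_charKer).mp (htop ▸ Subgroup.mem_top _ : MulAut.conjNormal g m ∈ charKer η),
      (mem_charKer).mp (htop ▸ Subgroup.mem_top _ : m ∈ charKer η)]
  · have h := congrFun hξ 1
    rw [H25.indFun_one, hidx, irr_charDegree_spec, irr_charDegree_spec, ← Nat.cast_mul,
      Nat.cast_inj] at h
    exact h
  set K := charKer ξ with hK
  have hKM : K ≤ M := fun g hg => by
    by_contra hgM
    exact H26.irr_one_ne_zero ξ ((mem_charKer.mp hg).symm.trans (hout g hgM))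
  obtain ⟨n, hn⟩ := hP.exists_card_eq
  obtain ⟨b, -, hb⟩ := (Nat.dvd_prime_pow hp.out).mp
    (hn ▸ ((K.subgroupOf M).index_dvd_card.trans M.card_subgroup_dvd_card))
  have hKidx : K.index = p ^ (1 + b) := by
    rw [← Subgroup.relIndex_mul_index hKM, Subgroup.relIndex, hb, hidx, pow_add, pow_one, mul_comm]
  refine ⟨1 + b, hKidx, ?_⟩
  -- kernels
  have hkerconj : ∀ m : M, (∀ g : P, (irrConj M g η).1 m = η.1 1) → (m : P) ∈ K := by
    intro m hm
    rw [hK, mem_charKer, hval, Finset.sum_congr rfl fun g _ => hm g, ← M.coe_one, hval,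
      Finset.sum_congr rfl fun g _ => show (irrConj M g η).1 1 = η.1 1 by
        rw [irrConj_apply, map_one]]
  -- Galois
  set hNM : ∀ m : M, m ^ p ^ L = 1 := fun m => Subtype.ext (hN m)
  set A := powFix hN ξ.1 with hA
  set B := powFix hNM η.1 with hB
  have hpow : ∀ (k : (ZMod (p ^ L))ˣ) (g : P), g ^ (k : ZMod (p ^ L)).val ∈ M → g ∈ M := by
    intro k g hg
    by_contra hgM
    obtain ⟨j, hj⟩ := exists_pow_eq_self_of_coprime
      ((coprime_val_card hP hL k).of_dvd_right (orderOf_dvd_natCard g))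
    exact hgM (hj ▸ M.pow_mem hg j)
  have hBA : B ≤ A := by
    intro k hk g
    by_cases hg : g ∈ M
    · rw [show g = ((⟨g, hg⟩ : M) : P) from rfl, ← Subgroup.coe_pow, hval, hval]
      congr 1
      refine Finset.sum_congr rfl fun x _ => ?_
      rw [irrConj_apply, irrConj_apply, map_pow]
      exact hk _
    · rw [hout g hg, hout _ fun h => hg (hpow k g h)]
  -- every element of `A` acts on `η` as an element of `P`
  have hA' : ∀ k : A, ∃ g : P, ∀ m : M,
      η.1 (m ^ ((k : (ZMod (p ^ L))ˣ) : ZMod (p ^ L)).val) = (irrConj M g η).1 m := by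
    intro k
    set kk := ((k : (ZMod (p ^ L))ˣ) : ZMod (p ^ L)).val
    set ψ : Cfsg.IrrCharacter M :=
      H45.galIrr (coprime_val_card (hP.to_subgroup M) hL (k : (ZMod (p ^ L))ˣ)) η
    by_contra hno
    push Not at hno
    have h0 : mult (fun m : M => ξ.1 m) ψ = 0 := by
      have h := hcount ψ
      rw [Finset.filter_eq_empty_iff.mpr fun g _ hg => by
        obtain ⟨m, hm⟩ := hno g
        exact hm (congrFun (congrArg Subtype.val hg) m).symm, Finset.card_empty] at h
      exact (Nat.mul_eq_zero.mp h).resolve_right Nat.card_pos.ne'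
    have h1 : Cfsg.classInner (fun m : M => ξ.1 m) η.1 =
        Cfsg.classInner (fun m : M => ξ.1 m) ψ.1 := by
      rw [Cfsg.classInner, Cfsg.classInner]
      congr 1
      refine (Fintype.sum_bijective (fun m : M => m ^ kk)
        (H45.powCoprime_bijective (coprime_val_card (hP.to_subgroup M) hL _)) _ _ fun m => ?_).symm
      show ξ.1 m * conj (η.1 (m ^ kk)) = ξ.1 ((m ^ kk : M) : P) * conj (η.1 (m ^ kk))
      rw [Subgroup.coe_pow, k.2 m]
    rw [classInner_eq_mult hres, classInner_eq_mult hres, Nat.cast_inj, h0] at h1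
    have h2 := hcount η
    rw [h1, zero_mul, eq_comm, Finset.card_eq_zero] at h2
    exact Finset.notMem_empty (1 : P)
      (h2 ▸ Finset.mem_filter.mpr ⟨Finset.mem_univ _, hfix 1 M.one_mem⟩)
  choose gk hgk using hA'
  have hclass : ∀ g g' : P, (∀ m, (irrConj M g η).1 m = (irrConj M g' η).1 m) →
      (g : P ⧸ M) = g' := by
    intro g g' h
    have e : irrConj M g η = irrConj M g' η := Subtype.ext (funext h)
    have h2 : irrConj M (g' * g⁻¹) η = η := by
      refine Subtype.ext (funext fun m => ?_)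
      have h3 := (h (MulAut.conjNormal g⁻¹ m)).symm
      rw [irrConj_apply, irrConj_apply, ← MulAut.mul_apply, ← map_mul, ← MulAut.mul_apply,
        ← map_mul, mul_inv_cancel, map_one, MulAut.one_apply] at h3
      rw [irrConj_apply]
      exact h3
    rw [QuotientGroup.eq]
    have h4 := hM.conj_mem _ (hstab _ h2) g⁻¹
    simpa [mul_assoc] using h4
  have hPM : ∀ u v : P ⧸ M, u * v = v * u := by
    intro u v
    have : IsCyclic (P ⧸ M) := isCyclic_of_prime_card (p := p)
      (by rw [← Subgroup.index_eq_card, hidx])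
    obtain ⟨w, hw⟩ := IsCyclic.exists_generator (α := P ⧸ M)
    obtain ⟨i, rfl⟩ := Subgroup.mem_zpowers_iff.mp (hw u)
    obtain ⟨j, rfl⟩ := Subgroup.mem_zpowers_iff.mp (hw v)
    exact (Commute.zpow_zpow_self w i j).eq
  let Φ : A →* P ⧸ M := MonoidHom.mk' (fun k => (gk k : P ⧸ M)) fun k l => by
    show (gk (k * l) : P ⧸ M) = (gk k : P ⧸ M) * (gk l : P ⧸ M)
    rw [hPM, ← QuotientGroup.mk_mul]
    refine hclass _ _ fun m => ?_
    rw [← hgk (k * l) m, Subgroup.coe_mul, mul_comm (k : (ZMod (p ^ L))ˣ), pow_unit_mul (hNM m),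
      hgk k, irrConj_apply, irrConj_apply, map_pow, hgk l, irrConj_apply, map_mul,
      MulAut.mul_apply]
  have hker : Φ.ker = B.subgroupOf A := by
    ext k
    rw [MonoidHom.mem_ker, Subgroup.mem_subgroupOf]
    show (gk k : P ⧸ M) = 1 ↔ _
    rw [QuotientGroup.eq_one_iff]
    constructor
    · intro h m
      rw [hgk k m, hfix _ h]
    · intro h
      refine hstab _ (Subtype.ext (funext fun m => ?_))
      rw [← hgk k m]
      exact h m
  have hd : B.index = A.index * Nat.card Φ.range := by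
    rw [← Subgroup.index_ker, hker, ← Subgroup.relIndex, mul_comm, Subgroup.relIndex_mul_index hBA]
  have hcardQ : Nat.card (P ⧸ M) = p := by rw [← Subgroup.index_eq_card, hidx]
  have hrdvd : Nat.card Φ.range ∣ p := hcardQ ▸ Φ.range.card_subgroup_dvd_card
  rcases (Nat.dvd_prime hp.out).mp hrdvd with h1 | h1
  · left
    refine ⟨by rw [hd, h1, mul_one], ?_⟩
    let Ψ : M →* (P ⧸ M → M ⧸ charKer η) :=
      { toFun := fun m c => QuotientGroup.mk (MulAut.conjNormal c.out m)
        map_one' := by funext c; simp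
        map_mul' := fun m m' => by funext c; simp }
    have hΨ : Ψ.ker ≤ K.subgroupOf M := by
      intro m hm
      rw [Subgroup.mem_subgroupOf]
      refine hkerconj m fun g => ?_
      have h2 := congrFun hm (g : P ⧸ M)
      have h3 : MulAut.conjNormal (g : P ⧸ M).out m ∈ charKer η :=
        (QuotientGroup.eq_one_iff _).mp h2
      rw [irrConj_apply]
      obtain ⟨d, hd'⟩ : ∃ d : M, g = (g : P ⧸ M).out * d :=
        ⟨⟨_, QuotientGroup.eq.mp (QuotientGroup.out_eq' (g : P ⧸ M))⟩, by simp⟩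
      rw [hd', map_mul, MulAut.mul_apply]
      refine mem_charKer.mp ?_
      rw [show MulAut.conjNormal (d : P) m = d * m * d⁻¹ from Subtype.ext (by simp), map_mul, map_mul,
        map_inv]
      exact (charKer_normal η).conj_mem _ h3 _
    have hle : (K.subgroupOf M).index ≤ Ψ.ker.index :=
      Nat.le_of_dvd (Nat.pos_of_ne_zero Ψ.ker.index_ne_zero_of_finite)
        (Subgroup.index_dvd_of_le hΨ)
    have hle2 : Ψ.ker.index ≤ (p ^ a') ^ p := by
      rw [Subgroup.index_ker]
      refine (Subgroup.card_le_card_group _).trans (le_of_eq ?_)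
      rw [Nat.card_fun, ← Subgroup.index_eq_card (charKer η), ha', hcardQ]
    rw [hb] at hle
    have := hle.trans hle2
    rw [← pow_mul, Nat.pow_le_pow_iff_right hp.out.one_lt] at this
    rw [mul_comm p]
    omega
  · right
    refine ⟨by rw [hd, h1], ?_⟩
    have hsurj : ∀ g : P, ∃ k : A, Φ k = (g : P ⧸ M) := fun g => by
      have : Φ.range = ⊤ := Subgroup.eq_top_of_card_eq _ (by rw [h1, hcardQ])
      exact MonoidHom.range_eq_top.mp this _
    have hle : charKer η ≤ K.subgroupOf M := by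
      intro m hm
      rw [Subgroup.mem_subgroupOf]
      refine hkerconj m fun g => ?_
      obtain ⟨k, hk⟩ := hsurj g
      have hg : irrConj M g η = irrConj M (gk k) η := by
        obtain ⟨d, hd'⟩ : ∃ d : M, g = (gk k) * d :=
          ⟨⟨_, QuotientGroup.eq.mp hk⟩, by simp⟩
        refine Subtype.ext (funext fun n => ?_)
        rw [irrConj_apply, irrConj_apply, hd', map_mul, MulAut.mul_apply,
          show MulAut.conjNormal (d : P) n = d * n * d⁻¹ from Subtype.ext (by simp), map_mul,
          map_mul, map_inv, H26.irr_conj]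
      rw [hg, ← hgk k m]
      exact mem_charKer.mp ((charKer η).pow_mem hm _)
    have h2 := Nat.le_of_dvd (Nat.pos_of_ne_zero (charKer η).index_ne_zero_of_finite)
      (Subgroup.index_dvd_of_le hle)
    rw [hb, ha', Nat.pow_le_pow_iff_right hp.out.one_lt] at h2
    omega

/-- Schur's bound. -/
theorem schur_bound.{u} {p L : ℕ} [hp : Fact p.Prime] [NeZero (p ^ L)] (hL : 0 < L) :
    ∀ (n : ℕ) (P : Type u) [Group P] [Fintype P], Nat.card P ≤ n → IsPGroup p P →
      ∀ (hN : ∀ g : P, g ^ p ^ L = 1) (ξ : Cfsg.IrrCharacter P), charKer ξ ≠ ⊤ →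
      ∃ a t : ℕ, (charKer ξ).index = p ^ a ∧ (powFix hN ξ.1).index = (p - 1) * p ^ t ∧
        (p - 1) * a + 1 ≤ Cfsg.charDegree ξ.1 + (p - 1) * (t + 1) * Cfsg.charDegree ξ.1 := by
  classical
  intro n
  induction n with
  | zero => intro P _ _ h; exact absurd h (not_le.mpr Nat.card_pos)
  | succ n ih =>
    intro P _ _ hcard hP hN ξ hne
    by_cases h1 : Cfsg.charDegree ξ.1 = 1
    · obtain ⟨a, t, ha, ht, hat⟩ := schur_linear hP hN ξ hne h1
      exact ⟨a, t, ha, ht, by rw [h1, hat]; simp; try omega⟩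
    have : Group.IsNilpotent P := hP.isNilpotent
    obtain ⟨H, lam, hlam⟩ := H27.nilpotent_monomial (Nat.card P) P le_rfl ξ.1 ξ.2
    have hH : H ≠ ⊤ := by
      intro h
      apply h1
      have h2 := congrFun hlam 1
      have h3 : H.index = 1 := by rw [h]; exact Subgroup.index_top
      rw [H25.indFun_one, h3, map_one, Units.val_one, mul_one,
        irr_charDegree_spec, Nat.cast_inj] at h2
      exact h2
    obtain ⟨M, hM, hHM⟩ := (eq_top_or_exists_le_coatom H).resolve_left hH
    have : M.Normal := H19.coatom_normal_of_nilpotent hM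
    have hidx : M.index = p := H19.index_coatom_of_isPGroup hP hM
    let _ : Fintype M := Fintype.ofFinite _
    let _ : Fintype (H.subgroupOf M) := Fintype.ofFinite _
    let lam' : H.subgroupOf M →* ℂˣ := lam.comp (Subgroup.subgroupOfEquivOfLe hHM).toMonoidHom
    have hη₀ : Cfsg.IsCharacter M (Cfsg.indFun (H.subgroupOf M) fun x => (lam' x : ℂ)) :=
      H25.isCharacter_indFun (H.subgroupOf M) (H26.isCharacter_of_irr (H26.isIrrCharacter_hom lam'))
    obtain ⟨η, -, hηne, hdeg, hstep⟩ := schur_step hL hP hN M hidx _ hη₀ ξ (by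
      rw [hlam, ← H25.indFun_trans H M hHM]
      rfl)
    have hMlt : Nat.card M ≤ n := by
      have h2 := M.card_mul_index
      rw [hidx] at h2
      have : 2 * Nat.card M ≤ p * Nat.card M := Nat.mul_le_mul_right _ hp.out.two_le
      have : 0 < Nat.card M := Nat.card_pos
      rw [mul_comm] at h2
      omega
    obtain ⟨a', t', ha', ht', hb'⟩ := ih M hMlt (hP.to_subgroup M) (fun m => Subtype.ext (hN m)) η hηne
    obtain ⟨a, ha, hcase⟩ := hstep a' ha'
    rw [ht'] at hcase
    have hpos := irr_charDegree_pos η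
    have hp2 := hp.out.two_le
    rcases hcase with ⟨hs, hle⟩ | ⟨hs, hle⟩
    · refine ⟨a, t', ha, hs.symm, ?_⟩
      rw [hdeg]
      obtain ⟨q, rfl⟩ : ∃ q, p = q + 1 := ⟨p - 1, by omega⟩
      simp only [Nat.add_sub_cancel] at hb' ⊢
      have h2 := Nat.mul_le_mul_left q hle
      have h3 := Nat.mul_le_mul_left (q + 1) hb'
      linarith
    · obtain ⟨t, rfl⟩ : ∃ t, t' = t + 1 := by
        rcases Nat.eq_zero_or_pos t' with rfl | h
        · exfalso
          rw [pow_zero, mul_one] at hs
          rcases Nat.eq_zero_or_pos (powFix hN ξ.1).index with h0 | h0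
          · exact (powFix hN ξ.1).index_ne_zero_of_finite h0
          · have := Nat.le_mul_of_pos_left p h0
            omega
        · exact ⟨t' - 1, by omega⟩
      refine ⟨a, t, ha, ?_, ?_⟩
      · refine Nat.eq_of_mul_eq_mul_right hp.out.pos ?_
        rw [← hs, pow_succ, mul_assoc]
      · rw [hdeg]
        obtain ⟨q, rfl⟩ : ∃ q, p = q + 1 := ⟨p - 1, by omega⟩
        simp only [Nat.add_sub_cancel] at hb' ⊢
        have h2 := Nat.mul_le_mul_left q hle
        have h4 : 1 ≤ (q * t + q) * Cfsg.charDegree η.1 := Nat.mul_pos (by omega) hpos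
        nlinarith [Nat.mul_le_mul_left q h4]

end Cfsg.Agent.H43
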