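import Mathlib
import Cfsg.Agent.H43.SchurOrbit

/-!
# Schur's exponent bound for rational valued characters of `p`-groups
-/

set_option autoImplicit false
set_option maxHeartbeats 800000

namespace Cfsg.Agent.H43

open Module

/-- The exponent bound `∑ x / ((p - 1) p ^ i)`, with `n + 1` terms. -/
def schurB (p n x : ℕ) : ℕ := ∑ i ∈ Finset.range (n + 1), x / ((p - 1) * p ^ i)

theorem schurB_mono (p n : ℕ) {x y : ℕ} (h : x ≤ y) : schurB p n x ≤ schurB p n y :=
  Finset.sum_le_sum fun _ _ => Nat.div_le_div_right h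

theorem schurB_add (p n x y : ℕ) : schurB p n x + schurB p n y ≤ schurB p n (x + y) := by
  rw [schurB, schurB, schurB, ← Finset.sum_add_distrib]
  exact Finset.sum_le_sum fun _ _ => Nat.add_div_le_add_div _ _ _

theorem le_schurB {p b t m n : ℕ} (hp : 2 ≤ p)
    (h : (p - 1) * b + 1 ≤ p ^ m + (p - 1) * (t + 1) * p ^ m)
    (hn : (p - 1) * p ^ t * p ^ m ≤ n) : b ≤ schurB p n ((p - 1) * p ^ t * p ^ m) := by
  obtain ⟨q, rfl⟩ : ∃ q, p = q + 1 := ⟨p - 1, by omega⟩
  simp only [schurB, Nat.add_sub_cancel] at h hn ⊢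
  have hq : 0 < q := by omega
  have hlt : t + m < n + 1 := by
    have h1 : t + m < (q + 1) ^ (t + m) := Nat.lt_pow_self (by omega)
    have h2 : (q + 1) ^ (t + m) ≤ q * (q + 1) ^ t * (q + 1) ^ m := by
      rw [pow_add]; exact Nat.mul_le_mul_right _ (Nat.le_mul_of_pos_left _ hq)
    omega
  have hS : ∑ i ∈ Finset.range (t + m + 1), (q * (q + 1) ^ t * (q + 1) ^ m) / (q * (q + 1) ^ i) =
      ∑ j ∈ Finset.range (m + (t + 1)), (q + 1) ^ j := by
    rw [show m + (t + 1) = t + m + 1 by omega, ← Finset.sum_range_reflect _ (t + m + 1)]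
    refine Finset.sum_congr rfl fun i hi => ?_
    rw [Finset.mem_range] at hi
    rw [mul_assoc, ← pow_add, Nat.mul_div_mul_left _ _ hq, Nat.pow_div (by omega) (by omega)]
    congr 1
    omega
  refine le_trans ?_ (Finset.sum_le_sum_of_subset
    (Finset.range_subset_range.mpr (show t + m + 1 ≤ n + 1 by omega)))
  rw [hS, Finset.sum_range_add]
  have hg := geom_sum_mul_add q m
  have hge : (t + 1) * (q + 1) ^ m ≤ ∑ x ∈ Finset.range (t + 1), (q + 1) ^ (m + x) := by
    calc (t + 1) * (q + 1) ^ m = ∑ _x ∈ Finset.range (t + 1), (q + 1) ^ m := by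
          rw [Finset.sum_const, Finset.card_range, smul_eq_mul]
      _ ≤ _ := Finset.sum_le_sum fun x _ => Nat.pow_le_pow_right (by omega) (by omega)
  refine Nat.le_of_mul_le_mul_left ?_ hq
  have hge' := Nat.mul_le_mul_left q hge
  nlinarith [hg, hge']

/-- The kernels of a Galois stable set of irreducible characters of a `p`-group. -/
theorem index_inf_charKer_le {P : Type*} [Group P] [Fintype P] {p L n : ℕ} [hp : Fact p.Prime]
    [NeZero (p ^ L)] [DecidableEq (Cfsg.IrrCharacter P)] (hL : 0 < L) (hP : IsPGroup p P)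
    (hN : ∀ g : P, g ^ p ^ L = 1) :
    ∀ C : Finset (Cfsg.IrrCharacter P),
      (∀ (k : (ZMod (p ^ L))ˣ), ∀ ξ ∈ C, H45.galIrr (coprime_val_card hP hL k) ξ ∈ C) →
      ∑ ξ ∈ C, Cfsg.charDegree ξ.1 ≤ n →
      (C.inf charKer).index ≤ p ^ schurB p n (∑ ξ ∈ C, Cfsg.charDegree ξ.1) := by
  classical
  intro C
  induction C using Finset.strongInduction with
  | H C ih =>
    intro hclosed hdeg
    rcases C.eq_empty_or_nonempty with rfl | ⟨ξ, hξ⟩
    · rw [Finset.inf_empty, Subgroup.index_top]
      exact Nat.one_le_pow _ _ hp.out.pos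
    set act : (ZMod (p ^ L))ˣ → Cfsg.IrrCharacter P :=
      fun k => H45.galIrr (coprime_val_card hP hL k) ξ with hact
    set O := Finset.univ.image act with hO
    have hactapp : ∀ k g, (act k).1 g = ξ.1 (g ^ (k : ZMod (p ^ L)).val) := fun _ _ => rfl
    have hact1 : act 1 = ξ := Subtype.ext (funext fun g => by
      rw [hactapp, pow_unit_one (hN g)])
    have hOsub : O ⊆ C := fun x hx => by
      obtain ⟨k, -, rfl⟩ := Finset.mem_image.mp hx
      exact hclosed k ξ hξ
    have hξO : ξ ∈ O := Finset.mem_image.mpr ⟨1, Finset.mem_univ _, hact1⟩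
    -- the orbit has cardinality the index of the stabilizer
    have hcardO : O.card = (powFix hN ξ.1).index := by
      have hiff : ∀ k l : (ZMod (p ^ L))ˣ, act k = act l ↔ k⁻¹ * l ∈ powFix hN ξ.1 := by
        intro k l
        constructor
        · intro h g
          have h2 := congrFun (congrArg Subtype.val h)
            (g ^ ((k⁻¹ : (ZMod (p ^ L))ˣ) : ZMod (p ^ L)).val)
          simp only [hactapp, ← pow_unit_mul (hN g), inv_mul_cancel, pow_unit_one (hN g)] at h2
          exact h2.symm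
        · intro h
          refine Subtype.ext (funext fun g => ?_)
          rw [hactapp, hactapp, ← h (g ^ (k : ZMod (p ^ L)).val), ← pow_unit_mul (hN g),
            mul_inv_cancel_left]
      let F : (ZMod (p ^ L))ˣ ⧸ powFix hN ξ.1 → O := Quotient.lift
        (fun k => ⟨act k, Finset.mem_image.mpr ⟨k, Finset.mem_univ _, rfl⟩⟩)
        fun k l h => Subtype.ext ((hiff k l).mpr (QuotientGroup.leftRel_apply.mp h))
      have hF : Function.Bijective F := by
        refine ⟨fun u v => ?_, fun x => ?_⟩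
        · induction u using QuotientGroup.induction_on
          induction v using QuotientGroup.induction_on
          rename_i k l
          intro h
          exact QuotientGroup.eq.mpr ((hiff k l).mp (congrArg Subtype.val h))
        · obtain ⟨k, -, hk⟩ := Finset.mem_image.mp x.2
          exact ⟨QuotientGroup.mk k, Subtype.ext hk⟩
      rw [Subgroup.index_eq_card, Nat.card_eq_of_bijective F hF, Nat.card_eq_fintype_card,
        Fintype.card_coe]
    have hOdeg : ∑ x ∈ O, Cfsg.charDegree x.1 = O.card * Cfsg.charDegree ξ.1 := by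
      rw [Finset.sum_congr rfl fun x hx => ?_, Finset.sum_const, smul_eq_mul]
      obtain ⟨k, -, rfl⟩ := Finset.mem_image.mp hx
      rw [Cfsg.charDegree, Cfsg.charDegree, hactapp, one_pow]
    have hker : O.inf charKer = charKer ξ := by
      refine le_antisymm (Finset.inf_le hξO) (Finset.le_inf fun x hx g hg => ?_)
      obtain ⟨k, -, rfl⟩ := Finset.mem_image.mp hx
      rw [mem_charKer, hactapp, hactapp, one_pow]
      exact mem_charKer.mp ((charKer ξ).pow_mem hg _)
    have hsplit := Finset.sum_sdiff (f := fun x : Cfsg.IrrCharacter P => Cfsg.charDegree x.1) hOsub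
    have hrest := ih (C \ O) (Finset.sdiff_ssubset hOsub ⟨ξ, hξO⟩) (fun k x hx => by
      rw [Finset.mem_sdiff] at hx ⊢
      refine ⟨hclosed k x hx.1, fun hkx => hx.2 ?_⟩
      obtain ⟨l, -, hl⟩ := Finset.mem_image.mp hkx
      refine Finset.mem_image.mpr ⟨k⁻¹ * l, Finset.mem_univ _, Subtype.ext (funext fun g => ?_)⟩
      have := congrFun (congrArg Subtype.val hl)
        (g ^ ((k⁻¹ : (ZMod (p ^ L))ˣ) : ZMod (p ^ L)).val)
      simp only [hactapp] at this
      rw [hactapp, pow_unit_mul (hN g), this]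
      show x.1 ((g ^ _) ^ _) = x.1 g
      rw [← pow_unit_mul (hN g), inv_mul_cancel, pow_unit_one (hN g)]) (by omega)
    have horb : (charKer ξ).index ≤ p ^ schurB p n (O.card * Cfsg.charDegree ξ.1) := by
      by_cases hne : charKer ξ = ⊤
      · rw [hne, Subgroup.index_top]; exact Nat.one_le_pow _ _ hp.out.pos
      obtain ⟨b, t, hb, ht, hbd⟩ := schur_bound hL (Nat.card P) P le_rfl hP hN ξ hne
      obtain ⟨m, hm⟩ : ∃ m, Cfsg.charDegree ξ.1 = p ^ m := by
        obtain ⟨c, hc⟩ := hP.exists_card_eq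
        obtain ⟨m, -, hm⟩ := (Nat.dvd_prime_pow hp.out).mp (hc ▸ irr_charDegree_dvd ξ)
        exact ⟨m, hm⟩
      rw [hb, hcardO, ht]
      rw [hm] at hbd ⊢
      refine Nat.pow_le_pow_right hp.out.pos (le_schurB hp.out.two_le hbd ?_)
      rw [← hm, ← ht, ← hcardO, ← hOdeg]
      exact (Finset.sum_le_sum_of_subset hOsub).trans hdeg
    calc (C.inf charKer).index = ((C \ O).inf charKer ⊓ O.inf charKer).index := by
          rw [← Finset.inf_union, Finset.sdiff_union_of_subset hOsub]
      _ ≤ ((C \ O).inf charKer).index * (O.inf charKer).index := Subgroup.index_inf_le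
      _ ≤ p ^ schurB p n (∑ x ∈ C \ O, Cfsg.charDegree x.1) *
            p ^ schurB p n (∑ x ∈ O, Cfsg.charDegree x.1) := by
          rw [hker, hOdeg]; exact Nat.mul_le_mul hrest horb
      _ ≤ _ := by
          rw [← pow_add, ← hsplit]
          exact Nat.pow_le_pow_right hp.out.pos (schurB_add _ _ _ _)

/-- The order of a `p`-group with a faithful rational valued character. -/
theorem le_schurB_of_powFix {P : Type*} [Group P] [Fintype P] {p L : ℕ} [hp : Fact p.Prime]
    [NeZero (p ^ L)] (hL : 0 < L) (hP : Nat.card P = p ^ L) (hN : ∀ g : P, g ^ p ^ L = 1)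
    {ψ : P → ℂ} (hψ : Cfsg.IsCharacter P ψ) (hfix : ∀ k, k ∈ powFix hN ψ)
    (hfaith : ∀ g, ψ g = ψ 1 → g = 1) : L ≤ schurB p (Cfsg.charDegree ψ) (Cfsg.charDegree ψ) := by
  classical
  have hPg : IsPGroup p P := IsPGroup.of_card hP
  set C := Finset.univ.filter fun ξ : Cfsg.IrrCharacter P => mult ψ ξ ≠ 0 with hC
  have hdeg : Cfsg.charDegree ψ = ∑ ξ : Cfsg.IrrCharacter P, mult ψ ξ * Cfsg.charDegree ξ.1 := by
    rw [Cfsg.charDegree, apply_one_eq_sum_mult hψ]
    simp only [← Nat.cast_mul, ← Nat.cast_sum, Complex.natCast_re, Nat.floor_natCast]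
  have hle : ∑ ξ ∈ C, Cfsg.charDegree ξ.1 ≤ Cfsg.charDegree ψ := by
    rw [hdeg]
    refine le_trans (Finset.sum_le_sum fun ξ hξ => Nat.le_mul_of_pos_left _
      (Nat.pos_of_ne_zero (Finset.mem_filter.mp hξ).2)) ?_
    exact Finset.sum_le_sum_of_subset (Finset.filter_subset _ _)
  have hclosed : ∀ (k : (ZMod (p ^ L))ˣ), ∀ ξ ∈ C, H45.galIrr (coprime_val_card hPg hL k) ξ ∈ C := by
    intro k ξ hξ
    refine Finset.mem_filter.mpr ⟨Finset.mem_univ _, ?_⟩
    have heq : Cfsg.classInner ψ ξ.1 =
        Cfsg.classInner ψ (H45.galIrr (coprime_val_card hPg hL k) ξ).1 := by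
      rw [Cfsg.classInner, Cfsg.classInner]
      congr 1
      refine (Fintype.sum_bijective _ (H45.powCoprime_bijective (coprime_val_card hPg hL k)) _ _
        fun g => ?_).symm
      show ψ g * _ = ψ (g ^ _) * _
      rw [hfix k g]
      rfl
    rw [classInner_eq_mult hψ, classInner_eq_mult hψ, Nat.cast_inj] at heq
    rw [← heq]
    exact (Finset.mem_filter.mp hξ).2
  have hbot : C.inf charKer = ⊥ := by
    refine (Subgroup.eq_bot_iff_forall _).mpr fun g hg => hfaith g ?_
    rw [congrFun (eq_sum_mult hψ) g, congrFun (eq_sum_mult hψ) 1, Finset.sum_apply, Finset.sum_apply]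
    refine Finset.sum_congr rfl fun ξ _ => ?_
    rw [Pi.smul_apply, Pi.smul_apply]
    by_cases h : mult ψ ξ = 0
    · rw [h, Nat.cast_zero, zero_smul, zero_smul]
    · rw [mem_charKer.mp ((Finset.inf_le (Finset.mem_filter.mpr ⟨Finset.mem_univ _, h⟩) :
        C.inf charKer ≤ charKer ξ) hg)]
  have h := index_inf_charKer_le (n := Cfsg.charDegree ψ) hL hPg hN C hclosed hle
  rw [hbot, Subgroup.index_bot, hP, Nat.pow_le_pow_iff_right hp.out.one_lt] at h
  exact h.trans (schurB_mono _ _ hle)

end Cfsg.Agent.H43
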