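import Mathlib
import Cfsg.Agent.H19.Cores
import Cfsg.Agent.H20.Sylow
import Cfsg.Agent.H44.HallHigman
import Cfsg.Agent.H44.Inflation
import Cfsg.Agent.H44.NormalDegrees
import Cfsg.Agent.H43.CharTools
import Cfsg.Agent.H84.PSolvable
import Cfsg.Agent.H26.CharLinear

/-!
# Linear groups of degree less than `p` with a non-normal Sylow subgroup
-/

set_option autoImplicit false
set_option maxHeartbeats 800000

namespace Cfsg.Agent.H43.SmallSolv

open scoped ComplexConjugate commutatorElement Pointwise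

attribute [local instance] Fintype.ofFinite Classical.propDecidable

universe u

section Abstract

variable {Q : Type u} [Group Q] [Finite Q]

/-- An irreducible representation of a group of class two is zero off its scalars, and the index of
these is the square of the degree. -/
theorem exists_scalar_subgroup (hcl : ∀ a b : Q, ⁅a, b⁆ ∈ Subgroup.center Q)
    (θ : Cfsg.IrrCharacter Q) :
    ∃ Z : Subgroup Q, Z.Normal ∧ (∀ a, a ∈ Z ↔ θ.1 a ≠ 0) ∧ Subgroup.center Q ≤ Z ∧
      Z.index = Cfsg.charDegree (θ : Q → ℂ) ^ 2 := by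
  obtain ⟨d, ρ, hρ, eρ⟩ := θ.2
  haveI := hρ
  have hdeg : Cfsg.charDegree (θ : Q → ℂ) = d := by
    simp [Cfsg.charDegree, ← eρ]
  have hd : (d : ℂ) ≠ 0 := by
    rw [← hdeg, H44.cast_charDegree]; exact H26.irr_one_ne_zero θ
  let Z : Subgroup Q :=
    { carrier := {a | ∀ b, ρ (a * b) = ρ (b * a)}
      one_mem' := fun b => by rw [one_mul, mul_one]
      mul_mem' := fun {a a'} ha ha' b => by
        rw [map_mul, map_mul ρ a a', mul_assoc, ← map_mul, ha' b, map_mul, ← mul_assoc, ← map_mul,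
          ha b, map_mul, mul_assoc, ← map_mul ρ a a', ← map_mul]
      inv_mem' := fun {a} ha b => by
        have h := ha (a⁻¹ * b * a⁻¹)
        rw [show a * (a⁻¹ * b * a⁻¹) = b * a⁻¹ by group,
          show a⁻¹ * b * a⁻¹ * a = a⁻¹ * b by group] at h
        exact h.symm }
  have hmem : ∀ a, a ∈ Z ↔ ∀ b, ρ (a * b) = ρ (b * a) := fun a => Iff.rfl
  have hscal : ∀ a ∈ Z, ρ a = (θ.1 a / (d : ℂ)) • (LinearMap.id : (Fin d → ℂ) →ₗ[ℂ] _) := by
    intro a ha
    have h := H25.eq_smul_id_of_comm ρ (ρ a) fun b => by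
      rw [← Module.End.mul_eq_comp, ← Module.End.mul_eq_comp, ← map_mul, ← map_mul, ha b]
    rw [Module.finrank_fin_fun] at h
    rw [← eρ]
    exact h
  have hcZ : Subgroup.center Q ≤ Z := fun a ha b => by rw [Subgroup.mem_center_iff.1 ha b]
  have hone : θ.1 1 = (d : ℂ) := by rw [← hdeg, H44.cast_charDegree]
  have hne : ∀ a ∈ Z, θ.1 a * conj (θ.1 a) = (d : ℂ) * d := by
    intro a ha
    have h1 := hscal a ha
    have h2 := hscal a⁻¹ (Z.inv_mem ha)
    have h3 : θ.1 (a⁻¹ * a) = θ.1 a⁻¹ / d * (θ.1 a / d) * d := by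
      rw [← eρ]
      show LinearMap.trace ℂ _ (ρ (a⁻¹ * a)) = _
      rw [map_mul, h1, h2, ← Module.End.one_eq_id, smul_mul_smul_comm, one_mul, map_smul,
        smul_eq_mul, Module.End.one_eq_id, LinearMap.trace_id, Module.finrank_fin_fun, eρ]
    rw [inv_mul_cancel, hone] at h3
    rw [show θ.1 a⁻¹ = conj (θ.1 a) by rw [← eρ]; exact H25.char_inv ρ a] at h3
    field_simp at h3
    linear_combination -h3
  have hzero : ∀ a, a ∉ Z → θ.1 a = 0 := by
    intro a ha
    rw [hmem, not_forall] at ha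
    obtain ⟨b, hb⟩ := ha
    have hz := hscal ⁅b, a⁆ (hcZ (hcl b a))
    set c := θ.1 ⁅b, a⁆ / (d : ℂ)
    have hc1 : c ≠ 1 := by
      intro h
      refine hb ?_
      rw [show b * a = ⁅b, a⁆ * (a * b) by rw [commutatorElement_def]; group, map_mul ρ ⁅b, a⁆, hz,
        h, one_smul, ← Module.End.one_eq_id, one_mul]
    have h : θ.1 (b * a * b⁻¹) = c * θ.1 a := by
      rw [show b * a * b⁻¹ = ⁅b, a⁆ * a by rw [commutatorElement_def]; group, ← eρ]
      show LinearMap.trace ℂ _ (ρ (⁅b, a⁆ * a)) = c * LinearMap.trace ℂ _ (ρ a)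
      rw [map_mul, hz, ← Module.End.one_eq_id, smul_mul_assoc, one_mul, map_smul, smul_eq_mul]
    rw [H26.irr_conj] at h
    by_contra h0
    exact hc1 ((mul_eq_right₀ h0).1 h.symm)
  refine ⟨Z, ⟨fun a ha g => ?_⟩, fun a => ⟨fun ha h0 => ?_, fun h => ?_⟩, hcZ, ?_⟩
  · rw [show g * a * g⁻¹ = ⁅g, a⁆ * a by rw [commutatorElement_def]; group]
    exact Z.mul_mem (hcZ (hcl g a)) ha
  · have := hne a ha
    rw [h0, zero_mul] at this
    exact mul_ne_zero hd hd this.symm
  · by_contra hn; exact h (hzero a hn)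
  · have h := H26.classInner_irr θ θ
    rw [if_pos rfl, Cfsg.classInner, inv_mul_eq_iff_eq_mul₀ (Nat.cast_ne_zero.2 Nat.card_pos.ne'),
      mul_one] at h
    have hsum : ∑ a : Q, θ.1 a * conj (θ.1 a) = (Nat.card Z : ℂ) * ((d : ℂ) * d) := by
      rw [← Finset.sum_subset (Finset.subset_univ (Finset.univ.filter (· ∈ Z))) (fun a _ ha => by
        rw [hzero a (by simpa using ha), zero_mul]),
        Finset.sum_congr rfl (fun a ha => hne a (Finset.mem_filter.1 ha).2), Finset.sum_const,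
        nsmul_eq_mul]
      congr 2
      rw [Nat.card_eq_fintype_card, Fintype.card_subtype]
    rw [hsum, ← Z.card_mul_index, Nat.cast_mul] at h
    have h' := mul_left_cancel₀ (Nat.cast_ne_zero.2 Nat.card_pos.ne') h
    rw [hdeg, sq, ← Nat.cast_inj (R := ℂ), Nat.cast_mul]
    exact h'.symm

/-- Under a fixed-point-free automorphism of `p`-power order modulo the scalars, `p` divides the
square of the degree minus one. -/
theorem dvd_degree_sq_sub_one {p k : ℕ} [Fact p.Prime] (e : MulAut Q) (he : e ^ p ^ k = 1)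
    (hcl : ∀ a b : Q, ⁅a, b⁆ ∈ Subgroup.center Q)
    (hfix : ∀ a : Q, e a = a → a ∈ Subgroup.center Q)
    (hmin : ∀ H : Subgroup Q, (∀ a ∈ H, e a ∈ H) → H ≠ ⊤ → ∀ a ∈ H, e a = a)
    (hgen : ∀ H : Subgroup Q, H.Normal → (∀ a, a⁻¹ * e a ∈ H) → H = ⊤)
    (θ : Cfsg.IrrCharacter Q) (hθ : ∀ a, θ.1 (e a) = θ.1 a)
    (hd : Cfsg.charDegree (θ : Q → ℂ) ≠ 1) :
    p ∣ Cfsg.charDegree (θ : Q → ℂ) ^ 2 - 1 := by
  obtain ⟨Z, hZn, hZ, hcZ, hidx⟩ := exists_scalar_subgroup hcl θ
  haveI := hZn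
  have heZ : ∀ a, e a ∈ Z ↔ a ∈ Z := fun a => by rw [hZ, hZ, hθ]
  let W : Subgroup Q :=
    { carrier := {a | a⁻¹ * e a ∈ Z}
      one_mem' := by simp [Z.one_mem]
      mul_mem' := fun {a b} ha hb => by
        show (a * b)⁻¹ * e (a * b) ∈ Z
        rw [map_mul, show (a * b)⁻¹ * (e a * e b) = b⁻¹ * (a⁻¹ * e a) * b * (b⁻¹ * e b) by group]
        exact Z.mul_mem (by simpa using hZn.conj_mem _ ha b⁻¹) hb
      inv_mem' := fun {a} ha => by
        show a⁻¹⁻¹ * e a⁻¹ ∈ Z
        rw [map_inv, show a⁻¹⁻¹ * (e a)⁻¹ = a * (a⁻¹ * e a)⁻¹ * a⁻¹ by group]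
        exact hZn.conj_mem _ (Z.inv_mem ha) a }
  have hWtop : W ≠ ⊤ := by
    intro h
    have hZtop := hgen Z hZn fun a => (h ▸ Subgroup.mem_top a : a ∈ W)
    rw [hZtop, Subgroup.index_top] at hidx
    exact hd ((Nat.pow_eq_one.1 hidx.symm).resolve_right (by norm_num))
  have hW : ∀ a ∈ W, a ∈ Z := fun a ha => hcZ (hfix a (hmin W (fun b hb => by
    show (e b)⁻¹ * e (e b) ∈ Z
    rw [← map_inv, ← map_mul, heZ]
    exact hb) hWtop a ha))
  let σ : Function.End (Q ⧸ Z) :=
    fun x => QuotientGroup.map Z Z e.toMonoidHom (fun a ha => (heZ a).2 ha) x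
  have hσ : ∀ (n : ℕ) (a : Q), (σ ^ n) (a : Q ⧸ Z) = (((e ^ n) a : Q) : Q ⧸ Z) := by
    intro n
    induction n with
    | zero => intro a; rfl
    | succ n ihn =>
      intro a
      rw [pow_succ, pow_succ, MulAut.mul_apply, ← ihn]
      show (σ ^ n) (σ (a : Q ⧸ Z)) = _
      rfl
  have hσp : σ ^ p ^ k = 1 := funext fun x => by
    obtain ⟨a, rfl⟩ := QuotientGroup.mk_surjective x
    rw [hσ, he]
    rfl
  have h := Equiv.Perm.card_fixedPoints_modEq hσp
  have hfixed : Nat.card σ.fixedPoints = 1 := by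
    rw [Nat.card_eq_fintype_card, Fintype.card_eq_one_iff]
    refine ⟨⟨((1 : Q) : Q ⧸ Z), congrArg QuotientGroup.mk (map_one e)⟩, fun x => Subtype.ext ?_⟩
    obtain ⟨a, ha⟩ := QuotientGroup.mk_surjective x.1
    have hx : σ x.1 = x.1 := x.2
    rw [← ha] at hx ⊢
    exact (QuotientGroup.eq.2 (by
      simpa using hW a (QuotientGroup.eq.1 (hx.symm : (a : Q ⧸ Z) = (e a : Q ⧸ Z))))).symm
  rw [← Nat.card_eq_fintype_card, ← Nat.card_eq_fintype_card, hfixed, ← Subgroup.index_eq_card, hidx] at h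
  exact (Nat.modEq_iff_dvd' (Nat.one_le_pow _ _ (H44.charDegree_pos θ))).1 h.symm

end Abstract

/-- A normalizing element conjugates into the subgroup. -/
theorem conj_mem_of_normalizer {G : Type u} [Group G] {Q : Subgroup G} {z a : G}
    (hz : z ∈ Subgroup.normalizer (Q : Set G)) (ha : a ∈ Q) : z * a * z⁻¹ ∈ Q :=
  (Subgroup.mem_normalizer_iff.1 hz a).1 ha

/-- A multiple of the degree of a constituent is at most the degree. -/
theorem coeff_mul_degree_le {G : Type u} [Group G] [Finite G] {φ : G → ℂ} {c : Cfsg.IrrCharacter G → ℕ}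
    (hφ : φ = ∑ θ : Cfsg.IrrCharacter G, (c θ : ℂ) • θ.1) {n : ℕ} (hn : φ 1 = n) :
    n = ∑ θ : Cfsg.IrrCharacter G, c θ * Cfsg.charDegree (θ : G → ℂ) := by
  rw [← Nat.cast_inj (R := ℂ), ← hn, hφ, Finset.sum_apply, Nat.cast_sum]
  exact Finset.sum_congr rfl fun θ _ => by
    rw [Pi.smul_apply, smul_eq_mul, Nat.cast_mul, H44.cast_charDegree]

/-- A non-normal Sylow subgroup of a `p`-solvable group acts nontrivially on a `q`-subgroup. -/
theorem exists_action {G : Type u} [Group G] [Finite G] {p : ℕ} [hp : Fact p.Prime]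
    (hsolv : Cfsg.IsPSolvable p G) (P : Sylow p G) (hP : ¬ (P : Subgroup G).Normal) :
    ∃ (y : G) (q : ℕ) (Q : Subgroup G), (∃ k, orderOf y = p ^ k) ∧ q.Prime ∧ q ≠ p ∧ IsPGroup q Q ∧
      Subgroup.zpowers y ≤ Subgroup.normalizer (Q : Set G) ∧ ¬ (∀ a ∈ Q, y * a = a * y) ∧
      ∀ H < Q, (∀ a ∈ H, y * a * y⁻¹ ∈ H) → ∀ a ∈ H, y * a = a * y := by
  set R := Cfsg.pCore p G with hR
  haveI hRn : R.Normal := H19.pCore_normal p G
  have hRP : R ≤ P := H19.pCore_le_sylow P
  have hsb : Cfsg.IsPSolvable p (G ⧸ R) :=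
    H84.isPSolvable_of_surjective _ (QuotientGroup.mk'_surjective R) hsolv
  set M := Cfsg.pPrimeCore p (G ⧸ R) with hM
  haveI hMn : M.Normal := H19.pPrimeCore_normal p _
  have hMc : (Nat.card M).Coprime p := H19.pPrimeCore_coprime p
  have hCM := H44.centralizer_pPrimeCore_le hsb (H19.pCore_quotient_pCore p)
  obtain ⟨x, hxP, hxR⟩ : ∃ x ∈ (P : Subgroup G), x ∉ R := by
    by_contra h
    simp only [not_exists, not_and, not_not] at h
    exact hP (le_antisymm hRP h ▸ hRn)
  obtain ⟨k, hk⟩ := IsPGroup.iff_orderOf.1 P.2 ⟨x, hxP⟩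
  rw [Subgroup.orderOf_mk] at hk
  set xb : G ⧸ R := (x : G ⧸ R) with hxb
  obtain ⟨k', -, hk'⟩ : ∃ i ≤ k, orderOf xb = p ^ i :=
    (Nat.dvd_prime_pow hp.out).1 (hk ▸ orderOf_map_dvd (QuotientGroup.mk' R) x)
  have hxbC : ¬ ∀ m ∈ M, xb * m = m * xb := by
    intro h
    have h1 : xb ∈ M := hCM (Subgroup.mem_centralizer_iff.2 fun m hm => (h m hm).symm)
    have h2 : orderOf xb ∣ Nat.card M := by
      rw [← Subgroup.orderOf_mk xb h1]; exact orderOf_dvd_natCard _
    refine hxR ((QuotientGroup.eq_one_iff x).1 (orderOf_eq_one_iff.1 ?_))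
    exact Nat.eq_one_of_dvd_coprimes (hMc.pow_right k') h2 (dvd_of_eq hk')
  set A := Subgroup.zpowers xb with hA
  have hAM : A ≤ Subgroup.normalizer (M : Set (G ⧸ R)) := by
    rw [Subgroup.normalizer_eq_top M]; exact le_top
  have hAc : (Nat.card A).Coprime (Nat.card M) := by
    rw [hA, Nat.card_zpowers, hk']; exact (hMc.pow_right k').symm
  obtain ⟨q, hq, Qb, hQM, hQn, hQq, hQc⟩ : ∃ q, q.Prime ∧ ∃ Qb : Subgroup (G ⧸ R), Qb ≤ M ∧
      A ≤ Subgroup.normalizer (Qb : Set (G ⧸ R)) ∧ IsPGroup q Qb ∧ ¬ ∀ m ∈ Qb, xb * m = m * xb := by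
    by_contra hc
    refine hxbC fun m hm => ?_
    set C := M ⊓ Subgroup.centralizer {xb} with hC
    have hCM' : C = M := by
      refine Subgroup.eq_of_le_of_card_ge inf_le_left
        (Nat.le_of_dvd Nat.card_pos ((Nat.factorization_prime_le_iff_dvd Nat.card_pos.ne'
          Nat.card_pos.ne').1 fun r hr => ?_))
      haveI : Fact r.Prime := ⟨hr⟩
      obtain ⟨U, hUM, hUA, hUr, hUc⟩ :=
        H20.exists_invariant_sylow_subgroup hAM hAc (Or.inl inferInstance) r
      have hUC : U ≤ C := le_inf hUM fun u hu => Subgroup.mem_centralizer_singleton_iff.2 (by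
        by_contra hne
        exact hc ⟨r, hr, U, hUM, hUA, hUr, fun h => hne ((h u hu).symm)⟩)
      have := Subgroup.card_dvd_of_le hUC
      rw [hUc] at this
      exact (hr.pow_dvd_iff_le_factorization Nat.card_pos.ne').1 this
    have hm' : m ∈ C := hCM'.symm ▸ hm
    exact (Subgroup.mem_centralizer_singleton_iff.1 hm'.2).symm
  haveI : Fact q.Prime := ⟨hq⟩
  have hqp : q ≠ p := by
    rintro rfl
    refine hQc fun m hm => ?_
    obtain ⟨j, hj⟩ := IsPGroup.iff_card.1 hQq
    have h1 := hMc.coprime_dvd_left (Subgroup.card_dvd_of_le hQM)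
    rw [hj] at h1
    rcases j with _ | j
    · rw [pow_zero, Subgroup.card_eq_one] at hj
      rw [hj, Subgroup.mem_bot] at hm
      rw [hm, mul_one, one_mul]
    · exact absurd (Nat.eq_one_of_dvd_coprimes h1 (dvd_pow_self q (Nat.succ_ne_zero j)) dvd_rfl)
        hq.ne_one
  -- lift to a `q`-group
  set L := Qb.comap (QuotientGroup.mk' R) with hL
  have hRL : R ≤ L := fun r hr => by
    rw [hL, Subgroup.mem_comap, QuotientGroup.mk'_apply, (QuotientGroup.eq_one_iff r).2 hr]
    exact Qb.one_mem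
  obtain ⟨Q₀⟩ : Nonempty (Sylow q L) := inferInstance
  set Q' := (Q₀ : Subgroup L).map L.subtype with hQ'
  have hQ'L : Q' ≤ L := Subgroup.map_subtype_le _
  have hLQ : L = R ⊔ Q' := by
    refine le_antisymm ?_ (sup_le hRL hQ'L)
    have hmap : Q'.map (QuotientGroup.mk' R) = Qb := by
      refine Subgroup.eq_of_le_of_card_ge (Subgroup.map_le_iff_le_comap.2 hQ'L) ?_
      have hsur : Function.Surjective ((QuotientGroup.mk' R).subgroupComap Qb) :=
        MonoidHom.subgroupComap_surjective_of_surjective _ _ (QuotientGroup.mk'_surjective R)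
      have hQ₁ := Q₀.mapSurjective hsur
      obtain ⟨j, hj⟩ := IsPGroup.iff_card.1 hQq
      have htop : (Q₀.mapSurjective hsur : Subgroup Qb) = ⊤ :=
        Subgroup.eq_top_of_card_eq _ (by
          rw [(Q₀.mapSurjective hsur).card_eq_multiplicity, hj, Nat.factorization_pow, Finsupp.smul_apply,
            hq.factorization_self, smul_eq_mul, mul_one])
      refine Nat.le_of_eq (congrArg (fun H : Subgroup (G ⧸ R) => Nat.card H) ?_)
      refine le_antisymm (fun z hz => ?_) (Subgroup.map_le_iff_le_comap.2 hQ'L)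
      have h1 : (⟨z, hz⟩ : Qb) ∈ (Q₀.mapSurjective hsur : Subgroup Qb) := htop ▸ Subgroup.mem_top _
      obtain ⟨w, hw, hwz⟩ := Sylow.coe_mapSurjective hsur Q₀ ▸ h1
      exact ⟨w, ⟨w, hw, rfl⟩, congrArg Subtype.val hwz⟩
    rw [← Subgroup.comap_map_eq_self (H := R ⊔ Q') (f := QuotientGroup.mk' R) (by
      rw [QuotientGroup.ker_mk']; exact le_sup_left), hL, ← hmap]
    exact Subgroup.comap_mono (Subgroup.map_mono le_sup_right)
  have hxL : ∀ l ∈ L, x * l * x⁻¹ ∈ L := fun l hl => by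
    have h := conj_mem_of_normalizer (hQn (Subgroup.mem_zpowers xb)) hl
    simpa [hL] using h
  obtain ⟨Q₁, hQ₁⟩ := H20.exists_sylow_map_eq (K := L) (U := MulAut.conj x • Q')
    (fun a ha => by
      rw [Subgroup.mem_pointwise_smul_iff_inv_smul_mem] at ha
      have := hxL _ (hQ'L ha)
      simpa [MulAut.smul_def, mul_assoc] using this)
    (by rw [H20.card_conj_smul]; exact H20.card_map_sylow Q₀)
  obtain ⟨l, hl⟩ := MulAction.exists_smul_eq L Q₀ Q₁
  have hlx : MulAut.conj (l : G) • Q' = MulAut.conj x • Q' := by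
    rw [← hQ₁, ← hl]
    exact (H20.map_conj_smul_sylow (p := q) l Q₀).symm
  obtain ⟨r, hr, c, hc, hrc⟩ : ∃ r ∈ R, ∃ c ∈ Q', (l : G) = r * c := by
    have := (SetLike.ext_iff.1 hLQ (l : G)).1 l.2
    rw [← SetLike.mem_coe, Subgroup.normal_mul] at this
    obtain ⟨r, hr, c, hc, h⟩ := Set.mem_mul.1 this
    exact ⟨r, hr, c, hc, h.symm⟩
  have hcQ : MulAut.conj c • Q' = Q' :=
    H20.conj_smul_eq_of_mem_normalizer (Subgroup.le_normalizer hc)
  set y := r⁻¹ * x with hy
  have hyP : y ∈ (P : Subgroup G) := (P : Subgroup G).mul_mem ((P : Subgroup G).inv_mem (hRP hr)) hxP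
  obtain ⟨ky, hky⟩ := IsPGroup.iff_orderOf.1 P.2 ⟨y, hyP⟩
  rw [Subgroup.orderOf_mk] at hky
  have hyn : y ∈ Subgroup.normalizer (Q' : Set G) := by
    refine H20.mem_normalizer_of_conj_smul_eq ?_
    rw [hy, map_mul, mul_smul, ← hlx, hrc, map_mul, mul_smul, hcQ, map_inv, inv_smul_smul]
  have hyb : (y : G ⧸ R) = xb := by
    rw [hy, QuotientGroup.mk_mul, QuotientGroup.mk_inv, (QuotientGroup.eq_one_iff r).2 hr, inv_one,
      one_mul]
  have hync : ¬ ∀ a ∈ Q', y * a = a * y := by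
    intro h
    refine hQc fun m hm => ?_
    obtain ⟨g, rfl⟩ := QuotientGroup.mk_surjective m
    have hg : g ∈ L := hm
    rw [hLQ, ← SetLike.mem_coe, Subgroup.normal_mul] at hg
    obtain ⟨r', hr', a, ha, rfl⟩ := Set.mem_mul.1 hg
    rw [QuotientGroup.mk_mul, (QuotientGroup.eq_one_iff r').2 hr', one_mul, ← hyb,
      ← QuotientGroup.mk_mul, ← QuotientGroup.mk_mul, h a ha]
  obtain ⟨Q, ⟨hQle, hQnorm, hQnc⟩, hQmin⟩ := (Set.toFinite {U : Subgroup G | U ≤ Q' ∧
      Subgroup.zpowers y ≤ Subgroup.normalizer (U : Set G) ∧ ¬ ∀ a ∈ U, y * a = a * y}).exists_minimal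
    ⟨Q', le_rfl, Subgroup.zpowers_le.2 hyn, hync⟩
  refine ⟨y, q, Q, ⟨ky, hky⟩, hq, hqp, (H20.isPGroup_map_sylow Q₀).to_le hQle, hQnorm, hQnc,
    fun H hH hinv => ?_⟩
  by_contra hne
  refine hH.not_ge (hQmin ⟨hH.le.trans hQle, Subgroup.zpowers_le.2 ?_, hne⟩ hH.le)
  refine H20.mem_normalizer_of_conj_smul_eq (Subgroup.eq_of_le_of_card_ge ?_
    (H20.card_conj_smul y H).ge)
  intro a ha
  rw [Subgroup.mem_pointwise_smul_iff_inv_smul_mem] at ha
  simpa [MulAut.smul_def, mul_assoc] using hinv _ ha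

/-- The conclusion of Itô's theorem. -/
theorem small_degree {G : Type u} [Group G] [Finite G] (χ : G → ℂ) (hχ : Cfsg.IsCharacter G χ)
    (hfaith : ∀ g : G, χ g = χ 1 → g = 1) {n p : ℕ} [hp : Fact p.Prime] (hn : χ 1 = (n : ℂ))
    (hsolv : Cfsg.IsPSolvable p G) (hnp : n + 1 ≤ p) (P : Sylow p G)
    (hP : ¬ (P : Subgroup G).Normal) :
    n + 1 = p ∧ (∃ k : ℕ, n = 2 ^ k) ∧ Cfsg.IsIrrCharacter G χ := by
  obtain ⟨y, q, Q, ⟨k, hk⟩, hq, hqp, hQq, hnorm, hnc, hmin⟩ := exists_action hsolv P hP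
  haveI : Fact q.Prime := ⟨hq⟩
  have hyn := hnorm (Subgroup.mem_zpowers y)
  have hconj : ∀ a ∈ Q, y * a * y⁻¹ ∈ Q := fun a ha => conj_mem_of_normalizer hyn ha
  have hconj' : ∀ a ∈ Q, y⁻¹ * a * y ∈ Q := fun a ha => by
    simpa using conj_mem_of_normalizer (Subgroup.inv_mem _ hyn) ha
  have hcomm : ∀ {a : G}, y * a * y⁻¹ = a → y * a = a * y := fun h => mul_inv_eq_iff_eq_mul.1 h
  -- the commutators with `y` generate `Q`
  have hgenQ : ⁅Subgroup.zpowers y, Q⁆ = Q := by
    have hle : ⁅Subgroup.zpowers y, Q⁆ ≤ Q := by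
      rw [Subgroup.commutator_le]
      intro z hz a ha
      rw [commutatorElement_def]
      exact Q.mul_mem (conj_mem_of_normalizer (hnorm hz) ha) (Q.inv_mem ha)
    by_contra hne
    refine hnc fun a ha => ?_
    set c := y * a * y⁻¹ * a⁻¹ with hc
    have hcK : c ∈ ⁅Subgroup.zpowers y, Q⁆ :=
      Subgroup.commutator_mem_commutator (Subgroup.mem_zpowers y) ha
    have hcy : y * c = c * y := hmin _ (lt_of_le_of_ne hle hne) (fun b hb => by
      have h : ⁅Subgroup.zpowers y, Q⁆ ≤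
          (⁅Subgroup.zpowers y, Q⁆).comap (MulAut.conj y).toMonoidHom := by
        rw [Subgroup.commutator_le]
        intro z hz a ha
        show MulAut.conj y ⁅z, a⁆ ∈ ⁅Subgroup.zpowers y, Q⁆
        rw [map_commutatorElement]
        refine Subgroup.commutator_mem_commutator ?_ (hconj a ha)
        exact Subgroup.mul_mem _ (Subgroup.mul_mem _ (Subgroup.mem_zpowers y) hz)
          (Subgroup.inv_mem _ (Subgroup.mem_zpowers y))
      exact h hb) c hcK
    have hpow : ∀ m : ℕ, y ^ m * a = c ^ m * a * y ^ m := by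
      intro m
      induction m with
      | zero => simp
      | succ m ihm =>
        calc y ^ (m + 1) * a = y * (y ^ m * a) := by rw [pow_succ', mul_assoc]
          _ = y * c ^ m * a * y ^ m := by rw [ihm]; group
          _ = c ^ m * (y * a) * y ^ m := by
            rw [(Commute.pow_right (show Commute y c from hcy) m).eq]; group
          _ = c ^ m * (c * a * y) * y ^ m := by rw [show y * a = c * a * y by rw [hc]; group]
          _ = c ^ (m + 1) * a * y ^ (m + 1) := by rw [pow_succ, pow_succ']; group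
    have h1 := hpow (p ^ k)
    rw [← hk, pow_orderOf_eq_one, one_mul, mul_one, hk] at h1
    obtain ⟨j, hj⟩ := IsPGroup.iff_orderOf.1 hQq ⟨c, hle hcK⟩
    rw [Subgroup.orderOf_mk] at hj
    have hc1 : c = 1 := orderOf_eq_one_iff.1 (Nat.eq_one_of_dvd_coprimes
      (((Nat.coprime_primes hq hp.out).2 hqp).pow j k) (dvd_of_eq hj)
      (orderOf_dvd_of_pow_eq_one (mul_eq_right.1 h1.symm)))
    rw [hc, mul_inv_eq_one] at hc1
    exact hcomm hc1
  -- `y` centralizes the derived subgroup, and its centralizer is central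
  have hQne : Q ≠ ⊥ := fun h => hnc fun a ha => by
    rw [h, Subgroup.mem_bot] at ha; rw [ha, mul_one, one_mul]
  have hD : ∀ a ∈ ⁅Q, Q⁆, y * a = a * y := by
    have hle : ⁅Q, Q⁆ ≤ Q := Subgroup.commutator_le.2 fun a ha b hb => by
      rw [commutatorElement_def]
      exact Q.mul_mem (Q.mul_mem (Q.mul_mem ha hb) (Q.inv_mem ha)) (Q.inv_mem hb)
    refine hmin _ (lt_of_le_of_ne hle fun h => ?_) fun b hb => ?_
    · haveI : Group.IsNilpotent Q := hQq.isNilpotent
      haveI : Nontrivial Q := Q.nontrivial_iff_ne_bot.2 hQne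
      refine (IsSolvable.commutator_lt_top_of_nontrivial Q).ne
        (Subgroup.map_injective Q.subtype_injective ?_)
      rw [Subgroup.map_subtype_commutator, ← MonoidHom.range_eq_map, Subgroup.range_subtype, h]
    · have h : ⁅Q, Q⁆ ≤ (⁅Q, Q⁆).comap (MulAut.conj y).toMonoidHom := by
        rw [Subgroup.commutator_le]
        intro a ha b hb
        show MulAut.conj y ⁅a, b⁆ ∈ ⁅Q, Q⁆
        rw [map_commutatorElement]
        exact Subgroup.commutator_mem_commutator (hconj a ha) (hconj b hb)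
      exact h hb
  have hcenG : ∀ a ∈ Q, y * a = a * y → ∀ b ∈ Q, a * b = b * a := by
    set C := Q ⊓ Subgroup.centralizer {y} with hC
    have h1 : ⁅⁅Q, C⁆, Subgroup.zpowers y⁆ = ⊥ := by
      rw [Subgroup.commutator_eq_bot_iff_le_centralizer, Subgroup.zpowers_eq_closure,
        Subgroup.centralizer_closure]
      intro a ha
      exact Subgroup.mem_centralizer_singleton_iff.2
        (hD a (Subgroup.commutator_mono le_rfl inf_le_left ha)).symm
    have h2 : ⁅⁅C, Subgroup.zpowers y⁆, Q⁆ = ⊥ := by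
      have : ⁅C, Subgroup.zpowers y⁆ = ⊥ := by
        rw [Subgroup.commutator_eq_bot_iff_le_centralizer, Subgroup.zpowers_eq_closure,
          Subgroup.centralizer_closure]
        exact inf_le_right
      rw [this, Subgroup.commutator_bot_left]
    have h3 := Subgroup.commutator_commutator_eq_bot_of_rotate h1 h2
    rw [hgenQ, Subgroup.commutator_eq_bot_iff_le_centralizer] at h3
    intro a ha hay b hb
    exact Subgroup.mem_centralizer_iff.1 (h3 hb) a
      ⟨ha, Subgroup.mem_centralizer_singleton_iff.2 hay.symm⟩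
  -- the automorphism
  let e : MulAut Q :=
    { toFun := fun a => ⟨y * a * y⁻¹, hconj a a.2⟩
      invFun := fun a => ⟨y⁻¹ * a * y, hconj' a a.2⟩
      left_inv := fun a => Subtype.ext (by simp [mul_assoc])
      right_inv := fun a => Subtype.ext (by simp [mul_assoc])
      map_mul' := fun a b => Subtype.ext (by simp [mul_assoc]) }
  have hepow : ∀ (m : ℕ) (a : Q), (((e ^ m) a : Q) : G) = y ^ m * a * (y ^ m)⁻¹ := by
    intro m
    induction m with
    | zero => intro a; simp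
    | succ m ihm =>
      intro a
      rw [pow_succ', MulAut.mul_apply]
      show y * ((e ^ m) a : G) * y⁻¹ = _
      rw [ihm, pow_succ']
      group
  have he : e ^ p ^ k = 1 := MulEquiv.ext fun a => Subtype.ext (by
    rw [hepow, ← hk, pow_orderOf_eq_one]; simp)
  have hefix : ∀ a : Q, e a = a → a ∈ Subgroup.center Q := fun a ha =>
    Subgroup.mem_center_iff.2 fun b => Subtype.ext
      (hcenG a a.2 (hcomm (congrArg Subtype.val ha)) b b.2).symm
  have hcl : ∀ a b : Q, ⁅a, b⁆ ∈ Subgroup.center Q := by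
    intro a b
    refine Subgroup.mem_center_iff.2 fun d => Subtype.ext ?_
    exact (hcenG _ (⁅a, b⁆ : Q).2 (hD _ (Subgroup.commutator_mem_commutator a.2 b.2)) d d.2).symm
  have hmin' : ∀ H : Subgroup Q, (∀ a ∈ H, e a ∈ H) → H ≠ ⊤ → ∀ a ∈ H, e a = a := by
    intro H hH hne a ha
    have hlt : H.map Q.subtype < Q := lt_of_le_of_ne (Subgroup.map_subtype_le H) fun h =>
      hne (Subgroup.map_injective Q.subtype_injective
        (h.trans (by rw [← MonoidHom.range_eq_map, Subgroup.range_subtype])))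
    have h := hmin _ hlt (fun b hb => by
      obtain ⟨b', hb', rfl⟩ := hb
      exact ⟨e b', hH b' hb', rfl⟩) a ⟨a, ha, rfl⟩
    exact Subtype.ext (mul_inv_eq_iff_eq_mul.2 h)
  have hgen' : ∀ H : Subgroup Q, H.Normal → (∀ a, a⁻¹ * e a ∈ H) → H = ⊤ := by
    intro H hH h
    let J : Subgroup G := H.map Q.subtype
    have hJc : ∀ a : Q, y * a * y⁻¹ * (a : G)⁻¹ ∈ J := fun a =>
      ⟨e a * a⁻¹, by simpa [mul_assoc] using hH.conj_mem _ (h a) a, rfl⟩
    have hpw : ∀ (m : ℕ) (a : Q), y ^ m * a * (y ^ m)⁻¹ * (a : G)⁻¹ ∈ J := by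
      intro m
      induction m with
      | zero => intro a; simp [J.one_mem]
      | succ m ihm =>
        intro a
        have h1 := J.mul_mem (ihm (e a)) (hJc a)
        convert h1 using 1
        show y ^ (m + 1) * a * (y ^ (m + 1))⁻¹ * (a : G)⁻¹ =
          y ^ m * (y * a * y⁻¹) * (y ^ m)⁻¹ * (y * a * y⁻¹)⁻¹ * (y * a * y⁻¹ * (a : G)⁻¹)
        rw [pow_succ]; group
    have hle : ⁅Subgroup.zpowers y, Q⁆ ≤ J := Subgroup.commutator_le.2 fun z hz a ha => by
      obtain ⟨m, rfl⟩ := (isOfFinOrder_of_finite y).mem_powers_iff_mem_zpowers.2 hz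
      exact hpw m ⟨a, ha⟩
    rw [hgenQ] at hle
    refine eq_top_iff.2 fun a _ => ?_
    obtain ⟨b, hb, hba⟩ := hle a.2
    exact (Subtype.ext hba : b = a) ▸ hb
  -- the restriction to `Q`
  have hres : Cfsg.IsCharacter Q (fun a : Q => χ a) := H26.isCharacter_comp hχ Q.subtype
  obtain ⟨c, hc, hdec⟩ := H26.exists_nat_coeffs hres
  have hnsum := coeff_mul_degree_le hdec (n := n) hn
  have hinv : ∀ θ, c (irrCongr e θ) = c θ := fun θ => by
    rw [← Nat.cast_inj (R := ℂ), ← hc, ← hc]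
    refine Eq.trans ?_ (classInner_congr e (fun a : Q => χ a) θ.1)
    congr 1
    funext a
    exact (H26.isClassFunction_of_isCharacter hχ (a : G) y).symm
  have hsingle : ∀ θ, c θ ≠ 0 → irrCongr e θ = θ := by
    intro θ hθ
    set f : Cfsg.IrrCharacter Q → Cfsg.IrrCharacter Q := irrCongr e
    have hit : ∀ (m : ℕ) (η : Cfsg.IrrCharacter Q), (f^[m] η).1 = fun a => η.1 ((e ^ m) a) := by
      intro m
      induction m with
      | zero => intro η; rfl
      | succ m ihm =>
        intro η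
        rw [Function.iterate_succ, Function.comp_apply, ihm]
        funext a
        rw [irrCongr_apply, pow_succ']
        rfl
    have hper : Function.IsPeriodicPt f (p ^ k) θ := Subtype.ext (by rw [hit, he]; rfl)
    obtain ⟨i, -, hi⟩ := (Nat.dvd_prime_pow hp.out).1 hper.minimalPeriod_dvd
    rcases Nat.eq_zero_or_pos i with rfl | hi0
    · exact Function.minimalPeriod_eq_one_iff_isFixedPt.1 (by rw [hi, pow_zero])
    exfalso
    have hci : ∀ m, c (f^[m] θ) = c θ := by
      intro m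
      induction m with
      | zero => rfl
      | succ m ihm => rw [Function.iterate_succ_apply', hinv, ihm]
    have h1 : ((Finset.range (Function.minimalPeriod f θ)).image fun m => f^[m] θ).card =
        Function.minimalPeriod f θ := by
      rw [Finset.card_image_of_injOn, Finset.card_range]
      rw [Finset.coe_range]
      exact Function.iterate_injOn_Iio_minimalPeriod
    have h2 : Function.minimalPeriod f θ ≤ n := by
      rw [← h1, hnsum, Finset.card_eq_sum_ones]
      refine le_trans (Finset.sum_le_sum fun η hη => ?_)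
        (Finset.sum_le_sum_of_subset (Finset.subset_univ _))
      obtain ⟨m, -, rfl⟩ := Finset.mem_image.1 hη
      exact Nat.one_le_iff_ne_zero.2 (mul_ne_zero (by rw [hci]; exact hθ)
        (H44.charDegree_pos _).ne')
    have h3 : p ≤ p ^ i := Nat.le_self_pow hi0.ne' p
    omega
  obtain ⟨θ, hθc, hθ1⟩ : ∃ θ, c θ ≠ 0 ∧ θ ≠ H26.oneIrr Q := by
    by_contra hcon
    simp only [not_exists, not_and, not_not] at hcon
    refine hQne ((Subgroup.eq_bot_iff_forall Q).2 fun a ha => hfaith a ?_)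
    have h1 := congrFun hdec ⟨a, ha⟩
    have h2 := congrFun hdec 1
    simp only [Finset.sum_apply, Pi.smul_apply, smul_eq_mul, OneMemClass.coe_one] at h1 h2
    rw [h1, h2]
    refine Finset.sum_congr rfl fun η _ => ?_
    rcases eq_or_ne (c η) 0 with h | h
    · simp [h]
    · rw [hcon η h, H26.oneIrr_val, H26.oneIrr_val]
  have hθe : ∀ a, θ.1 (e a) = θ.1 a := fun a => congrFun (congrArg Subtype.val (hsingle θ hθc)) a
  set d := Cfsg.charDegree (θ : Q → ℂ) with hddef
  have hd1 : d ≠ 1 := by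
    intro h1
    obtain ⟨f, hf⟩ := H26.exists_hom_of_isCharacter_one (H26.irr_isCharacter θ)
      (by rw [← H44.cast_charDegree, ← hddef, h1, Nat.cast_one])
    refine hθ1 (Subtype.ext (funext fun a => ?_))
    have htop := hgen' f.ker inferInstance fun b => by
      rw [MonoidHom.mem_ker, map_mul, map_inv, inv_mul_eq_one]
      exact Units.ext (((hf b).trans (hθe b).symm).trans (hf (e b)).symm)
    rw [H26.oneIrr_val, ← hf, MonoidHom.mem_ker.1 (htop ▸ Subgroup.mem_top a), Units.val_one]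
  have hdvd := dvd_degree_sq_sub_one e he hcl hefix hmin' hgen' θ hθe hd1
  rw [← hddef] at hdvd
  have hd0 : 0 < d := H44.charDegree_pos θ
  have hcd : c θ * d ≤ n := by
    rw [hnsum]
    exact Finset.single_le_sum (f := fun η => c η * Cfsg.charDegree (η : Q → ℂ))
      (fun η _ => Nat.zero_le _) (Finset.mem_univ θ)
  have hdn : d ≤ n := (Nat.le_mul_of_pos_left d (Nat.pos_of_ne_zero hθc)).trans hcd
  have hdp : d + 1 = p := by
    have h2 : (d + 1) * (d - 1) = d ^ 2 - 1 := by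
      rw [← Nat.sq_sub_sq, one_pow]
    rw [← h2] at hdvd
    rcases hp.out.dvd_mul.1 hdvd with h | h
    · have := Nat.le_of_dvd (by omega) h
      omega
    · have := Nat.le_of_dvd (by omega) h
      omega
  have hnd : n = d := by omega
  refine ⟨by omega, ?_, ?_⟩
  · obtain ⟨j, hj⟩ := IsPGroup.iff_card.1 hQq
    obtain ⟨i, -, hi⟩ := (Nat.dvd_prime_pow hq).1 (hj ▸ (H44.charDegree_dvd_card θ : d ∣ _))
    have h2 : 2 ∣ d := by
      have := hp.out.eq_two_or_odd
      omega
    rw [show d = q ^ i from hi] at h2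
    have hq2 : (2 : ℕ) = q := (Nat.prime_dvd_prime_iff_eq Nat.prime_two hq).1
      (Nat.prime_two.dvd_of_dvd_pow h2)
    exact ⟨i, by rw [hnd, show d = q ^ i from hi, hq2]⟩
  · obtain ⟨m, hm, hmdec⟩ := H26.exists_nat_coeffs hχ
    obtain ⟨ψ, hψm, hψθ⟩ : ∃ ψ, m ψ ≠ 0 ∧ Cfsg.classInner (fun a : Q => ψ.1 a) θ.1 ≠ 0 := by
      by_contra hcon
      simp only [not_exists, not_and, not_not] at hcon
      refine hθc ?_
      rw [← Nat.cast_inj (R := ℂ), ← hc, Nat.cast_zero]
      have h0 : ∀ ψ : Cfsg.IrrCharacter G,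
          ∑ a : Q, (m ψ : ℂ) * ψ.1 a * conj (θ.1 a) = 0 := by
        intro ψ
        rcases eq_or_ne (m ψ) 0 with h | h
        · simp [h]
        have h1 := hcon ψ h
        rw [Cfsg.classInner, mul_eq_zero, or_iff_right (inv_ne_zero
          (Nat.cast_ne_zero.2 Nat.card_pos.ne'))] at h1
        simp only [mul_assoc, ← Finset.mul_sum, h1, mul_zero]
      simp only [Cfsg.classInner, congrFun hmdec, Finset.sum_apply, Pi.smul_apply, smul_eq_mul,
        Finset.sum_mul]
      rw [Finset.sum_comm, Finset.sum_eq_zero (fun ψ _ => h0 ψ), mul_zero]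
    obtain ⟨b, hb, hbdec⟩ := H26.exists_nat_coeffs
      (H26.isCharacter_comp (H26.irr_isCharacter ψ) Q.subtype)
    have hbsum := coeff_mul_degree_le hbdec (n := Cfsg.charDegree (ψ : G → ℂ))
      (H44.cast_charDegree ψ).symm
    have hbθ : b θ ≠ 0 := fun h => hψθ ((hb θ).trans (by rw [h, Nat.cast_zero]))
    have hψd : d ≤ Cfsg.charDegree (ψ : G → ℂ) := by
      rw [hbsum]
      exact le_trans (Nat.le_mul_of_pos_left d (Nat.pos_of_ne_zero hbθ))
        (Finset.single_le_sum (f := fun η => b η * Cfsg.charDegree (η : Q → ℂ))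
          (fun η _ => Nat.zero_le _) (Finset.mem_univ θ))
    have hmsum := coeff_mul_degree_le hmdec hn
    rw [← Finset.add_sum_erase _ _ (Finset.mem_univ ψ)] at hmsum
    have h1 : Cfsg.charDegree (ψ : G → ℂ) ≤ m ψ * Cfsg.charDegree (ψ : G → ℂ) :=
      Nat.le_mul_of_pos_left _ (Nat.pos_of_ne_zero hψm)
    have h3 : m ψ = 1 := by
      have h4 : m ψ * Cfsg.charDegree (ψ : G → ℂ) = 1 * Cfsg.charDegree (ψ : G → ℂ) := by omega
      exact Nat.eq_of_mul_eq_mul_right (H44.charDegree_pos ψ) h4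
    have hrest : ∀ η, η ≠ ψ → m η = 0 := by
      intro η hη
      have h0 := Finset.sum_eq_zero_iff.1
        (show ∑ x ∈ Finset.univ.erase ψ, m x * Cfsg.charDegree (x : G → ℂ) = 0 by omega) η
        (Finset.mem_erase.2 ⟨hη, Finset.mem_univ η⟩)
      exact (mul_eq_zero.1 h0).resolve_right (H44.charDegree_pos η).ne'
    rw [hmdec, Finset.sum_eq_single ψ (fun η _ hη => by rw [hrest η hη, Nat.cast_zero, zero_smul])
      (fun h => absurd (Finset.mem_univ ψ) h), h3, Nat.cast_one, one_smul]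
    exact ψ.2

end Cfsg.Agent.H43.SmallSolv
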