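import Mathlib

/-!
# Faithful modular representations of groups with a cyclic trivial intersection Sylow subgroup

The relative trace from the normaliser of the Sylow subgroup turns an endomorphism commuting with
the normaliser into an endomorphism commuting with the group, modulo traces from the trivial group.
-/

set_option autoImplicit false

namespace Cfsg.Agent.H43

open Polynomial Pointwise

/-- In characteristic `p` the geometric sum of length `p ^ n` is a power of `a - 1`. -/
theorem geom_sum_eq_sub_one_pow {R : Type*} [Ring R] {p : ℕ} [hp : Fact p.Prime] [CharP R p] (n : ℕ)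
    (a : R) : ∑ i ∈ Finset.range (p ^ n), a ^ i = (a - 1) ^ (p ^ n - 1) := by
  letI : Algebra (ZMod p) R := ZMod.algebra R p
  have h : (∑ i ∈ Finset.range (p ^ n), (X : (ZMod p)[X]) ^ i) = (X - 1) ^ (p ^ n - 1) := by
    refine mul_left_cancel₀ (X_sub_C_ne_zero (1 : ZMod p)) ?_
    rw [map_one, mul_geom_sum, ← pow_succ', Nat.sub_add_cancel (Nat.one_le_pow _ _ hp.out.pos),
      sub_pow_char_pow, one_pow]
  simpa using congrArg (aeval a) h

/-- Traces from the trivial group of a cyclic `p`-group kill the kernel of a power of `X - 1`. -/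
theorem sum_conj_apply_eq_zero {k V : Type*} [Field k] [AddCommGroup V] [Module k V] [Nontrivial V]
    {p : ℕ} [hp : Fact p.Prime] [CharP k p] (n : ℕ) (X Y : Module.End k V) (hXY : X * Y = 1)
    (m r : ℕ) (hm : (X - 1) ^ m = 0) (hr : m + r ≤ p ^ n) (h : Module.End k V) (v : V)
    (hv : ((X - 1) ^ r) v = 0) :
    (∑ i ∈ Finset.range (p ^ n), X ^ i * h * Y ^ i) v = 0 := by
  set t := X - 1 with ht
  let L := LinearMap.mulLeft k t
  let R := LinearMap.mulRight k t
  let Q := LinearMap.mulRight k Y
  haveI : CharP (Module.End k (Module.End k V)) p :=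
    charP_of_injective_algebraMap (RingHom.injective (algebraMap k (Module.End k (Module.End k V)))) p
  have hC : ∀ i : ℕ, X ^ i * h * Y ^ i = ((LinearMap.mulLeft k X * Q) ^ i) h := by
    intro i
    rw [(show Commute (LinearMap.mulLeft k X) Q from
      LinearMap.commute_mulLeft_right X Y).mul_pow, LinearMap.pow_mulLeft, LinearMap.pow_mulRight,
      Module.End.mul_apply, LinearMap.mulLeft_apply, LinearMap.mulRight_apply, mul_assoc]
  have hpow : X ^ (p ^ n) = 1 := by
    have h1 : (X - 1) ^ (p ^ n) = 0 := pow_eq_zero_of_le (le_of_add_le_left hr) hm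
    haveI : CharP (Module.End k V) p :=
      charP_of_injective_algebraMap (RingHom.injective (algebraMap k (Module.End k V))) p
    rwa [sub_pow_char_pow_of_commute p n (Commute.one_right X), one_pow, sub_eq_zero] at h1
  have hY : Y = X ^ (p ^ n - 1) := by
    calc Y = X ^ (p ^ n - 1) * X * Y := by
          rw [← pow_succ, Nat.sub_add_cancel (Nat.one_le_pow _ _ hp.out.pos), hpow, one_mul]
      _ = X ^ (p ^ n - 1) := by rw [mul_assoc, hXY, mul_one]
  have hcomm : Commute X Y := hY ▸ Commute.self_pow X _
  have hD : LinearMap.mulLeft k X * Q - 1 = (L - R) * Q := by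
    refine LinearMap.ext fun g => ?_
    simp only [L, R, Q, LinearMap.sub_apply, Module.End.mul_apply, Module.End.one_apply,
      LinearMap.mulLeft_apply, LinearMap.mulRight_apply, ht]
    have hg : g * Y * X = g * (Y * X) := mul_assoc _ _ _
    rw [sub_mul, one_mul, mul_sub, mul_one]
    rw [mul_assoc g, ← hcomm.eq, hXY, mul_one]
    abel
  have hcom : Commute (L - R) Q := by
    refine Commute.sub_left (LinearMap.commute_mulLeft_right t Y) (LinearMap.ext fun g => ?_)
    simp only [R, Q, Module.End.mul_apply, LinearMap.mulRight_apply, mul_assoc]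
    congr 1
    rw [ht, mul_sub, sub_mul, mul_one, one_mul, hcomm.eq]
  have key : ∀ (l : ℕ) (g : Module.End k V) (i j : ℕ) (w : V), (t ^ j) w = 0 → m + j ≤ i + l + 1 →
      (t ^ i) ((((L - R) ^ l) g) w) = 0 := by
    intro l
    induction l with
    | zero =>
      intro g i j w hw hij
      rcases Nat.eq_zero_or_pos j with rfl | hj
      · rw [pow_zero, Module.End.one_apply] at hw
        rw [hw, map_zero, map_zero]
      · rw [pow_eq_zero_of_le (by omega : m ≤ i) hm, LinearMap.zero_apply]
    | succ l ih =>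
      intro g i j w hw hij
      rw [pow_succ', Module.End.mul_apply]
      simp only [L, R, LinearMap.sub_apply, LinearMap.mulLeft_apply, LinearMap.mulRight_apply,
        Module.End.mul_apply, map_sub]
      rw [sub_eq_zero]
      have h1 := ih g (i + 1) j w hw (by omega)
      rw [pow_succ, Module.End.mul_apply] at h1
      rw [h1]
      rcases Nat.eq_zero_or_pos j with rfl | hj
      · rw [pow_zero, Module.End.one_apply] at hw
        rw [hw, map_zero, map_zero, map_zero]
      · refine (ih g i (j - 1) (t w) ?_ (by omega)).symm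
        rw [← Module.End.mul_apply, ← pow_succ, Nat.sub_add_cancel hj]
        exact hw
  simp_rw [hC]
  rw [← LinearMap.sum_apply, geom_sum_eq_sub_one_pow, hD, hcom.mul_pow, Module.End.mul_apply]
  have h2 := key (p ^ n - 1) ((Q ^ (p ^ n - 1)) h) 0 r v hv
    (by have := Nat.one_le_pow n p hp.out.pos; omega)
  rwa [pow_zero, Module.End.one_apply] at h2

/-- Binomial sums over exponents with vanishing power sums. -/
theorem sum_choose_eq {k ι : Type*} [Field k] {p : ℕ} [hp : Fact p.Prime] [CharP k p] [Fintype ι]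
    (a : ι → ℕ) (e : ℕ) (he : e < p) (he0 : 0 < e) (hlow : ∀ i, 0 < i → i < e → ∑ u, (a u : k) ^ i = 0)
    (htop : ∑ u, (a u : k) ^ e = (e : k)) :
    (∀ j, 0 < j → j < e → ∑ u, ((a u).choose j : k) = 0) ∧ ∑ u, ((a u).choose e : k) ≠ 0 := by
  have hfac : ∀ j, j ≤ e → ((j.factorial : ℕ) : k) ≠ 0 := fun j hj => by
    rw [Ne, CharP.cast_eq_zero_iff k p, hp.out.dvd_factorial]
    omega
  have key : ∀ j, 0 < j → j ≤ e → ((j.factorial : ℕ) : k) * ∑ u, ((a u).choose j : k) =
      if j = e then (e : k) else 0 := by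
    intro j hj hje
    have h1 : ∀ u, ((j.factorial : ℕ) : k) * ((a u).choose j : k) =
        ∑ i ∈ Finset.range (j + 1), (descPochhammer k j).coeff i * (a u : k) ^ i := fun u => by
      rw [← Nat.cast_mul, ← Nat.descFactorial_eq_factorial_mul_choose,
        ← descPochhammer_eval_eq_descFactorial,
        eval_eq_sum_range' (Nat.lt_succ_of_le (descPochhammer_natDegree k j).le)]
    rw [Finset.mul_sum, Finset.sum_congr rfl fun u _ => h1 u, Finset.sum_comm,
      Finset.sum_eq_single j]
    · have hc : (descPochhammer k j).coeff j = 1 := by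
        have := monic_descPochhammer k j
        rw [Monic, leadingCoeff, descPochhammer_natDegree] at this
        exact this
      simp only [hc, one_mul]
      split_ifs with h
      · rw [h, htop]
      · exact hlow j hj (lt_of_le_of_ne hje h)
    · intro i hi hij
      rw [← Finset.mul_sum]
      rcases Nat.eq_zero_or_pos i with rfl | hi0
      · rw [coeff_zero_eq_eval_zero, descPochhammer_ne_zero_eval_zero k hj.ne', zero_mul]
      · rw [hlow i hi0 (by have := Finset.mem_range.mp hi; omega), mul_zero]
    · intro h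
      exact absurd (Finset.mem_range.mpr (Nat.lt_succ_self j)) h
  refine ⟨fun j hj hje => ?_, fun h0 => ?_⟩
  · have h := key j hj hje.le
    rw [if_neg hje.ne] at h
    exact (mul_eq_zero.mp h).resolve_left (hfac j hje.le)
  · have h := key e he0 le_rfl
    rw [if_pos rfl, h0, mul_zero, eq_comm, CharP.cast_eq_zero_iff k p] at h
    exact absurd (Nat.le_of_dvd he0 h) (by omega)

section Main

variable {G : Type*} [Group G] {p n : ℕ}

/-- An intertwining endomorphism of an irreducible representation is zero or injective. -/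
theorem eq_zero_or_injective_of_commute {k V : Type*} [Field k] [AddCommGroup V] [Module k V]
    (ρ : Representation k G V) (hirr : ρ.IsIrreducible) (T : Module.End k V)
    (hT : ∀ g, T * ρ g = ρ g * T) : T = 0 ∨ Function.Injective T := by
  haveI := hirr
  have h := IsSimpleOrder.eq_bot_or_eq_top (⟨LinearMap.ker T, fun g v hv => by
    rw [LinearMap.mem_ker] at hv ⊢
    rw [← Module.End.mul_apply, hT, Module.End.mul_apply, hv, map_zero]⟩ : Subrepresentation ρ)
  rcases h with h | h
  · exact Or.inr (LinearMap.ker_eq_bot.mp (congrArg Subrepresentation.toSubmodule h))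
  · exact Or.inl (LinearMap.ker_eq_top.mp (congrArg Subrepresentation.toSubmodule h))

variable [Finite G] [hp : Fact p.Prime]

/-- The action of the normaliser on a cyclic subgroup, as exponents. -/
theorem exists_exponentHom (P : Subgroup G) (x : G) (hx : Subgroup.zpowers x = P)
    (hcard : Nat.card P = p ^ n) :
    ∃ φ : Subgroup.normalizer (P : Set G) →* (ZMod (p ^ n))ˣ,
      (∀ g : Subgroup.normalizer (P : Set G),
        (g : G) * x * (g : G)⁻¹ = x ^ ((φ g : ZMod (p ^ n))).val) ∧
      P.subgroupOf (Subgroup.normalizer (P : Set G)) ≤ φ.ker := by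
  classical
  haveI : NeZero (p ^ n) := ⟨pow_ne_zero _ hp.out.ne_zero⟩
  have ho : orderOf x = p ^ n := by rw [← Nat.card_zpowers, hx, hcard]
  have hmem : ∀ g : Subgroup.normalizer (P : Set G), ∃ a : ℕ, (g : G) * x * (g : G)⁻¹ = x ^ a := by
    intro g
    have h : (g : G) * x * (g : G)⁻¹ ∈ P :=
      (Subgroup.mem_normalizer_iff.mp g.2 x).mp (hx ▸ Subgroup.mem_zpowers x)
    have h' := (SetLike.ext_iff.mp hx _).mpr h
    rw [← mem_powers_iff_mem_zpowers, Submonoid.mem_powers_iff] at h'
    obtain ⟨a, ha⟩ := h'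
    exact ⟨a, ha.symm⟩
  choose a ha using hmem
  have huniq : ∀ i j : ℕ, x ^ i = x ^ j → (i : ZMod (p ^ n)) = j := fun i j h => by
    rw [ZMod.natCast_eq_natCast_iff, ← ho]
    exact pow_eq_pow_iff_modEq.mp h
  have hmul : ∀ g g' : Subgroup.normalizer (P : Set G),
      (a (g * g') : ZMod (p ^ n)) = a g * a g' := by
    intro g g'
    rw [← Nat.cast_mul]
    refine huniq _ _ ?_
    calc x ^ a (g * g') = (g : G) * ((g' : G) * x * (g' : G)⁻¹) * (g : G)⁻¹ := by
          rw [← ha]; simp only [Subgroup.coe_mul]; group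
      _ = x ^ (a g * a g') := by rw [ha, ← conj_pow, ha, ← pow_mul]
  have hone : (a 1 : ZMod (p ^ n)) = 1 := by
    rw [← Nat.cast_one]
    refine huniq _ _ ?_
    rw [← ha]; simp
  let ψ : Subgroup.normalizer (P : Set G) →* ZMod (p ^ n) :=
    { toFun := fun g => (a g : ZMod (p ^ n)), map_one' := hone, map_mul' := hmul }
  refine ⟨ψ.toHomUnits, fun g => ?_, fun g hg => ?_⟩
  · rw [MonoidHom.coe_toHomUnits]
    show _ = x ^ ((a g : ZMod (p ^ n))).val
    rw [ZMod.val_natCast, ← ho, pow_mod_orderOf, ha]
  · rw [MonoidHom.mem_ker]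
    refine Units.ext ?_
    rw [MonoidHom.coe_toHomUnits, Units.val_one]
    show (a g : ZMod (p ^ n)) = 1
    rw [← Nat.cast_one]
    refine huniq _ _ ?_
    rw [← ha, pow_one]
    have hgP : (g : G) ∈ Subgroup.zpowers x := hx ▸ hg
    obtain ⟨z, hz⟩ := Subgroup.mem_zpowers_iff.mp hgP
    rw [← hz, mul_inv_eq_iff_eq_mul]
    exact (Commute.zpow_left (Commute.refl x) z).eq

/-- Power sums and binomial sums over a group of exponents of order prime to `p`. -/
theorem sum_exponents {k : Type*} [Field k] [CharP k p] (A : Subgroup (ZMod (p ^ n))ˣ) [Fintype A]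
    (hn : 1 ≤ n) (hA : ¬ p ∣ Nat.card A) :
    0 < Nat.card A ∧ Nat.card A < p ∧
      (∀ j, 0 < j → j < Nat.card A →
        ∑ u : A, (((u : (ZMod (p ^ n))ˣ) : ZMod (p ^ n)).val.choose j : k) = 0) ∧
      ∑ u : A, (((u : (ZMod (p ^ n))ˣ) : ZMod (p ^ n)).val.choose (Nat.card A) : k) ≠ 0 := by
  classical
  haveI : NeZero (p ^ n) := ⟨pow_ne_zero _ hp.out.ne_zero⟩
  have hd : p ∣ p ^ n := dvd_pow_self p (by omega)
  set red := ZMod.unitsMap hd
  have hker : Nat.card red.ker = p ^ (n - 1) := by
    have h := red.ker.card_mul_index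
    rw [Subgroup.index_ker, MonoidHom.range_eq_top.mpr (ZMod.unitsMap_surjective hd),
      Subgroup.card_top, Nat.card_eq_fintype_card, Nat.card_eq_fintype_card,
      Nat.card_eq_fintype_card, ZMod.card_units_eq_totient, ZMod.card_units_eq_totient,
      Nat.totient_prime_pow hp.out (by omega), Nat.totient_prime hp.out] at h
    rw [Nat.card_eq_fintype_card]
    exact Nat.eq_of_mul_eq_mul_right (Nat.sub_pos_of_lt hp.out.one_lt) h
  let redA : A →* (ZMod p)ˣ := red.comp A.subtype
  have hinj : Function.Injective redA := by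
    rw [← MonoidHom.ker_eq_bot_iff, eq_bot_iff]
    intro u hu
    have h1 : orderOf (u : (ZMod (p ^ n))ˣ) ∣ p ^ (n - 1) :=
      hker ▸ Subgroup.orderOf_dvd_natCard _ hu
    have h2 : orderOf (u : (ZMod (p ^ n))ˣ) ∣ Nat.card A := Subgroup.orderOf_dvd_natCard _ u.2
    have h3 : orderOf (u : (ZMod (p ^ n))ˣ) = 1 := Nat.eq_one_of_dvd_coprimes
      ((hp.out.coprime_iff_not_dvd.mpr hA).pow_left (n - 1)) h1 h2
    exact Subgroup.mem_bot.mpr (Subtype.ext (orderOf_eq_one_iff.mp h3))
  set e := Nat.card A
  have hepos : 0 < e := Nat.card_pos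
  have helt : e < p := by
    have h := Nat.card_le_card_of_injective redA hinj
    rw [Nat.card_eq_fintype_card (α := (ZMod p)ˣ), ZMod.card_units] at h
    have := hp.out.two_le
    omega
  let ι : (ZMod p)ˣ →* k := (ZMod.castHom (dvd_refl p) k).toMonoidHom.comp (Units.coeHom _)
  have hι : Function.Injective ι :=
    (ZMod.castHom (dvd_refl p) k).injective.comp Units.val_injective
  let χ : A →* k := ι.comp redA
  have hχ : ∀ u : A, χ u = (((u : (ZMod (p ^ n))ˣ) : ZMod (p ^ n)).val : k) := by
    intro u
    show ZMod.castHom (dvd_refl p) k ((red (u : (ZMod (p ^ n))ˣ) : ZMod p)) = _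
    rw [ZMod.unitsMap_val, ← ZMod.natCast_val, map_natCast]
  have hχinj : Function.Injective χ := hι.comp hinj
  have hlow : ∀ i, 0 < i → i < e →
      ∑ u : A, (((u : (ZMod (p ^ n))ˣ) : ZMod (p ^ n)).val : k) ^ i = 0 := by
    intro i hi0 hie
    haveI : IsCyclic A := isCyclic_of_injective redA hinj
    obtain ⟨b, hb⟩ := IsCyclic.exists_ofOrder_eq_natCard (α := A)
    have hb1 : χ b ^ i ≠ 1 := by
      rw [← map_pow, ← map_one χ]
      intro h
      have := orderOf_dvd_of_pow_eq_one (hχinj h)
      rw [hb] at this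
      exact absurd (Nat.le_of_dvd hi0 this) (by omega)
    have h : χ b ^ i * (∑ u : A, χ u ^ i) = ∑ u : A, χ u ^ i := by
      rw [Finset.mul_sum]
      refine Fintype.sum_equiv (Equiv.mulLeft b) _ _ fun u => ?_
      rw [Equiv.coe_mulLeft, map_mul, mul_pow]
    have h0 : ∑ u : A, χ u ^ i = 0 := by
      by_contra hne
      exact hb1 (mul_eq_right₀ hne |>.mp h)
    simpa only [hχ] using h0
  have htop : ∑ u : A, (((u : (ZMod (p ^ n))ˣ) : ZMod (p ^ n)).val : k) ^ e = (e : k) := by
    simp only [← hχ, ← map_pow]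
    rw [Finset.sum_congr rfl fun u _ => show χ (u ^ e) = 1 by rw [pow_card_eq_one', map_one],
      Finset.sum_const, Finset.card_univ, nsmul_one]
    simp only [e, Nat.card_eq_fintype_card]
  exact ⟨hepos, helt, sum_choose_eq _ e helt hepos hlow htop⟩

variable {k V : Type*} [Field k] [CharP k p] [AddCommGroup V] [Module k V] [FiniteDimensional k V]

/-- The dimension of a faithful irreducible representation in characteristic `p`. -/
theorem dim_ge_of_cyclic_ti (P : Sylow p G) (hcyc : IsCyclic P) (hn : 2 ≤ n)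
    (hcard : Nat.card P = p ^ n) (hTI : ∀ Q : Sylow p G, Q ≠ P → (P : Subgroup G) ⊓ Q = ⊥)
    (ρ : Representation k G V) (hfaith : Function.Injective ρ) (hirr : ρ.IsIrreducible) :
    p ^ n - (p - 1) ≤ Module.finrank k V := by
  classical
  haveI := Fintype.ofFinite G
  haveI := hirr
  haveI : Nontrivial V := (Submodule.nontrivial_iff k).1
    (Subrepresentation.toSubmodule_injective (ρ := ρ)).nontrivial
  obtain ⟨⟨x, hxP⟩, hgen⟩ := hcyc.exists_generator
  have hx : Subgroup.zpowers x = (P : Subgroup G) := by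
    refine le_antisymm (Subgroup.zpowers_le.mpr hxP) fun y hy => ?_
    obtain ⟨z, hz⟩ := Subgroup.mem_zpowers_iff.mp (hgen ⟨y, hy⟩)
    exact Subgroup.mem_zpowers_iff.mpr ⟨z, by simpa using congrArg Subtype.val hz⟩
  have hq1 : 1 ≤ p ^ n := Nat.one_le_pow _ _ hp.out.pos
  have ho : orderOf x = p ^ n := by rw [← Nat.card_zpowers, hx]; exact hcard
  haveI : CharP (Module.End k V) p :=
    charP_of_injective_algebraMap (RingHom.injective (algebraMap k (Module.End k V))) p
  set t : Module.End k V := ρ x - 1 with ht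
  have htq : t ^ (p ^ n) = 0 := by
    rw [ht, sub_pow_char_pow_of_commute p n (Commute.one_right _), one_pow, ← map_pow, ← ho,
      pow_orderOf_eq_one, map_one, sub_self]
  have hex : ∃ m, t ^ m = 0 := ⟨_, htq⟩
  set m := Nat.find hex with hmdef
  have hm : t ^ m = 0 := Nat.find_spec hex
  have hmd : m ≤ Module.finrank k V := by
    refine Nat.find_min' hex ?_
    have h := LinearMap.aeval_self_charpoly t
    rwa [IsNilpotent.charpoly_eq_X_pow_finrank (M := V) ⟨_, htq⟩, map_pow, aeval_X] at h
  refine le_trans ?_ hmd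
  by_contra hlt
  push Not at hlt
  have hm0 : 0 < m := by
    rcases Nat.eq_zero_or_pos m with h | h
    · rw [h, pow_zero] at hm; exact absurd hm one_ne_zero
    · exact h
  -- the exponents of the normaliser
  set N := Subgroup.normalizer ((P : Subgroup G) : Set G) with hN
  obtain ⟨φ, hφ, hPφ⟩ := exists_exponentHom (p := p) (n := n) (P : Subgroup G) x hx hcard
  haveI : NeZero (p ^ n) := ⟨pow_ne_zero _ hp.out.ne_zero⟩
  set A := φ.range with hA
  haveI : Fintype A := Fintype.ofFinite _
  have hAp : ¬ p ∣ Nat.card A := fun h => by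
    rw [hA, ← Subgroup.index_ker] at h
    refine P.not_dvd_index (h.trans ((Subgroup.index_dvd_of_le hPφ).trans ?_))
    exact Dvd.intro _ (Subgroup.relIndex_mul_index (Subgroup.le_normalizer (H := (P : Subgroup G))))
  obtain ⟨he0, hep, hlow, htop⟩ := sum_exponents (k := k) A (by omega) hAp
  set e := Nat.card A with he
  rcases le_or_gt m e with hme | hme
  · -- then the subgroup of order `p` acts trivially
    have hp0 : t ^ p = 0 := pow_eq_zero_of_le (by omega) hm
    rw [ht, sub_pow_char_of_commute p (Commute.one_right _), one_pow, ← map_pow, sub_eq_zero,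
      ← map_one ρ] at hp0
    have := orderOf_dvd_of_pow_eq_one (hfaith hp0)
    rw [ho] at this
    have h2 := Nat.le_of_dvd hp.out.pos this
    have h3 : p < p ^ n := by
      calc p = p ^ 1 := (pow_one p).symm
        _ < p ^ n := Nat.pow_lt_pow_right hp.out.one_lt (by omega)
    omega
  let f : Module.End k V := ∑ u : A, (ρ (x ^ ((u : (ZMod (p ^ n))ˣ) : ZMod (p ^ n)).val) - 1)
  -- the values of `f` low in the socle series
  let c : ℕ → k := fun j =>
    ∑ u : A, (((u : (ZMod (p ^ n))ˣ) : ZMod (p ^ n)).val.choose j : k)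
  have hfv : ∀ v : V, (t ^ (e + 1)) v = 0 → f v = c e • (t ^ e) v := by
    intro v hv
    have hterm : ∀ b : ℕ, b < p ^ n → (ρ (x ^ b) - 1) v =
        ∑ j ∈ Finset.Ico 1 (e + 1), (b.choose j : k) • (t ^ j) v := by
      intro b hb
      have hexp : (ρ (x ^ b)) v = ∑ j ∈ Finset.range (p ^ n + e + 1), (b.choose j : k) • (t ^ j) v := by
        rw [map_pow, show ρ x = t + 1 by rw [ht, sub_add_cancel],
          (Commute.one_right t).add_pow]
        rw [LinearMap.sum_apply]
        refine (Finset.sum_subset (s₂ := Finset.range (p ^ n + e + 1))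
          (fun j hj => Finset.mem_range.mpr (by have := Finset.mem_range.mp hj; omega)) ?_).trans ?_
        · intro j _ hj
          rw [Finset.mem_range, not_lt] at hj
          simp [Nat.choose_eq_zero_of_lt (show b < j by omega)]
        · refine Finset.sum_congr rfl fun j _ => ?_
          rw [one_pow, mul_one, ← nsmul_eq_mul', LinearMap.smul_apply, Nat.cast_smul_eq_nsmul]
      rw [LinearMap.sub_apply, Module.End.one_apply, hexp,
        ← Finset.sum_range_add_sum_Ico _ (show e + 1 ≤ p ^ n + e + 1 by omega),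
        Finset.sum_eq_zero (s := Finset.Ico (e + 1) (p ^ n + e + 1)) (fun j hj => by
          rw [← Nat.sub_add_cancel (Finset.mem_Ico.mp hj).1, pow_add, Module.End.mul_apply, hv,
            map_zero, smul_zero]), add_zero, Finset.range_eq_Ico,
        Finset.sum_eq_sum_Ico_succ_bot (show 0 < e + 1 by omega)]
      simp
    simp only [f, LinearMap.sum_apply]
    rw [Finset.sum_congr rfl fun u _ => hterm _ (ZMod.val_lt _), Finset.sum_comm,
      Finset.sum_eq_single e]
    · rw [← Finset.sum_smul]
    · intro j hj hje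
      rw [Finset.mem_Ico] at hj
      rw [← Finset.sum_smul, hlow j (by omega) (by omega), zero_smul]
    · intro h
      exact absurd (Finset.mem_Ico.mpr ⟨he0, Nat.lt_succ_self e⟩) h
  -- `f` commutes with the normaliser
  have hfN : ∀ g : N, ρ (g : G) * f * ρ (g : G)⁻¹ = f := by
    intro g
    simp only [f, Finset.mul_sum, Finset.sum_mul]
    refine Fintype.sum_equiv (Equiv.mulLeft (⟨φ g, g, rfl⟩ : A)) _ _ fun u => ?_
    rw [mul_sub, sub_mul, mul_one, ← map_mul, ← map_mul, ← map_mul, mul_inv_cancel, map_one,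
      Equiv.coe_mulLeft, ← conj_pow, hφ, ← pow_mul]
    congr 2
    rw [pow_eq_pow_iff_modEq, ho, ← ZMod.natCast_eq_natCast_iff]
    simp
  -- the relative trace
  let τ : G ⧸ N → Module.End k V := fun z => Quotient.liftOn' z (fun g => ρ g * f * ρ g⁻¹)
    (fun g g' h => by
      rw [QuotientGroup.leftRel_apply] at h
      show ρ g * f * ρ g⁻¹ = ρ g' * f * ρ g'⁻¹
      conv_lhs => rw [← hfN ⟨_, h⟩]
      simp only [← map_mul, ← mul_assoc]
      rw [show g * g⁻¹ * g' = g' by group]
      rw [mul_assoc (ρ g' * f), ← map_mul]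
      congr 2
      group)
  have hτmul : ∀ (s : G) (z : G ⧸ N), τ (s • z) = ρ s * τ z * ρ s⁻¹ := by
    intro s z
    induction z using QuotientGroup.induction_on with
    | H g =>
      show ρ (s * g) * f * ρ (s * g)⁻¹ = ρ s * (ρ g * f * ρ g⁻¹) * ρ s⁻¹
      simp only [mul_inv_rev, map_mul, mul_assoc]
  haveI : Fintype (G ⧸ N) := Fintype.ofFinite _
  set T : Module.End k V := ∑ z : G ⧸ N, τ z with hT
  have hTcomm : ∀ g, T * ρ g = ρ g * T := by
    intro g
    have h : ρ g * T * ρ g⁻¹ = T := by
      rw [hT, Finset.mul_sum, Finset.sum_mul]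
      exact Fintype.sum_equiv (MulAction.toPerm g) _ _ fun z => (hτmul g z).symm
    conv_lhs => rw [← h]
    rw [mul_assoc, ← map_mul, inv_mul_cancel, map_one, mul_one]
  -- outside the base point the orbits of `P` are regular
  set b : G ⧸ N := QuotientGroup.mk (1 : G)
  have hbase : ∀ s : (P : Subgroup G), (s : G) • b = b := fun s => by
    show QuotientGroup.mk ((s : G) * 1) = QuotientGroup.mk (1 : G)
    rw [mul_one, QuotientGroup.eq, mul_one]
    exact N.inv_mem (Subgroup.le_normalizer s.2)
  have hfree : ∀ (s : (P : Subgroup G)) (z : G ⧸ N), z ≠ b → (s : G) • z = z → s = 1 := by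
    intro s z hz hsz
    induction z using QuotientGroup.induction_on with
    | H g =>
      have h1 : g⁻¹ * ((s : G)) * g ∈ N := by
        have h := QuotientGroup.eq.mp (show QuotientGroup.mk ((s : G) * g) = QuotientGroup.mk g from hsz)
        have h' := N.inv_mem h
        simpa [mul_assoc] using h'
      by_contra hs
      have hgN : g ∉ N := fun h => hz (QuotientGroup.eq.mpr (by simpa using N.inv_mem h))
      have hQ : g • P ≠ P := fun h => hgN (Sylow.smul_eq_iff_mem_normalizer.mp h)
      have h2 : g⁻¹ * (s : G) * g ∈ (P : Subgroup G) := by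
        have hpg : IsPGroup p (Subgroup.zpowers (g⁻¹ * (s : G) * g)) := by
          have := (P.2 s)
          obtain ⟨i, hi⟩ := this
          refine IsPGroup.of_card (n := Nat.log p (orderOf (g⁻¹ * (s : G) * g))) ?_
          rw [Nat.card_zpowers]
          have hd : orderOf (g⁻¹ * (s : G) * g) ∣ p ^ i := by
            refine orderOf_dvd_of_pow_eq_one ?_
            have : g⁻¹ * (s : G) * g = MulAut.conj g⁻¹ (s : G) := by simp
            rw [this, ← map_pow, ← Subgroup.coe_pow, hi, Subgroup.coe_one, map_one]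
          obtain ⟨l, -, hl⟩ := (Nat.dvd_prime_pow hp.out).mp hd
          rw [hl, Nat.log_pow hp.out.one_lt]
        have hle : Subgroup.zpowers (g⁻¹ * (s : G) * g) ≤ N := Subgroup.zpowers_le.mpr h1
        haveI : ((P : Subgroup G).subgroupOf N).Normal := Subgroup.normal_in_normalizer
        have h3 : (⟨_, h1⟩ : N) ∈ ((P.subtype Subgroup.le_normalizer : Sylow p N) : Subgroup N) := by
          haveI : ((P.subtype Subgroup.le_normalizer : Sylow p N) : Subgroup N).Normal := by
            rw [Sylow.coe_subtype]; infer_instance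
          obtain ⟨Q, hQ'⟩ := (hpg.comap_of_injective N.subtype N.subtype_injective).exists_le_sylow
          have huniq : Q = P.subtype Subgroup.le_normalizer := by
            haveI := Sylow.unique_of_normal (P.subtype Subgroup.le_normalizer : Sylow p N) inferInstance
            exact Subsingleton.elim _ _
          rw [← huniq]
          exact hQ' (show ((⟨_, h1⟩ : N) : G) ∈ Subgroup.zpowers (g⁻¹ * (s : G) * g) from
            Subgroup.mem_zpowers _)
        exact h3
      have h4 : (s : G) ∈ (P : Subgroup G) ⊓ (g • P : Sylow p G) := by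
        refine ⟨s.2, ?_⟩
        show (s : G) ∈ MulAut.conj g • (P : Subgroup G)
        rw [Subgroup.mem_pointwise_smul_iff_inv_smul_mem]
        simpa [mul_assoc] using h2
      rw [hTI _ hQ, Subgroup.mem_bot] at h4
      exact hs (Subtype.ext h4)
  set R := {o : Quotient (MulAction.orbitRel (P : Subgroup G) (G ⧸ N)) // o.out ≠ b}
  haveI : Fintype R := Fintype.ofFinite _
  set h₀ : Module.End k V := ∑ o : R, τ o.1.out with hh₀
  haveI : Fintype (P : Subgroup G) := Fintype.ofFinite _
  have hsplit : T = f + ∑ s : (P : Subgroup G), ρ (s : G) * h₀ * ρ (s : G)⁻¹ := by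
    have hb : τ b = f := by
      show ρ 1 * f * ρ 1⁻¹ = f
      simp
    rw [hT, ← Finset.add_sum_erase Finset.univ τ (Finset.mem_univ b), hb]
    congr 1
    simp only [hh₀, Finset.mul_sum, Finset.sum_mul, ← hτmul]
    rw [← Finset.sum_product']
    refine (Finset.sum_bij (fun (so : ↥(P : Subgroup G) × R) _ => (so.1 : G) • so.2.1.out)
      ?_ ?_ ?_ (fun _ _ => rfl)).symm
    · rintro ⟨s, o⟩ -
      refine Finset.mem_erase.mpr ⟨fun h => o.2 ?_, Finset.mem_univ _⟩
      calc o.1.out = ((s⁻¹ : (P : Subgroup G)) : G) • ((s : G) • o.1.out) := by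
            rw [Subgroup.coe_inv, inv_smul_smul]
        _ = b := by rw [h, hbase]
    · rintro ⟨s, o⟩ - ⟨s', o'⟩ - h
      simp only at h
      have ho' : o = o' := by
        refine Subtype.ext ?_
        rw [← Quotient.out_eq o.1, ← Quotient.out_eq o'.1]
        refine Quotient.sound (?_ : MulAction.orbitRel _ _ o.1.out o'.1.out)
        refine MulAction.orbitRel_apply.mpr ⟨s⁻¹ * s', ?_⟩
        show ((s⁻¹ * s' : (P : Subgroup G)) : G) • o'.1.out = o.1.out
        rw [Subgroup.coe_mul, Subgroup.coe_inv, mul_smul, ← h, inv_smul_smul]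
      subst ho'
      have hs : s⁻¹ * s' = 1 := hfree _ _ o.2 (by
        rw [Subgroup.coe_mul, Subgroup.coe_inv, mul_smul, ← h, inv_smul_smul])
      rw [inv_mul_eq_one] at hs
      rw [hs]
    · intro z hz
      obtain ⟨s, hs⟩ : ∃ s : (P : Subgroup G),
          (s : G) • (Quotient.mk (MulAction.orbitRel (P : Subgroup G) (G ⧸ N)) z).out = z := by
        have h : MulAction.orbitRel (P : Subgroup G) (G ⧸ N) z
            (Quotient.mk (MulAction.orbitRel (P : Subgroup G) (G ⧸ N)) z).out :=
          Setoid.symm' _ (Quotient.mk_out (s := MulAction.orbitRel (P : Subgroup G) (G ⧸ N)) z)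
        exact MulAction.orbitRel_apply.mp h
      refine ⟨⟨s, ⟨_, fun h => (Finset.mem_erase.mp hz).1 ?_⟩⟩, Finset.mem_univ _, hs⟩
      exact hs.symm.trans ((congrArg (fun y => (s : G) • y) h).trans (hbase s))
  -- traces from the trivial group
  have htr : ∀ v : V, (t ^ (e + 1)) v = 0 → T v = f v := by
    intro v hv
    rw [hsplit, LinearMap.add_apply, add_eq_left, LinearMap.sum_apply]
    have hsum : (∑ i ∈ Finset.range (p ^ n), ρ x ^ i * h₀ * ρ x⁻¹ ^ i) v = 0 := by
      refine sum_conj_apply_eq_zero (p := p) n (ρ x) (ρ x⁻¹)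
        (by rw [← map_mul, mul_inv_cancel, map_one]) m (p ^ n - m) hm (by omega) h₀ v ?_
      rw [show p ^ n - m = (p ^ n - m - (e + 1)) + (e + 1) by omega, pow_add, Module.End.mul_apply,
        ← ht, hv, map_zero]
    rw [← LinearMap.sum_apply, ← hsum]
    refine congrArg (fun g : Module.End k V => g v) ?_
    have hinj : Function.Injective fun i : Fin (p ^ n) =>
        (⟨x ^ (i : ℕ), pow_mem hxP _⟩ : (P : Subgroup G)) := by
      intro i j h
      refine Fin.ext (pow_injOn_Iio_orderOf ?_ ?_ (congrArg Subtype.val h))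
      · show (i : ℕ) < orderOf x
        rw [ho]; exact i.2
      · show (j : ℕ) < orderOf x
        rw [ho]; exact j.2
    rw [← Fin.sum_univ_eq_sum_range]
    refine (Fintype.sum_bijective _ ((Fintype.bijective_iff_injective_and_card _).mpr ⟨hinj, ?_⟩)
      _ _ fun i => ?_).symm
    · rw [Fintype.card_fin, ← Nat.card_eq_fintype_card]; exact hcard.symm
    · simp [map_pow, ← inv_pow]
  obtain ⟨w, hw⟩ : ∃ w, (t ^ (m - 1)) w ≠ 0 := by
    by_contra h
    push Not at h
    exact Nat.find_min hex (m := m - 1) (by omega) (LinearMap.ext h)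
  set v := (t ^ (m - 1 - e)) w with hv
  have hv1 : (t ^ e) v ≠ 0 := by
    rwa [hv, ← Module.End.mul_apply, ← pow_add, show e + (m - 1 - e) = m - 1 by omega]
  have hv2 : (t ^ (e + 1)) v = 0 := by
    rw [hv, ← Module.End.mul_apply, ← pow_add, show e + 1 + (m - 1 - e) = m by omega, hm,
      LinearMap.zero_apply]
  have hv3 : (t ^ (e + 1)) ((t ^ e) v) = 0 := by
    rw [← Module.End.mul_apply, ← pow_add, show e + 1 + e = e + (e + 1) by omega, pow_add,
      Module.End.mul_apply, hv2, map_zero]
  have hT0 : T ((t ^ e) v) = 0 := by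
    rw [htr _ hv3, hfv _ hv3, ← Module.End.mul_apply, ← pow_add,
      show e + e = (e - 1) + (e + 1) by omega, pow_add, Module.End.mul_apply, hv2, map_zero,
      smul_zero]
  rcases eq_zero_or_injective_of_commute ρ hirr T hTcomm with h | h
  · have := htr _ hv2
    rw [h, LinearMap.zero_apply, hfv _ hv2, eq_comm, smul_eq_zero] at this
    exact this.elim htop hv1
  · exact hv1 (h (by rw [hT0, map_zero]))

end Main

end Cfsg.Agent.H43
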