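import Mathlib
import Cfsg.Agent.H43.SchurOrbit

/-!
# The degree of the field of character values
-/

set_option autoImplicit false
set_option maxHeartbeats 800000

namespace Cfsg.Agent.H43

open Module

/-- The degree of the field of values of a character is the index of the stabilizer of the
character under the power maps. -/
theorem finrank_adjoin_range_eq_index {P : Type*} [Group P] [Finite P] {N : ℕ} [NeZero N]
    (hcard : Nat.card P = N) (hN : ∀ g : P, g ^ N = 1) {χ : P → ℂ} (hχ : Cfsg.IsCharacter P χ) :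
    Module.finrank ℚ (IntermediateField.adjoin ℚ (Set.range χ)) = (powFix hN χ).index := by
  classical
  set K := IntermediateField.adjoin ℚ (Set.range χ) with hK
  have hfin : FiniteDimensional ℚ K := by
    have : Finite (Set.range χ) := Set.finite_range χ |>.to_subtype
    exact IntermediateField.finiteDimensional_adjoin fun x hx => by
      obtain ⟨g, rfl⟩ := hx
      exact (H45.isIntegral_char' hχ g).tower_top
  -- automorphisms attached to units
  have hex : ∀ k : (ZMod N)ˣ, ∃ σ : ℂ ≃+* ℂ, ∀ g, σ (χ g) = χ (g ^ (k : ZMod N).val) := fun k => by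
    obtain ⟨σ, hσ⟩ := H45.exists_ringAut_pow (NeZero.ne N) (ZMod.val_coe_unit_coprime k)
    exact ⟨σ, fun g => H45.ringAut_char hχ σ (hcard ▸ hσ) g⟩
  choose σ hσ using hex
  have hval : ∀ (g : P), χ g ∈ K := fun g => IntermediateField.subset_adjoin ℚ _ ⟨g, rfl⟩
  let Φ : (ZMod N)ˣ → (K →ₐ[ℚ] ℂ) := fun k => ((σ k).toRingHom.toRatAlgHom).comp K.val
  have happ : ∀ k (g : P), Φ k ⟨χ g, hval g⟩ = χ (g ^ (k : ZMod N).val) := fun k g => hσ k g
  have hext : ∀ φ ψ : K →ₐ[ℚ] ℂ, (∀ g : P, φ ⟨χ g, hval g⟩ = ψ ⟨χ g, hval g⟩) → φ = ψ := by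
    intro φ ψ h
    refine IntermediateField.algHom_ext_of_eq_adjoin ℚ hK fun x hx => ?_
    obtain ⟨g, rfl⟩ := hx
    exact h g
  have hiff : ∀ k l : (ZMod N)ˣ, Φ k = Φ l ↔ k⁻¹ * l ∈ powFix hN χ := by
    intro k l
    constructor
    · intro h g
      have h2 := congrArg (fun φ : K →ₐ[ℚ] ℂ => φ ⟨χ (g ^ ((k⁻¹ : (ZMod N)ˣ) : ZMod N).val), hval _⟩) h
      simp only [happ, ← pow_unit_mul (hN g), inv_mul_cancel, pow_unit_one (hN g)] at h2
      exact h2.symm
    · intro h
      refine hext _ _ fun g => ?_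
      rw [happ, happ, ← h (g ^ (k : ZMod N).val), ← pow_unit_mul (hN g), mul_inv_cancel_left]
  let F : (ZMod N)ˣ ⧸ powFix hN χ → (K →ₐ[ℚ] ℂ) :=
    Quotient.lift Φ fun k l h => (hiff k l).mpr (QuotientGroup.leftRel_apply.mp h)
  have hbij : Function.Bijective F := by
    refine ⟨?_, fun φ => ?_⟩
    · intro u v
      induction u using QuotientGroup.induction_on
      induction v using QuotientGroup.induction_on
      rename_i k l
      intro h
      exact QuotientGroup.eq.mpr ((hiff k l).mp h)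
    obtain ⟨α, hα⟩ := Field.exists_primitive_element ℚ K
    have hαint : IsIntegral ℚ α := IsIntegral.of_finite ℚ α
    have hroot : Polynomial.aeval (φ α) (minpoly ℚ (α : ℂ)) = 0 := by
      have hm : minpoly ℚ (α : ℂ) = minpoly ℚ α :=
        minpoly.algHom_eq K.val Subtype.val_injective α
      rw [hm, Polynomial.aeval_algHom_apply, minpoly.aeval, map_zero]
    obtain ⟨τ, hτ⟩ := H45.exists_ringAut_of_root (hαint.map K.val) hroot
    have hφ : φ = τ.toRingHom.toRatAlgHom.comp K.val := by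
      refine AlgHom.ext_of_adjoin_eq_top (s := {α}) ?_ ?_
      · rw [← IntermediateField.adjoin_simple_toSubalgebra_of_isAlgebraic hαint.isAlgebraic, hα]
        rfl
      · intro x hx
        rw [Set.mem_singleton_iff.mp hx]
        exact hτ.symm
    obtain ⟨k, hk, hτk⟩ := H45.exists_pow_of_ringAut τ (NeZero.ne N)
    refine ⟨QuotientGroup.mk (ZMod.unitOfCoprime k hk), hext _ _ fun g => ?_⟩
    rw [hφ]
    show Φ (ZMod.unitOfCoprime k hk) ⟨χ g, hval g⟩ = τ (χ g)
    rw [happ, H45.ringAut_char hχ τ (hcard ▸ hτk) g, ZMod.coe_unitOfCoprime, ZMod.val_natCast,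
      ← pow_eq_pow_mod _ (hN g)]
  rw [Subgroup.index_eq_card, Nat.card_eq_of_bijective F hbij, Nat.card_eq_fintype_card,
    AlgHom.card ℚ K ℂ]

end Cfsg.Agent.H43
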